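import Mathlib

/-!
A finite abelian group with an irreducible endomorphism is the additive group of a finite field,
the endomorphism being a multiplication.
-/

set_option autoImplicit false

namespace CfsgLib.Zas

universe u

/-- An irreducible endomorphism makes a field. -/
theorem exists_field {V : Type u} [AddCommGroup V] [Finite V] (T : V →+ V)
    (hirr : ∀ W : AddSubgroup V, (∀ v ∈ W, T v ∈ W) → W = ⊥ ∨ W = ⊤) {v₀ : V} (hv : v₀ ≠ 0) :
    ∃ (F : Type) (_ : Field F) (_ : Fintype F) (Φ : V ≃+ F) (ω : F), Φ v₀ = 1 ∧ (∀ v, Φ (T v) = ω * Φ v) ∧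
      Subring.closure ({ω} : Set F) = ⊤ := by
  classical
  let T' : AddMonoid.End V := T
  let A := Subring.closure ({T'} : Set (AddMonoid.End V))
  letI : CommRing A := Subring.closureCommRingOfComm fun x hx y hy => by
    rw [Set.mem_singleton_iff] at hx hy
    rw [hx, hy]
  have hTA : T' ∈ A := Subring.subset_closure rfl
  set t : A := ⟨T', hTA⟩
  have hgen : Subring.closure ({t} : Set A) = ⊤ := by
    refine (Subring.eq_top_iff' _).mpr fun a => ?_
    obtain ⟨z, hz⟩ := a
    induction hz using Subring.closure_induction with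
    | mem x hx =>
      rw [Set.mem_singleton_iff] at hx
      subst hx
      exact Subring.subset_closure rfl
    | zero => exact Subring.zero_mem _
    | one => exact Subring.one_mem _
    | add x y hx hy ihx ihy => exact Subring.add_mem _ ihx ihy
    | neg x hx ih => exact Subring.neg_mem _ ih
    | mul x y hx hy ihx ihy => exact Subring.mul_mem _ ihx ihy
  let ι : A →+ V := AddMonoidHom.mk' (fun a => (a : AddMonoid.End V) v₀) fun _ _ => rfl
  have hcomm : ∀ (a : A) v, (a : AddMonoid.End V) (T v) = T ((a : AddMonoid.End V) v) := fun a v =>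
    congrArg (fun z : A => (z : AddMonoid.End V) v) (mul_comm a t)
  have hsurj : Function.Surjective ι := by
    rcases hirr ι.range (by rintro _ ⟨a, rfl⟩; exact ⟨t * a, rfl⟩) with h | h
    · exact absurd ((AddSubgroup.mem_bot (G := V)).mp (h ▸ ⟨1, rfl⟩ : v₀ ∈ (⊥ : AddSubgroup V))) hv
    · exact AddMonoidHom.range_eq_top.mp h
  have hinj : ∀ a : A, a ≠ 0 → Function.Injective (a : AddMonoid.End V) := by
    intro a ha
    rcases hirr (AddMonoidHom.ker ((a : AddMonoid.End V) : V →+ V)) (fun v hv => by
      show (a : AddMonoid.End V) (T v) = 0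
      rw [hcomm, show (a : AddMonoid.End V) v = 0 from hv, map_zero]) with h | h
    · exact (AddMonoidHom.ker_eq_bot_iff _).mp h
    · exact absurd (Subtype.ext (DFunLike.ext (F := AddMonoid.End V) _ _ fun v => by
        have : v ∈ AddMonoidHom.ker ((a : AddMonoid.End V) : V →+ V) := h ▸ AddSubgroup.mem_top v
        exact this)) ha
  have hbij : Function.Bijective ι := by
    refine ⟨(injective_iff_map_eq_zero ι).mpr fun a ha => by_contra fun h0 => hv ?_, hsurj⟩
    exact hinj a h0 (ha.trans (map_zero _).symm)
  haveI : Finite A := Finite.of_injective _ hbij.1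
  haveI : Fintype A := Fintype.ofFinite A
  haveI : NoZeroDivisors A := ⟨fun {a b} hab => by
    rcases eq_or_ne a 0 with ha | ha
    · exact Or.inl ha
    · refine Or.inr (hbij.1 ?_)
      rw [map_zero]
      refine hinj a ha (Eq.trans ?_ (map_zero _).symm)
      show ι (a * b) = 0
      rw [hab, map_zero]⟩
  haveI : Nontrivial A := ⟨⟨0, 1, fun e => hv ((congrArg ι e).symm.trans (map_zero ι))⟩⟩
  haveI : IsDomain A := NoZeroDivisors.to_isDomain A
  letI : Field A := Fintype.fieldOfDomain A
  obtain ⟨p, hp⟩ := CharP.exists A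
  haveI := hp
  obtain ⟨n, hprime, hn⟩ := FiniteField.card A p
  haveI := Fact.mk hprime
  haveI : Fintype (GaloisField p n) := Fintype.ofFinite _
  have hcard : Fintype.card A = Fintype.card (GaloisField p n) := by
    rw [hn, ← Nat.card_eq_fintype_card, GaloisField.card p n n.ne_zero]
  let ε : A ≃+* GaloisField p n := FiniteField.ringEquivOfCardEq hcard
  let e : A ≃+ V := AddEquiv.ofBijective ι hbij
  refine ⟨GaloisField p n, inferInstance, inferInstance, e.symm.trans ε.toAddEquiv, ε t, ?_, fun v => ?_, ?_⟩
  · show ε (e.symm v₀) = 1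
    rw [show v₀ = e 1 from rfl, e.symm_apply_apply, map_one]
  · obtain ⟨a, rfl⟩ := e.surjective v
    show ε (e.symm (T (e a))) = ε t * ε (e.symm (e a))
    rw [show T (e a) = e (t * a) from rfl, e.symm_apply_apply, ← map_mul, e.symm_apply_apply]
  · have h1 := congrArg (Subring.map (ε : A →+* GaloisField p n)) hgen
    rw [RingHom.map_closure, Set.image_singleton, ← RingHom.range_eq_map,
      RingHom.range_eq_top.mpr ε.surjective] at h1
    exact h1

/-- An additive map twisting a generator of the field is semilinear. -/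
theorem exists_ringHom {F : Type*} [Field F] {ω ω' : F} (hgen : Subring.closure ({ω} : Set F) = ⊤) (S : F →+ F)
    (hS1 : S 1 ≠ 0) (hS : ∀ x, S (ω * x) = ω' * S x) :
    ∃ φ : F →+* F, φ ω = ω' ∧ ∀ x, S x = S 1 * φ x := by
  have key : ∀ x y, S (x * y) = (S 1)⁻¹ * S x * S y := by
    intro x
    have hx : x ∈ Subring.closure ({ω} : Set F) := hgen ▸ Subring.mem_top x
    induction hx using Subring.closure_induction with
    | mem x hx =>
      rw [Set.mem_singleton_iff] at hx
      subst hx
      intro y
      have h1 : S x = ω' * S 1 := by simpa using hS 1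
      rw [hS, h1]
      field_simp
    | zero => intro y; simp
    | one => intro y; field_simp
    | add x z _ _ ihx ihz => intro y; rw [add_mul, map_add, map_add, ihx, ihz]; ring
    | neg x _ ih => intro y; rw [neg_mul, map_neg, map_neg, ih]; ring
    | mul x z _ _ ihx ihz => intro y; rw [mul_assoc x z y, ihx (z * y), ihz y, ihx z]; ring
  refine ⟨{ toFun := fun x => (S 1)⁻¹ * S x
            map_one' := inv_mul_cancel₀ hS1
            map_mul' := fun x y => by rw [key]; ring
            map_zero' := by simp
            map_add' := fun x y => by rw [map_add, mul_add] }, ?_, fun x => ?_⟩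
  · show (S 1)⁻¹ * S ω = ω'
    have h1 : S ω = ω' * S 1 := by simpa using hS 1
    rw [h1]
    field_simp
  · show S x = S 1 * ((S 1)⁻¹ * S x)
    rw [← mul_assoc, mul_inv_cancel₀ hS1, one_mul]

end CfsgLib.Zas
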