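import Mathlib
import Cfsg.Agent.DegPSucc.Comb

/-!
The arithmetic of the multiplicities of cuspidal characters, for a general number of translations.
-/

set_option autoImplicit false

namespace CfsgLib.Zas

open CfsgLib.DegPSucc (one_exception)

variable {T J : Type*} [Fintype T] [Fintype J] [DecidableEq J]

theorem bound_of_gram (μ : T → J → ℕ) {q d E : ℕ} (hq : 2 ≤ q) (hE : d = 2 * E + 1) (hE0 : 1 ≤ E)
    (hmd : Fintype.card J * d = q - 1) (hgram : ∀ j k, ∑ t, μ t j * μ t k = E + if j = k then 1 else 0)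
    (hdeg : ∀ t, d * ∑ j, μ t j ∣ (q + 1) * q * d) :
    q - 1 ∣ 2 * d ∨ ∃ m, 3 ≤ m ∧ d = 2 * m - 3 ∧ q = (m - 1) * (2 * m - 1) := by
  classical
  set m := Fintype.card J with hm
  have hp1 : q = m * d + 1 := by omega
  rcases lt_or_ge m 3 with hm3 | hm3
  · left
    rw [← hmd]
    refine Nat.mul_dvd_mul_right ?_ d
    interval_cases m
    · simp at hp1; omega
    · exact one_dvd _
    · exact dvd_rfl
  right
  have hdpos : 0 < d := by omega
  have hconst : ∀ t c, (∀ j, μ t j = c) → c = 0 := by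
    intro t c hc
    by_contra hc0
    have h1 := hdeg t
    rw [Finset.sum_congr rfl (fun j _ => hc j), Finset.sum_const, smul_eq_mul, Finset.card_univ, ← hm,
      show d * (m * c) = m * c * d by ring] at h1
    have h2 : m * c ∣ (q + 1) * q := Nat.dvd_of_mul_dvd_mul_right hdpos h1
    have h3 : m ∣ (q + 1) * q := dvd_trans (dvd_mul_right m c) h2
    rw [hp1, show (m * d + 1 + 1) * (m * d + 1) = m * (d * (m * d) + 3 * d) + 2 by ring] at h3
    have := Nat.le_of_dvd (by norm_num) ((Nat.dvd_add_right (dvd_mul_right _ _)).mp h3)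
    omega
  -- every pair of columns differs in at most two rows
  set Dp : J × J → Finset T := fun x => Finset.univ.filter fun t => μ t x.1 ≠ μ t x.2 with hDp
  have hsq : ∀ j k, j ≠ k → ∑ t, ((μ t j : ℤ) - μ t k) ^ 2 = 2 := by
    intro j k hjk
    have h1 := congrArg (fun n : ℕ => (n : ℤ)) (hgram j j)
    have h2 := congrArg (fun n : ℕ => (n : ℤ)) (hgram k k)
    have h3 := congrArg (fun n : ℕ => (n : ℤ)) (hgram j k)
    simp [hjk] at h1 h2 h3
    rw [Finset.sum_congr rfl (g := fun t => (μ t j : ℤ) * μ t j + (μ t k : ℤ) * μ t k - 2 * ((μ t j : ℤ) * μ t k))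
      fun t _ => by ring, Finset.sum_sub_distrib, Finset.sum_add_distrib, ← Finset.mul_sum, h1, h2, h3]
    ring
  have hD2 : ∀ j k, j ≠ k → (Dp (j, k)).card ≤ 2 ∧ ∀ t, |(μ t j : ℤ) - μ t k| ≤ 1 := by
    intro j k hjk
    have h1 : ((Dp (j, k)).card : ℤ) ≤ ∑ t, ((μ t j : ℤ) - μ t k) ^ 2 := by
      calc ((Dp (j, k)).card : ℤ) = ∑ t ∈ Dp (j, k), (1 : ℤ) := by simp
        _ ≤ ∑ t ∈ Dp (j, k), ((μ t j : ℤ) - μ t k) ^ 2 := Finset.sum_le_sum fun t ht => by
            have : (μ t j : ℤ) - μ t k ≠ 0 := sub_ne_zero.mpr (by exact_mod_cast (Finset.mem_filter.mp ht).2)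
            nlinarith [Int.one_le_abs this, sq_abs ((μ t j : ℤ) - μ t k)]
        _ ≤ _ := Finset.sum_le_sum_of_subset_of_nonneg (Finset.subset_univ _) fun t _ _ => sq_nonneg _
    rw [hsq j k hjk] at h1
    refine ⟨by exact_mod_cast h1, fun t => ?_⟩
    have h2 := Finset.single_le_sum (f := fun t => ((μ t j : ℤ) - μ t k) ^ 2) (fun t _ => sq_nonneg _) (Finset.mem_univ t)
    rw [hsq j k hjk] at h2
    nlinarith [sq_abs ((μ t j : ℤ) - μ t k), abs_nonneg ((μ t j : ℤ) - μ t k)]
  set R := Finset.univ.filter fun t : T => ∃ j, μ t j ≠ 0 with hR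
  have hRne : ∀ t ∈ R, ∃ j k, μ t j ≠ μ t k := by
    intro t ht
    obtain ⟨j, hj⟩ := (Finset.mem_filter.mp ht).2
    by_contra hc
    push Not at hc
    exact hj (hconst t (μ t j) (fun k => hc k j))
  -- rank
  have hRm : m ≤ R.card := by
    let v : J → (R → ℚ) := fun j t => (μ t j : ℚ)
    have hli : LinearIndependent ℚ v := by
      rw [Fintype.linearIndependent_iff]
      intro x hx
      have hz : ∀ t, ∑ j, x j * (μ t j : ℚ) = 0 := by
        intro t
        by_cases ht : t ∈ R
        · have := congrFun hx ⟨t, ht⟩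
          simpa [v] using this
        · refine Finset.sum_eq_zero fun j _ => ?_
          have : μ t j = 0 := by
            by_contra h
            exact ht (Finset.mem_filter.mpr ⟨Finset.mem_univ _, j, h⟩)
          simp [this]
      have hk : ∀ k, x k + (E : ℚ) * ∑ j, x j = 0 := by
        intro k
        calc x k + (E : ℚ) * ∑ j, x j = ∑ j, x j * ((E + if j = k then 1 else 0 : ℕ) : ℚ) := by
              simp [mul_add, Finset.sum_add_distrib, Finset.mul_sum, mul_comm]
              rw [add_comm, Finset.sum_mul]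
          _ = ∑ j, x j * ∑ t, (μ t j : ℚ) * μ t k := Finset.sum_congr rfl fun j _ => by rw [← hgram]; push_cast; rfl
          _ = ∑ t, (∑ j, x j * (μ t j : ℚ)) * μ t k := by
              simp only [Finset.mul_sum, Finset.sum_mul]
              rw [Finset.sum_comm]
              exact Finset.sum_congr rfl fun t _ => Finset.sum_congr rfl fun j _ => by ring
          _ = 0 := by simp [hz]
      have hs : (1 + (m : ℚ) * E) * ∑ j, x j = 0 := by
        have := Finset.sum_eq_zero (s := Finset.univ) (fun k _ => hk k)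
        rw [Finset.sum_add_distrib, Finset.sum_const, Finset.card_univ, ← hm, nsmul_eq_mul] at this
        linear_combination this
      have hs0 : ∑ j, x j = 0 := (mul_eq_zero.mp hs).resolve_left (by positivity)
      intro k
      simpa [hs0] using hk k
    have := hli.fintype_card_le_finrank
    rwa [Module.finrank_fintype_fun_eq_card, Fintype.card_coe] at this
  have htot : ∑ t ∈ R, (Finset.univ.filter fun x : J × J => μ t x.1 ≠ μ t x.2).card ≤ m * (m - 1) * 2 := by
    calc _ = ∑ x : J × J, ((Dp x).filter (· ∈ R)).card := by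
          simp only [Finset.card_filter, hDp, Finset.filter_filter]
          rw [Finset.sum_comm]
          refine Finset.sum_congr rfl fun x _ => ?_
          simp only [← Finset.card_filter]
          congr 1
          ext t
          simp [and_comm]
      _ ≤ ∑ x : J × J, if x.1 = x.2 then 0 else 2 := Finset.sum_le_sum fun x _ => by
          split_ifs with h
          · simp [hDp, h]
          · exact (Finset.card_filter_le _ _).trans (hD2 _ _ h).1
      _ = _ := by
          rw [Fintype.sum_prod_type, Finset.sum_congr rfl (g := fun _ => (m - 1) * 2), Finset.sum_const, smul_eq_mul,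
            Finset.card_univ, ← hm, mul_assoc]
          intro j _
          simp [Finset.sum_ite, Finset.filter_ne, ← hm]
  have hlow : ∀ t ∈ R, 2 * (m - 1) ≤ (Finset.univ.filter fun x : J × J => μ t x.1 ≠ μ t x.2).card :=
    fun t ht => (one_exception hm.symm (μ t) (hRne t ht)).1
  have hsum := Finset.sum_le_sum hlow
  rw [Finset.sum_const, smul_eq_mul] at hsum
  have hRcard : R.card = m := by
    refine le_antisymm ?_ hRm
    have : R.card * (2 * (m - 1)) ≤ m * (2 * (m - 1)) := by
      calc R.card * (2 * (m - 1)) ≤ m * (m - 1) * 2 := hsum.trans htot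
        _ = _ := by ring
    exact Nat.le_of_mul_le_mul_right this (by omega)
  have hexc : ∀ t ∈ R, ∃ i c, μ t i ≠ c ∧ ∀ k, k ≠ i → μ t k = c := by
    intro t ht
    refine (one_exception hm.symm (μ t) (hRne t ht)).2 ?_
    by_contra hc
    push Not at hc
    have h1 := Finset.sum_lt_sum hlow ⟨t, ht, hc⟩
    rw [Finset.sum_const, smul_eq_mul, hRcard] at h1
    have : m * (2 * (m - 1)) = m * (m - 1) * 2 := by ring
    omega
  haveI : Nonempty J := Fintype.card_pos_iff.mp (by omega)
  choose! π c hπ hc using hexc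
  set s : T → ℤ := fun t => (μ t (π t) : ℤ) - c t with hs
  obtain ⟨j0, k0, l0, hjk, hjl, hkl⟩ : ∃ a b e : J, a ≠ b ∧ a ≠ e ∧ b ≠ e := by
    obtain ⟨a, b, e, ha, hb, he, h1, h2, h3⟩ := Finset.two_lt_card_iff.mp (show 2 < (Finset.univ : Finset J).card by rw [Finset.card_univ]; omega)
    exact ⟨a, b, e, h1, h2, h3⟩
  have hs1 : ∀ t ∈ R, s t ^ 2 = 1 := by
    intro t ht
    obtain ⟨k, hk⟩ : ∃ k, k ≠ π t := by
      rcases eq_or_ne j0 (π t) with h | h
      · exact ⟨k0, fun e => hjk (h.trans e.symm)⟩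
      · exact ⟨j0, h⟩
    have h1 := (hD2 (π t) k hk.symm).2 t
    rw [hc t ht k hk] at h1
    have h2 : s t ≠ 0 := sub_ne_zero.mpr (by exact_mod_cast hπ t ht)
    have h3 : |s t| = 1 := le_antisymm h1 (Int.one_le_abs h2)
    rw [← sq_abs, h3, one_pow]
  have hval : ∀ t ∈ R, ∀ j, (μ t j : ℤ) = c t + if π t = j then s t else 0 := by
    intro t ht j
    split_ifs with h
    · rw [hs, ← h]; ring
    · rw [hc t ht j (Ne.symm h), add_zero]
  set n : J → ℤ := fun j => ((R.filter fun t => π t = j).card : ℤ) with hn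
  set C := ∑ t ∈ R, (c t : ℤ) ^ 2 with hC
  set e : J → ℤ := fun j => ∑ t ∈ R.filter (fun t => π t = j), (c t : ℤ) * s t with he
  have hG : ∀ j k, (E : ℤ) + (if j = k then 1 else 0) = C + e j + e k + if j = k then n j else 0 := by
    intro j k
    have h1 := congrArg (fun n : ℕ => (n : ℤ)) (hgram j k)
    push_cast at h1
    rw [← h1, ← Finset.sum_subset (Finset.subset_univ R)]
    · rw [Finset.sum_congr rfl (g := fun t => (c t : ℤ) ^ 2 + (if π t = j then (c t : ℤ) * s t else 0) +
        (if π t = k then (c t : ℤ) * s t else 0) + if π t = j then (if j = k then 1 else 0) else 0)]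
      · simp only [Finset.sum_add_distrib, ← Finset.sum_filter, hC, he, hn]
        congr 1
        rw [Finset.sum_const, nsmul_eq_mul]
        split_ifs with h <;> simp [h]
      · intro t ht
        rw [hval t ht j, hval t ht k]
        by_cases h1 : π t = j
        · by_cases h2 : j = k
          · rw [if_pos h1, if_pos (h1.trans h2), if_pos h1, if_pos (h1.trans h2), if_pos h1, if_pos h2]
            linear_combination hs1 t ht
          · rw [if_pos h1, if_neg (fun e => h2 (h1.symm.trans e)), if_pos h1, if_neg (fun e => h2 (h1.symm.trans e)),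
              if_pos h1, if_neg h2]
            ring
        · rw [if_neg h1, if_neg h1, if_neg h1]
          split_ifs <;> ring
    · intro t _ ht
      have : μ t j = 0 := by
        by_contra h
        exact ht (Finset.mem_filter.mpr ⟨Finset.mem_univ _, j, h⟩)
      simp [this]
  have he1 : ∀ j, e j = e j0 := by
    intro j
    rcases eq_or_ne j j0 with rfl | hj
    · rfl
    · obtain ⟨k, hk1, hk2⟩ : ∃ k, k ≠ j ∧ k ≠ j0 := by
        rcases eq_or_ne k0 j with h | h
        · exact ⟨l0, fun e => hkl (h.trans e.symm), hjl.symm⟩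
        · exact ⟨k0, h, hjk.symm⟩
      have a := hG j k
      have b := hG j0 k
      rw [if_neg hk1.symm, if_neg hk1.symm] at a
      rw [if_neg hk2.symm, if_neg hk2.symm] at b
      linarith
  have hn1 : ∀ j, n j = 1 := by
    intro j
    obtain ⟨k, hk⟩ : ∃ k, k ≠ j := by
      rcases eq_or_ne j0 j with h | h
      · exact ⟨k0, fun e => hjk (h.trans e.symm)⟩
      · exact ⟨j0, h⟩
    have a := hG j j
    have b := hG j k
    rw [if_pos rfl, if_pos rfl] at a
    rw [if_neg hk.symm, if_neg hk.symm, he1 k, ← he1 j] at b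
    linarith
  have hrow : ∀ j, ∃ t, R.filter (fun t => π t = j) = {t} := fun j => Finset.card_eq_one.mp (by
    exact Nat.cast_eq_one.mp (hn1 j))
  have hcs : ∀ t ∈ R, (c t : ℤ) * s t = e j0 := by
    intro t ht
    obtain ⟨u, hu⟩ := hrow (π t)
    have htu : t = u := by
      have h : t ∈ R.filter fun x => π x = π t := Finset.mem_filter.mpr ⟨ht, rfl⟩
      rw [hu] at h
      simpa using h
    rw [← he1 (π t), show e (π t) = ∑ x ∈ R.filter (fun x => π x = π t), (c x : ℤ) * s x from rfl, hu,
      Finset.sum_singleton, htu]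
  set ε := e j0 with hε
  have hEε : (E : ℤ) = (m : ℤ) * ε ^ 2 + 2 * ε := by
    have a := hG j0 k0
    rw [if_neg hjk, if_neg hjk, he1 k0, ← hε, hC, Finset.sum_congr rfl (g := fun _ => ε ^ 2)] at a
    · rw [Finset.sum_const, hRcard, nsmul_eq_mul] at a
      linarith
    · intro t ht
      rw [← hcs t ht, mul_pow, hs1 t ht, mul_one]
  obtain ⟨t, ht⟩ : R.Nonempty := Finset.card_pos.mp (by omega)
  have hS : (∑ j, μ t j : ℤ) = (m : ℤ) * c t + s t := by
    rw [Finset.sum_congr rfl (fun j _ => hval t ht j), Finset.sum_add_distrib, Finset.sum_const, Finset.card_univ,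
      ← hm, nsmul_eq_mul]
    simp
  set k := ∑ j, μ t j with hk
  have hkk : (k : ℤ) = (m : ℤ) * c t + s t := by rw [hk]; push_cast; exact hS
  have hc1 : 1 ≤ c t := by
    by_contra h
    have hc0 : c t = 0 := by omega
    have := hcs t ht
    rw [hc0] at this
    simp at this
    rw [← this] at hEε
    simp at hEε
    omega
  have hp2 : (q : ℤ) = 2 * (k : ℤ) ^ 2 + m - 1 := by
    rw [hp1, hE]
    push_cast
    rw [hEε, ← hcs t ht, hkk]
    linear_combination (2 * (m : ℤ) ^ 2 * (c t : ℤ) ^ 2 - 2) * hs1 t ht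
  have hk2 : 2 ≤ k := by
    have : -1 ≤ s t := by nlinarith [hs1 t ht, sq_nonneg (s t + 1), sq_nonneg (s t)]
    have h' : (m : ℤ) ≤ m * c t := le_mul_of_one_le_right (by positivity) (by exact_mod_cast hc1)
    omega
  have hkdvd : k ∣ (q + 1) * q := by
    refine Nat.dvd_of_mul_dvd_mul_right hdpos ?_
    rw [mul_comm k d]
    exact hdeg t
  have hkm : IsCoprime (k : ℤ) (m : ℤ) := by
    refine ⟨s t, -(c t : ℤ) * s t, ?_⟩
    rw [hkk]
    linear_combination hs1 t ht
  have hk1 : (k : ℤ) ∣ (m : ℤ) - 1 := by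
    have h1 : (k : ℤ) ∣ ((q : ℤ) + 1) * q := by exact_mod_cast hkdvd
    rw [hp2, show (2 * (k : ℤ) ^ 2 + m - 1 + 1) * (2 * (k : ℤ) ^ 2 + m - 1) =
      (k : ℤ) * (2 * k * (2 * (k : ℤ) ^ 2 + 2 * m - 1)) + m * ((m : ℤ) - 1) by ring] at h1
    exact hkm.dvd_of_dvd_mul_left ((dvd_add_right (dvd_mul_right _ _)).mp h1)
  have hkle := Int.le_of_dvd (by omega) hk1
  have hsle : -1 ≤ s t := by nlinarith [hs1 t ht, sq_nonneg (s t + 1), sq_nonneg (s t)]
  have hc' : (c t : ℤ) = 1 := by
    by_contra hne
    have h2c : (2 : ℤ) ≤ c t := by omega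
    nlinarith [show (3 : ℤ) ≤ m by exact_mod_cast hm3]
  have hst : s t = -1 := by
    rw [hkk, hc'] at hkle
    omega
  have hεv : ε = -1 := by rw [← hcs t ht, hc', hst]; norm_num
  refine ⟨m, hm3, ?_, ?_⟩
  · rw [hεv] at hEε
    omega
  · have hk' : (k : ℤ) = (m : ℤ) - 1 := by rw [hkk, hc', hst]; ring
    have hZ : (q : ℤ) = ((m : ℤ) - 1) * (2 * (m : ℤ) - 1) := by rw [hp2, hk']; ring
    have e1 : ((m - 1 : ℕ) : ℤ) = (m : ℤ) - 1 := by omega
    have e2 : ((2 * m - 1 : ℕ) : ℤ) = 2 * (m : ℤ) - 1 := by omega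
    rw [← e1, ← e2] at hZ
    exact_mod_cast hZ

end CfsgLib.Zas
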