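import Mathlib

/-!
Zassenhaus groups with an abelian kernel: coordinates on `Option V`.
-/

set_option autoImplicit false

namespace CfsgLib.Zas

universe u

variable {V : Type u} [AddCommGroup V]

/-- Translation fixing `none`. -/
def tr (b : V) : Equiv.Perm (Option V) := (Equiv.addRight b).optionCongr

/-- Extension of a permutation of `V` fixing `none`. -/
def sc : Equiv.Perm V →* Equiv.Perm (Option V) where
  toFun a := a.optionCongr
  map_one' := Equiv.ext fun x => by cases x <;> rfl
  map_mul' a b := Equiv.ext fun x => by cases x <;> rfl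

@[simp] theorem tr_none (b : V) : tr b none = none := rfl
@[simp] theorem tr_some (b x : V) : tr b (some x) = some (x + b) := rfl
@[simp] theorem sc_none (a : Equiv.Perm V) : sc a none = none := rfl
@[simp] theorem sc_some (a : Equiv.Perm V) (x : V) : sc a (some x) = some (a x) := rfl

theorem tr_zero : tr (0 : V) = 1 := Equiv.ext fun x => by cases x <;> simp

theorem tr_add (b c : V) : tr b * tr c = tr (b + c) :=
  Equiv.ext fun x => by cases x <;> simp [add_comm b c, add_assoc]

theorem tr_inv (b : V) : (tr b)⁻¹ = tr (-b) :=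
  inv_eq_of_mul_eq_one_right (by rw [tr_add, add_neg_cancel, tr_zero])

theorem tr_pow (b : V) (n : ℕ) : tr b ^ n = tr (n • b) := by
  induction n with
  | zero => simp [tr_zero]
  | succ n ih => rw [pow_succ, ih, tr_add, succ_nsmul]

theorem sc_injective : Function.Injective (sc (V := V)) := fun a b h => Equiv.ext fun x => by
  simpa using congrArg (fun g : Equiv.Perm (Option V) => g (some x)) h

variable (V) in
/-- The additive permutations. -/
def addPerm : Subgroup (Equiv.Perm V) where
  carrier := {a | ∀ x y, a (x + y) = a x + a y}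
  one_mem' := fun _ _ => rfl
  mul_mem' := fun {a b} ha hb x y => by simp only [Equiv.Perm.mul_apply, hb x y, ha (b x) (b y)]
  inv_mem' := fun {a} ha x y => a.injective (by simp [ha (a.symm x) (a.symm y)])

/-- The scalars of a group. -/
def scalars (G : Subgroup (Equiv.Perm (Option V))) : Subgroup (Equiv.Perm V) := G.comap sc ⊓ addPerm V

variable {G : Subgroup (Equiv.Perm (Option V))}

theorem map_add_scalar (a : scalars G) (x y : V) :
    (a : Equiv.Perm V) (x + y) = (a : Equiv.Perm V) x + (a : Equiv.Perm V) y := a.2.2 x y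

/-- A scalar as an additive automorphism. -/
def toAdd (a : scalars G) : V ≃+ V := { (a : Equiv.Perm V) with map_add' := map_add_scalar a }

@[simp] theorem toAdd_apply (a : scalars G) (x : V) : toAdd a x = (a : Equiv.Perm V) x := rfl

theorem map_zero_scalar (a : scalars G) : (a : Equiv.Perm V) 0 = 0 := map_zero (toAdd a)
theorem map_neg_scalar (a : scalars G) (x : V) : (a : Equiv.Perm V) (-x) = -(a : Equiv.Perm V) x := map_neg (toAdd a) x
theorem map_sub_scalar (a : scalars G) (x y : V) :
    (a : Equiv.Perm V) (x - y) = (a : Equiv.Perm V) x - (a : Equiv.Perm V) y := map_sub (toAdd a) x y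

theorem sc_mem (a : scalars G) : sc (a : Equiv.Perm V) ∈ G := a.2.1

theorem sc_tr (a : scalars G) (b : V) :
    sc (a : Equiv.Perm V) * tr b * (sc (a : Equiv.Perm V))⁻¹ = tr ((a : Equiv.Perm V) b) := by
  rw [mul_inv_eq_iff_eq_mul]
  refine Equiv.ext fun x => ?_
  cases x with
  | none => rfl
  | some x => simp [map_add_scalar]

/-- Coordinates of a Zassenhaus group with abelian kernel. -/
structure Coord (G : Subgroup (Equiv.Perm (Option V))) : Prop where
  tr_mem : ∀ b, tr b ∈ G
  transitive : ∀ x y, ∃ g ∈ G, g x = y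
  affine : ∀ g ∈ G, g none = none → ∃ a ∈ addPerm V, ∃ b, g = tr b * sc a
  free : ∀ a : scalars G, ∀ v, v ≠ 0 → (a : Equiv.Perm V) v = v → a = 1

theorem Coord.affine' (h : Coord G) {g : Equiv.Perm (Option V)} (hg : g ∈ G) (h0 : g none = none) :
    ∃ (a : scalars G) (b : V), g = tr b * sc (a : Equiv.Perm V) := by
  obtain ⟨a, ha, b, rfl⟩ := h.affine g hg h0
  have := G.mul_mem (G.inv_mem (h.tr_mem b)) hg
  rw [inv_mul_cancel_left] at this
  exact ⟨⟨a, this, ha⟩, b, rfl⟩

theorem Coord.fix_two (h : Coord G) {g : Equiv.Perm (Option V)} (hg : g ∈ G) (h0 : g none = none)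
    (h1 : g (some 0) = some 0) : ∃ a : scalars G, g = sc (a : Equiv.Perm V) := by
  obtain ⟨a, b, rfl⟩ := h.affine' hg h0
  refine ⟨a, ?_⟩
  simp [map_zero_scalar] at h1
  rw [h1, tr_zero, one_mul]

theorem Coord.exists_mem (h : Coord G) (x y : Option V) (hxy : x ≠ y) :
    ∃ g ∈ G, g none = x ∧ g (some 0) = y := by
  obtain ⟨g, hg, hgx⟩ := h.transitive none x
  have hy : g⁻¹ y ≠ none := fun e => hxy (by rw [← hgx, ← e]; simp)
  obtain ⟨c, hc⟩ := Option.ne_none_iff_exists'.mp hy
  refine ⟨g * tr c, G.mul_mem hg (h.tr_mem c), by simp [hgx], ?_⟩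
  simp [← hc]

theorem Coord.exists_swap (h : Coord G) : ∃ w ∈ G, w none = some 0 ∧ w (some 0) = none := by
  obtain ⟨g, hg, h1, h2⟩ := h.exists_mem (some 0) none (by simp)
  exact ⟨g, hg, h1, h2⟩

theorem Coord.mono (h : Coord G) {K : Subgroup (Equiv.Perm (Option V))} (hKG : K ≤ G) (htr : ∀ b, tr b ∈ K)
    (hK : ∀ x y, ∃ g ∈ K, g x = y) : Coord K :=
  ⟨htr, hK, fun g hg h0 => h.affine g (hKG hg) h0, fun a v hv hav => Subtype.ext
    ((congrArg Subtype.val (h.free ⟨(a : Equiv.Perm V), hKG a.2.1, a.2.2⟩ v hv hav)).trans rfl)⟩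

theorem Coord.sub_bijective [Finite V] (h : Coord G) {a : scalars G} (ha : a ≠ 1) :
    Function.Bijective fun v => v - (a : Equiv.Perm V) v := by
  refine Finite.injective_iff_bijective.mp fun v w e => ?_
  by_contra hne
  refine ha (h.free a (v - w) (sub_ne_zero.mpr hne) ?_)
  rw [map_sub_scalar]
  exact (sub_eq_sub_iff_sub_eq_sub.mp e).symm

/-- The stabiliser of `none`. -/
abbrev Stab (G : Subgroup (Equiv.Perm (Option V))) : Subgroup G := MulAction.stabilizer G (none : Option V)

/-- The stabiliser of `none` as a semidirect product. -/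
noncomputable def Coord.stabEquiv (h : Coord G) : V × scalars G ≃ Stab G :=
  Equiv.ofBijective (fun x => ⟨⟨tr x.1 * sc (x.2 : Equiv.Perm V), G.mul_mem (h.tr_mem _) (sc_mem x.2)⟩, by
    show (tr x.1 * sc (x.2 : Equiv.Perm V)) none = none
    simp⟩) ⟨fun x y hxy => by
      have h1 : tr x.1 * sc (x.2 : Equiv.Perm V) = tr y.1 * sc (y.2 : Equiv.Perm V) :=
        congrArg (fun g => ((g : G) : Equiv.Perm (Option V))) (congrArg Subtype.val hxy)
      have h2 := congrArg (fun g : Equiv.Perm (Option V) => g (some 0)) h1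
      simp [map_zero_scalar] at h2
      rw [h2] at h1
      exact Prod.ext h2 (Subtype.ext (sc_injective (mul_left_cancel h1))),
    fun g => by
      obtain ⟨a, b, hab⟩ := h.affine' g.1.2 g.2
      exact ⟨(b, a), Subtype.ext (Subtype.ext hab.symm)⟩⟩

theorem Coord.card_eq [Finite V] (h : Coord G) :
    Nat.card G = (Nat.card V + 1) * Nat.card V * Nat.card (scalars G) := by
  haveI : MulAction.IsPretransitive G (Option V) :=
    ⟨fun x y => by obtain ⟨g, hg, hgxy⟩ := h.transitive x y; exact ⟨⟨g, hg⟩, hgxy⟩⟩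
  rw [← (Stab G).card_mul_index, MulAction.index_stabilizer_of_transitive,
    ← Nat.card_congr h.stabEquiv, Nat.card_prod, Finite.card_option]
  ring

/-- The orbit map on a nonzero vector is injective. -/
theorem Coord.apply_injective (h : Coord G) {v : V} (hv : v ≠ 0) :
    Function.Injective fun a : scalars G => (a : Equiv.Perm V) v := by
  intro a b e
  simp only at e
  refine (inv_mul_eq_one.mp (h.free (b⁻¹ * a) v hv ?_)).symm
  simp only [Subgroup.coe_mul, Subgroup.coe_inv, Equiv.Perm.mul_apply, e, Equiv.Perm.inv_def, Equiv.symm_apply_apply]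

/-- The number of scalars divides the size of an invariant subset missing zero. -/
theorem Coord.dvd_card [Finite V] (h : Coord G) (S : Set V) (h0 : (0 : V) ∉ S)
    (hS : ∀ a : scalars G, ∀ v ∈ S, (a : Equiv.Perm V) v ∈ S) : Nat.card (scalars G) ∣ Nat.card S := by
  letI : MulAction (scalars G) S :=
    { smul := fun a v => ⟨(a : Equiv.Perm V) v, hS a v v.2⟩
      one_smul := fun v => Subtype.ext rfl
      mul_smul := fun a b v => Subtype.ext rfl }
  have hfix : ∀ v : S, MulAction.stabilizer (scalars G) v = ⊥ := fun v =>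
    eq_bot_iff.mpr fun a ha => Subgroup.mem_bot.mpr
      (h.free a v (fun e => h0 (by rw [← e]; exact v.2)) (congrArg Subtype.val ha))
  haveI := Fintype.ofFinite S
  haveI : Fintype (MulAction.orbitRel.Quotient (scalars G) S) := Fintype.ofFinite _
  rw [Nat.card_congr (MulAction.selfEquivSigmaOrbits (scalars G) S), Nat.card_sigma]
  refine Finset.dvd_sum fun o _ => dvd_of_eq ?_
  rw [Nat.card_congr (MulAction.orbitEquivQuotientStabilizer (scalars G) _), hfix, ← Subgroup.index, Subgroup.index_bot]

theorem Coord.dvd_card_sub_one [Finite V] (h : Coord G) : Nat.card (scalars G) ∣ Nat.card V - 1 := by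
  have h1 := h.dvd_card {0}ᶜ (by simp) (fun a v hv e => hv (by
    rw [Set.mem_singleton_iff] at e ⊢
    exact (a : Equiv.Perm V).injective (e.trans (map_zero_scalar a).symm)))
  rwa [Nat.card_coe_set_eq, Set.ncard_compl, Set.ncard_singleton] at h1

/-- All elements interchanging `none` and `some 0` are involutions. -/
def SwapInvol (G : Subgroup (Equiv.Perm (Option V))) : Prop :=
  ∀ w ∈ G, w none = some 0 → w (some 0) = none → w * w = 1

/-- A regular normal subgroup. -/
def HasRegular (G : Subgroup (Equiv.Perm (Option V))) : Prop :=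
  ∃ N ≤ G, (∀ g ∈ G, ∀ n ∈ N, g * n * g⁻¹ ∈ N) ∧ Nat.card N = Nat.card V + 1 ∧ ∀ x y, ∃ n ∈ N, n x = y

section

variable {w : Equiv.Perm (Option V)}

theorem Coord.sq_swap (h : Coord G) (hw : w ∈ G) (w0 : w none = some 0) (w1 : w (some 0) = none) :
    ∃ c : scalars G, w * w = sc (c : Equiv.Perm V) :=
  h.fix_two (G.mul_mem hw hw) (by simp [w0, w1]) (by simp [w0, w1])

theorem Coord.conj_swap (h : Coord G) (hw : w ∈ G) (w0 : w none = some 0) (w1 : w (some 0) = none)
    (a : scalars G) : ∃ a' : scalars G, w * sc (a : Equiv.Perm V) * w⁻¹ = sc (a' : Equiv.Perm V) := by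
  have e0 : Equiv.symm w none = some 0 := by rw [Equiv.symm_apply_eq, w1]
  have e1 : Equiv.symm w (some 0) = none := by rw [Equiv.symm_apply_eq, w0]
  exact h.fix_two (G.mul_mem (G.mul_mem hw (sc_mem a)) (G.inv_mem hw))
    (by simp [e0, w1, map_zero_scalar]) (by simp [e1, w0])

theorem Coord.eq_mul_sc (h : Coord G) (hw : w ∈ G) (w0 : w none = some 0) (w1 : w (some 0) = none)
    {v : Equiv.Perm (Option V)} (hv : v ∈ G) (v0 : v none = some 0) (v1 : v (some 0) = none) :
    ∃ b : scalars G, v = w * sc (b : Equiv.Perm V) := by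
  have e0 : Equiv.symm w none = some 0 := by rw [Equiv.symm_apply_eq, w1]
  have e1 : Equiv.symm w (some 0) = none := by rw [Equiv.symm_apply_eq, w0]
  obtain ⟨b, hb'⟩ := h.fix_two (G.mul_mem (G.inv_mem hw) hv) (by simp [v0, e1]) (by simp [v1, e0])
  exact ⟨b, by rw [← hb', mul_inv_cancel_left]⟩

/-- Conjugation by a swap as an automorphism of the scalars. -/
noncomputable def Coord.conjHom (h : Coord G) (hw : w ∈ G) (w0 : w none = some 0) (w1 : w (some 0) = none) :
    scalars G →* scalars G :=
  MonoidHom.mk' (fun a => (h.conj_swap hw w0 w1 a).choose) fun a b => by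
    refine Subtype.ext (sc_injective ?_)
    refine (h.conj_swap hw w0 w1 (a * b)).choose_spec.symm.trans ?_
    show _ = sc (((h.conj_swap hw w0 w1 a).choose : Equiv.Perm V) * ((h.conj_swap hw w0 w1 b).choose : Equiv.Perm V))
    rw [map_mul, ← (h.conj_swap hw w0 w1 a).choose_spec, ← (h.conj_swap hw w0 w1 b).choose_spec,
      Subgroup.coe_mul, map_mul]
    simp [mul_assoc]

theorem Coord.sc_conjHom (h : Coord G) (hw : w ∈ G) (w0 : w none = some 0) (w1 : w (some 0) = none) (a : scalars G) :
    sc (h.conjHom hw w0 w1 a : Equiv.Perm V) = w * sc (a : Equiv.Perm V) * w⁻¹ :=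
  (h.conj_swap hw w0 w1 a).choose_spec.symm

theorem SwapInvol.conj (hS : SwapInvol G) (hw : w ∈ G) (w0 : w none = some 0) (w1 : w (some 0) = none)
    (a : scalars G) : w * sc (a : Equiv.Perm V) * w⁻¹ = sc ((a⁻¹ : scalars G) : Equiv.Perm V) := by
  have h1 := hS (w * sc (a : Equiv.Perm V)) (G.mul_mem hw (sc_mem a)) (by simp [w0]) (by simp [w1, map_zero_scalar])
  rw [Subgroup.coe_inv, map_inv, inv_eq_of_mul_eq_one_right (hS w hw w0 w1), eq_inv_iff_mul_eq_one]
  simpa [mul_assoc] using h1

theorem SwapInvol.comm (hS : SwapInvol G) (h : Coord G) (a b : scalars G) : a * b = b * a := by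
  obtain ⟨w, hw, w0, w1⟩ := h.exists_swap
  have e : ∀ x, h.conjHom hw w0 w1 x = x⁻¹ := fun x => Subtype.ext (sc_injective
    (by rw [h.sc_conjHom, hS.conj hw w0 w1 x]))
  have := map_mul (h.conjHom hw w0 w1) a⁻¹ b⁻¹
  rw [e, e, e, mul_inv_rev, inv_inv, inv_inv] at this
  exact this.symm

end

end CfsgLib.Zas
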