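import Mathlib
import Cfsg.Agent.CharBasics.Induced
import Cfsg.Agent.CharBasics.Central
import Cfsg.Agent.CharBasics.CyclicTI
import Cfsg.Agent.Clifford.LinChar
import Cfsg.Agent.DegPSucc.Chars
import Cfsg.Agent.Zas.Comb
import Cfsg.Agent.Zas.Setup

/-!
Character argument: if the scalars of odd order are inverted then their index is at most two.
-/

set_option autoImplicit false

namespace CfsgLib.Zas

open CfsgLib.CharBasics CfsgLib.CyclicTI
open scoped ComplexConjugate
open CfsgLib.DegPSucc (nat_sq_sum_eq_one classInner_parseval)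

universe u

variable {V : Type u} [AddCommGroup V] [Finite V] {G : Subgroup (Equiv.Perm (Option V))} (h : Coord G)

omit [Finite V] in
theorem Coord.el_val (x : V × scalars G) :
    ((h.stabEquiv x : G) : Equiv.Perm (Option V)) = tr x.1 * sc (x.2 : Equiv.Perm V) := rfl

omit [Finite V] in
theorem Coord.el_mul (b c : V) (a e : scalars G) :
    h.stabEquiv (b, a) * h.stabEquiv (c, e) = h.stabEquiv (b + (a : Equiv.Perm V) c, a * e) := by
  refine Subtype.ext (Subtype.ext ?_)
  simp only [Subgroup.coe_mul, Coord.el_val, map_mul]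
  rw [← tr_add, ← sc_tr a c]
  simp [mul_assoc]

omit [Finite V] in
theorem Coord.el_one : h.stabEquiv ((0 : V), (1 : scalars G)) = 1 := by
  refine Subtype.ext (Subtype.ext ?_)
  simp [Coord.el_val, tr_zero]

/-- The projection of the stabiliser onto the scalars. -/
noncomputable def Coord.proj : Stab G →* scalars G :=
  MonoidHom.mk' (fun y => (h.stabEquiv.symm y).2) fun x y => by
    obtain ⟨⟨b, a⟩, rfl⟩ := h.stabEquiv.surjective x
    obtain ⟨⟨c, e⟩, rfl⟩ := h.stabEquiv.surjective y
    rw [h.el_mul, Equiv.symm_apply_apply, Equiv.symm_apply_apply, Equiv.symm_apply_apply]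

/-- The lifted linear character. -/
noncomputable def Coord.lam (l : scalars G →* ℂˣ) (y : Stab G) : ℂ := (l (h.proj y) : ℂ)

/-- A character of the translations moved by a scalar. -/
def moveChar (ψ : AddChar V ℂ) (c : scalars G) : AddChar V ℂ := ψ.compAddMonoidHom (toAdd c).toAddMonoidHom

omit [Finite V] in
@[simp] theorem moveChar_apply (ψ : AddChar V ℂ) (c : scalars G) (v : V) :
    moveChar ψ c v = ψ ((c : Equiv.Perm V) v) := rfl

/-- The sum over the scalar translates of an additive character. -/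
noncomputable def Coord.theta [Fintype (scalars G)] [DecidableEq (scalars G)] (z : AddChar V ℂ) (y : Stab G) : ℂ :=
  if (h.stabEquiv.symm y).2 = 1 then ∑ c : scalars G, moveChar z c (h.stabEquiv.symm y).1 else 0

omit [Finite V] in
theorem Coord.lam_el (l : scalars G →* ℂˣ) (b : V) (a : scalars G) :
    h.lam l (h.stabEquiv (b, a)) = (l a : ℂ) := by
  simp [Coord.lam, Coord.proj]

omit [Finite V] in
theorem Coord.theta_el [Fintype (scalars G)] [DecidableEq (scalars G)] (z : AddChar V ℂ) (b : V) (a : scalars G) :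
    h.theta z (h.stabEquiv (b, a)) = if a = 1 then ∑ c : scalars G, moveChar z c b else 0 := by
  simp only [Coord.theta, Equiv.symm_apply_apply]

omit [Finite V] in
theorem Coord.isClassFunction_lam (l : scalars G →* ℂˣ) : Cfsg.IsClassFunction (Stab G) (h.lam l) := by
  intro x y
  simp only [Coord.lam, map_mul, map_inv, mul_right_comm _ (l (h.proj x))]
  simp

omit [Finite V] in
theorem Coord.isClassFunction_theta [Fintype (scalars G)] [DecidableEq (scalars G)] (hS : SwapInvol G) (z : AddChar V ℂ) :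
    Cfsg.IsClassFunction (Stab G) (h.theta z) := by
  intro x y
  obtain ⟨⟨b, a⟩, rfl⟩ := h.stabEquiv.surjective x
  obtain ⟨⟨c, e⟩, rfl⟩ := h.stabEquiv.surjective y
  rw [show h.stabEquiv (c, e) * h.stabEquiv (b, a) * (h.stabEquiv (c, e))⁻¹ =
      h.stabEquiv (c + (e : Equiv.Perm V) b - (a : Equiv.Perm V) c, a) from ?_, h.theta_el, h.theta_el]
  · split_ifs with ha
    · refine Fintype.sum_equiv (Equiv.mulRight e) _ _ fun u => ?_
      subst ha
      simp
    · rfl
  · rw [mul_inv_eq_iff_eq_mul, h.el_mul, h.el_mul]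
    congr 1
    exact Prod.ext (by simp only; abel) (hS.comm h _ _)

variable [Fintype G] [Fintype (Stab G)]

theorem Coord.ind_of_fixed (h : Coord G) {f : Stab G → ℂ} (hf : Cfsg.IsClassFunction (Stab G) f) (g : G)
    (Q : Finset (Option V)) (hQ : ∀ q, q ∈ Q ↔ (g : Equiv.Perm (Option V)) q = q)
    (r : Option V → G) (hr : ∀ q ∈ Q, (r q : Equiv.Perm (Option V)) none = q)
    (k : Option V → Stab G) (hk : ∀ q ∈ Q, (r q)⁻¹ * g * r q = (k q : G)) :
    Cfsg.indFun (Stab G) f g = ∑ q ∈ Q, f (k q) := by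
  classical
  simp only [Cfsg.indFun]
  rw [inv_mul_eq_iff_eq_mul₀ (Nat.cast_ne_zero.mpr Nat.card_pos.ne'), Finset.mul_sum]
  rw [← Finset.sum_subset (Finset.subset_univ (Finset.univ.filter fun x : G => (x : Equiv.Perm (Option V)) none ∈ Q))]
  · rw [← Finset.sum_fiberwise_of_maps_to (g := fun x : G => (x : Equiv.Perm (Option V)) none) (t := Q)
      (fun x hx => (Finset.mem_filter.mp hx).2)]
    refine Finset.sum_congr rfl fun q hq => ?_
    rw [Finset.filter_filter]
    calc _ = ∑ y : Stab G, f (k q) := by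
          refine Finset.sum_bij' (fun x hx => ⟨(r q)⁻¹ * x, ?_⟩) (fun y _ => r q * y) (fun _ _ => Finset.mem_univ _)
            ?_ ?_ ?_ ?_
          · show ((r q : Equiv.Perm (Option V))⁻¹ * (x : Equiv.Perm (Option V))) none = none
            rw [Equiv.Perm.mul_apply, (Finset.mem_filter.mp hx).2.2, Equiv.Perm.inv_eq_iff_eq, hr q hq]
          · intro y _
            have hy : (r q * (y : G) : G) • (none : Option V) = q := by
              rw [mul_smul, y.2]; exact hr q hq
            refine Finset.mem_filter.mpr ⟨Finset.mem_univ _, ?_, hy⟩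
            show ((r q * (y : G) : G) • (none : Option V)) ∈ Q
            rw [hy]; exact hq
          · intro x _; simp
          · intro y _; simp
          · intro x hx
            have hm : (r q)⁻¹ * x ∈ Stab G := by
              show ((r q : Equiv.Perm (Option V))⁻¹ * (x : Equiv.Perm (Option V))) none = none
              rw [Equiv.Perm.mul_apply, (Finset.mem_filter.mp hx).2.2, Equiv.Perm.inv_eq_iff_eq, hr q hq]
            set y : Stab G := ⟨(r q)⁻¹ * x, hm⟩
            have hmem : x⁻¹ * g * x = ((y⁻¹ * k q * y : Stab G) : G) := by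
              simp only [y, Subgroup.coe_mul, Subgroup.coe_inv, ← hk q hq]
              group
            rw [hmem, extendByZero_coe]
            have := hf (k q) y⁻¹
            rwa [inv_inv] at this
      _ = _ := by rw [Finset.sum_const, Finset.card_univ, nsmul_eq_mul, Nat.card_eq_fintype_card]
  · intro x _ hx
    refine extendByZero_of_not_mem _ _ fun hmem => hx (Finset.mem_filter.mpr ⟨Finset.mem_univ _, (hQ _).mpr ?_⟩)
    have h1 : (x⁻¹ * g * x : G) • (none : Option V) = none := hmem
    rw [mul_smul, mul_smul, inv_smul_eq_iff] at h1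
    exact h1

include h in
theorem Coord.ind_one (f : Stab G → ℂ) : Cfsg.indFun (Stab G) f 1 = ((Nat.card V : ℂ) + 1) * f 1 := by
  haveI : MulAction.IsPretransitive G (Option V) :=
    ⟨fun x y => by obtain ⟨g, hg, hgxy⟩ := h.transitive x y; exact ⟨⟨g, hg⟩, hgxy⟩⟩
  rw [indFun_apply_one, MulAction.index_stabilizer_of_transitive, Finite.card_option]
  push_cast
  ring

theorem Coord.ind_tr {f : Stab G → ℂ} (hf : Cfsg.IsClassFunction (Stab G) f) {b : V} (hb : b ≠ 0) :
    Cfsg.indFun (Stab G) f (h.stabEquiv (b, 1) : G) = f (h.stabEquiv (b, 1)) := by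
  classical
  rw [h.ind_of_fixed hf _ {none} ?_ (fun _ => 1) ?_ (fun _ => h.stabEquiv (b, 1)) ?_, Finset.sum_singleton]
  · intro q
    rw [Coord.el_val]
    cases q with
    | none => simp
    | some x => simp [hb]
  · intro q hq; rw [Finset.mem_singleton] at hq; simp [hq]
  · intro q _; simp

theorem Coord.ind_sc (hS : SwapInvol G) {f : Stab G → ℂ} (hf : Cfsg.IsClassFunction (Stab G) f)
    {a : scalars G} (ha : a ≠ 1) (b : V) :
    Cfsg.indFun (Stab G) f (h.stabEquiv (b, a) : G) = f (h.stabEquiv (0, a)) + f (h.stabEquiv (0, a⁻¹)) := by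
  classical
  obtain ⟨c, hc⟩ := (h.sub_bijective ha).2 b
  simp only at hc
  have hconj : h.stabEquiv (b, a) * h.stabEquiv (c, 1) = h.stabEquiv (c, 1) * h.stabEquiv (0, a) := by
    rw [h.el_mul, h.el_mul, mul_one, one_mul, Subgroup.coe_one, Equiv.Perm.one_apply, add_zero, ← hc,
      sub_add_cancel]
  rw [show h.stabEquiv (b, a) = h.stabEquiv (c, 1) * h.stabEquiv (0, a) * (h.stabEquiv (c, 1))⁻¹ by
      rw [← hconj, mul_inv_cancel_right], Subgroup.coe_mul, Subgroup.coe_mul, Subgroup.coe_inv,
    isClassFunction_indFun _ f]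
  obtain ⟨w, hw, w0, w1⟩ := h.exists_swap
  rw [h.ind_of_fixed hf _ {none, some 0} ?_ (fun q => if q = none then 1 else ⟨w, hw⟩) ?_
    (fun q => if q = none then h.stabEquiv (0, a) else h.stabEquiv (0, a⁻¹)) ?_, Finset.sum_pair (by simp)]
  · simp
  · intro q
    rw [Coord.el_val]
    cases q with
    | none => simp
    | some x =>
      simp [tr_zero]
      constructor
      · rintro rfl; exact map_zero_scalar a
      · intro e
        by_contra hx
        exact ha (h.free a x hx e)
  · intro q hq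
    rcases Finset.mem_insert.mp hq with rfl | hq
    · simp
    · rw [Finset.mem_singleton] at hq; subst hq; simp [w0]
  · intro q hq
    rcases Finset.mem_insert.mp hq with rfl | hq
    · simp
    · rw [Finset.mem_singleton] at hq
      subst hq
      refine Subtype.ext ?_
      simp only [Option.some_ne_none, if_false, Subgroup.coe_mul, Coord.el_val, tr_zero, one_mul]
      rw [← hS.conj hw w0 w1 a, Subgroup.coe_inv, inv_eq_of_mul_eq_one_right (hS w hw w0 w1)]

variable [Fintype (scalars G)] [DecidableEq (scalars G)] [Fintype V] [DecidableEq V]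

omit [Fintype G] [DecidableEq (scalars G)] [DecidableEq V] in
theorem Coord.inner_stab (u v : Stab G → ℂ) :
    Cfsg.classInner u v = ((Nat.card V : ℂ) * Fintype.card (scalars G))⁻¹ *
      ∑ a : scalars G, ∑ b : V, u (h.stabEquiv (b, a)) * conj (v (h.stabEquiv (b, a))) := by
  rw [classInner_eq, Finset.sum_comm, ← Fintype.sum_prod_type' (f := fun (b : V) (a : scalars G) =>
    u (h.stabEquiv (b, a)) * conj (v (h.stabEquiv (b, a))))]
  congr 1
  · rw [← Nat.card_congr h.stabEquiv, Nat.card_prod, Nat.card_eq_fintype_card (α := scalars G), Nat.cast_mul]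
  · exact (Fintype.sum_equiv h.stabEquiv _ _ fun _ => rfl).symm

theorem Coord.inner_ind (hS : SwapInvol G) (u : Stab G → ℂ) {f : Stab G → ℂ}
    (hf : Cfsg.IsClassFunction (Stab G) f) :
    Cfsg.classInner (Cfsg.indFun (Stab G) u) (Cfsg.indFun (Stab G) f) =
      ((Nat.card V : ℂ) * Fintype.card (scalars G))⁻¹ *
        (((Nat.card V : ℂ) + 1) * (u (h.stabEquiv (0, 1)) * conj (f (h.stabEquiv (0, 1)))) +
          ∑ b ∈ Finset.univ.erase (0 : V), u (h.stabEquiv (b, 1)) * conj (f (h.stabEquiv (b, 1))) +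
          ∑ a ∈ Finset.univ.erase (1 : scalars G), ∑ b : V, u (h.stabEquiv (b, a)) *
            conj (f (h.stabEquiv (0, a)) + f (h.stabEquiv (0, a⁻¹)))) := by
  rw [classInner_indFun _ u (isClassFunction_indFun _ f), h.inner_stab]
  congr 1
  rw [← Finset.add_sum_erase _ _ (Finset.mem_univ (1 : scalars G)), ← Finset.add_sum_erase _ _ (Finset.mem_univ (0 : V))]
  congr 1
  · congr 1
    · rw [h.el_one]
      show u 1 * conj (Cfsg.indFun (Stab G) f ((1 : Stab G) : G)) = _
      rw [Subgroup.coe_one, h.ind_one, map_mul, map_add, Complex.conj_natCast, map_one]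
      ring
    · exact Finset.sum_congr rfl fun b hb => by rw [h.ind_tr hf (Finset.ne_of_mem_erase hb)]
  · exact Finset.sum_congr rfl fun a ha => Finset.sum_congr rfl fun b _ => by
      rw [h.ind_sc hS hf (Finset.ne_of_mem_erase ha) b]

omit [Fintype G] [Fintype (Stab G)] [Fintype (scalars G)] [DecidableEq (scalars G)] [DecidableEq V] in
theorem sum_char (ψ : AddChar V ℂ) : ∑ b : V, ψ b = if ψ = 0 then (Nat.card V : ℂ) else 0 := by
  rw [AddChar.sum_eq_ite, Nat.card_eq_fintype_card]

omit [Finite V] [Fintype G] [Fintype (Stab G)] [Fintype (scalars G)] [DecidableEq (scalars G)] [Fintype V] [DecidableEq V] in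
theorem moveChar_eq_zero_iff {ψ : AddChar V ℂ} {c : scalars G} : moveChar ψ c = 0 ↔ ψ = 0 := by
  rw [AddChar.eq_zero_iff, AddChar.eq_zero_iff]
  exact ⟨fun h x => by simpa using h ((c : Equiv.Perm V).symm x), fun h x => h _⟩

theorem Coord.theta_zero (z : AddChar V ℂ) :
    h.theta z (h.stabEquiv (0, 1)) = (Fintype.card (scalars G) : ℂ) := by
  rw [h.theta_el, if_pos rfl]
  simp [map_zero_scalar]

theorem Coord.inner_lam_lam (hS : SwapInvol G) (l l' : scalars G →* ℂˣ) [DecidableEq (scalars G →* ℂˣ)] :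
    Cfsg.classInner (Cfsg.indFun (Stab G) (h.lam l)) (Cfsg.indFun (Stab G) (h.lam l')) =
      (if l = l' then 1 else 0) + (if l = l'⁻¹ then 1 else 0) := by
  have key : ∀ m : scalars G →* ℂˣ, ∑ a : scalars G, (l a : ℂ) * conj (m a : ℂ) =
      (Fintype.card (scalars G) : ℂ) * if l = m then 1 else 0 := by
    intro m
    have h1 := inner_hom l m
    rw [classInner_eq, Nat.card_eq_fintype_card, inv_mul_eq_iff_eq_mul₀ (Nat.cast_ne_zero.mpr Fintype.card_ne_zero)] at h1
    exact h1
  rw [h.inner_ind hS _ (h.isClassFunction_lam l')]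
  simp only [h.lam_el, map_one, Units.val_one, mul_one, map_add, Finset.sum_const, Finset.card_univ,
    nsmul_eq_mul, Finset.card_erase_of_mem (Finset.mem_univ _), ← Nat.card_eq_fintype_card (α := V)]
  rw [← Finset.mul_sum, inv_mul_eq_iff_eq_mul₀ (mul_ne_zero (Nat.cast_ne_zero.mpr Nat.card_pos.ne')
    (Nat.cast_ne_zero.mpr Fintype.card_ne_zero)), Finset.sum_erase_eq_sub (Finset.mem_univ _)]
  simp only [mul_add, Finset.sum_add_distrib, key l', inv_one, map_one, Units.val_one, mul_one]
  rw [show ∑ a : scalars G, (l a : ℂ) * conj (l' a⁻¹ : ℂ) =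
      (Fintype.card (scalars G) : ℂ) * if l = l'⁻¹ then 1 else 0 by
    rw [← key l'⁻¹]
    simp [MonoidHom.inv_apply]]
  rw [Nat.cast_sub Nat.card_pos]
  push_cast
  ring

theorem Coord.inner_lam_theta (hS : SwapInvol G) (l : scalars G →* ℂˣ) (z : AddChar V ℂ) :
    Cfsg.classInner (Cfsg.indFun (Stab G) (h.lam l)) (Cfsg.indFun (Stab G) (h.theta z)) = if z = 0 then 2 else 1 := by
  rw [h.inner_ind hS _ (h.isClassFunction_theta hS z)]
  have h3 : ∀ a ∈ Finset.univ.erase (1 : scalars G),
      h.theta z (h.stabEquiv (0, a)) + h.theta z (h.stabEquiv (0, a⁻¹)) = 0 := fun a ha => by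
    rw [h.theta_el, h.theta_el, if_neg (Finset.ne_of_mem_erase ha),
      if_neg fun e => Finset.ne_of_mem_erase ha (inv_eq_one.mp e), add_zero]
  rw [Finset.sum_eq_zero (s := Finset.univ.erase (1 : scalars G))
    (fun a ha => Finset.sum_eq_zero fun b _ => by rw [h3 a ha]; simp), add_zero, h.theta_zero]
  simp only [h.lam_el, map_one, Units.val_one, one_mul, Complex.conj_natCast]
  rw [Finset.sum_erase_eq_sub (Finset.mem_univ _), h.theta_zero, Complex.conj_natCast, ← map_sum,
    Finset.sum_congr rfl (fun b _ => (h.theta_el z b 1).trans (if_pos rfl)), Finset.sum_comm]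
  simp only [sum_char, moveChar_eq_zero_iff, Finset.sum_const, Finset.card_univ, nsmul_eq_mul]
  rw [inv_mul_eq_iff_eq_mul₀ (mul_ne_zero (Nat.cast_ne_zero.mpr Nat.card_pos.ne')
    (Nat.cast_ne_zero.mpr Fintype.card_ne_zero))]
  split_ifs <;> simp <;> ring

theorem Coord.inner_theta_theta (hS : SwapInvol G) (z y : AddChar V ℂ) :
    Cfsg.classInner (Cfsg.indFun (Stab G) (h.theta z)) (Cfsg.indFun (Stab G) (h.theta y)) *
        (Fintype.card (scalars G) : ℂ) =
      (Fintype.card (scalars G) : ℂ) ^ 2 + ∑ c : scalars G, ∑ e : scalars G,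
        (if moveChar z c = moveChar y e then (1 : ℂ) else 0) := by
  rw [h.inner_ind hS _ (h.isClassFunction_theta hS y)]
  rw [Finset.sum_eq_zero (s := Finset.univ.erase (1 : scalars G))
    (fun a ha => Finset.sum_eq_zero fun b _ => by
      rw [h.theta_el z, if_neg (Finset.ne_of_mem_erase ha), zero_mul]), add_zero,
    Finset.sum_erase_eq_sub (Finset.mem_univ _), h.theta_zero, h.theta_zero, Complex.conj_natCast]
  have h4 : ∑ b : V, h.theta z (h.stabEquiv (b, 1)) * conj (h.theta y (h.stabEquiv (b, 1))) =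
      (Nat.card V : ℂ) * ∑ c : scalars G, ∑ e : scalars G,
        (if moveChar z c = moveChar y e then (1 : ℂ) else 0) := by
    simp only [h.theta_el, if_true, map_sum, Finset.sum_mul_sum]
    rw [Finset.sum_comm]
    simp only [Finset.mul_sum]
    refine Finset.sum_congr rfl fun c _ => ?_
    rw [Finset.sum_comm]
    refine Finset.sum_congr rfl fun e _ => ?_
    calc _ = ∑ b : V, (moveChar z c - moveChar y e) b :=
          Finset.sum_congr rfl fun b _ => by
            rw [← AddChar.map_neg_eq_conj, AddChar.sub_apply']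
            simp [AddChar.map_neg_eq_inv, div_eq_mul_inv]
      _ = _ := by rw [sum_char]; simp [sub_eq_zero]
  rw [h4]
  have hd : (Fintype.card (scalars G) : ℂ) ≠ 0 := Nat.cast_ne_zero.mpr Fintype.card_ne_zero
  have hp : (Nat.card V : ℂ) ≠ 0 := Nat.cast_ne_zero.mpr Nat.card_pos.ne'
  field_simp
  ring

theorem Coord.inner_lam_one (l : scalars G →* ℂˣ) [DecidableEq (scalars G →* ℂˣ)] :
    Cfsg.classInner (Cfsg.indFun (Stab G) (h.lam l)) (fun _ : G => (1 : ℂ)) = if l = 1 then 1 else 0 := by
  rw [classInner_indFun _ _ (fun _ _ => rfl), h.inner_stab]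
  simp only [h.lam_el, map_one, mul_one, Finset.sum_const, Finset.card_univ, nsmul_eq_mul]
  rw [← Finset.mul_sum, ← Nat.card_eq_fintype_card (α := V), inv_mul_eq_iff_eq_mul₀
    (mul_ne_zero (Nat.cast_ne_zero.mpr Nat.card_pos.ne') (Nat.cast_ne_zero.mpr Fintype.card_ne_zero))]
  split_ifs with hl
  · subst hl; simp
  · rw [sum_hom l hl]; simp

theorem Coord.inner_theta_one (z : AddChar V ℂ) :
    Cfsg.classInner (Cfsg.indFun (Stab G) (h.theta z)) (fun _ : G => (1 : ℂ)) = if z = 0 then 1 else 0 := by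
  rw [classInner_indFun _ _ (fun _ _ => rfl), h.inner_stab]
  rw [Finset.sum_eq_single_of_mem (1 : scalars G) (Finset.mem_univ _) (fun a _ ha =>
    Finset.sum_eq_zero fun b _ => by rw [h.theta_el, if_neg ha, zero_mul])]
  simp only [h.theta_el, if_true, map_one, mul_one]
  rw [Finset.sum_comm]
  simp only [sum_char, moveChar_eq_zero_iff, Finset.sum_const, Finset.card_univ, nsmul_eq_mul]
  rw [inv_mul_eq_iff_eq_mul₀ (mul_ne_zero (Nat.cast_ne_zero.mpr Nat.card_pos.ne')
    (Nat.cast_ne_zero.mpr Fintype.card_ne_zero))]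
  split_ifs <;> ring

/-- The multiplicity of `theta z` in a character is that of `z` in its restriction to the translations. -/
theorem Coord.inner_theta_char (z : AddChar V ℂ) (χ : Cfsg.IrrCharacter G) :
    Cfsg.classInner (Cfsg.indFun (Stab G) (h.theta z)) (χ : G → ℂ) =
      (Nat.card V : ℂ)⁻¹ * ∑ b : V, z b * conj ((χ : G → ℂ) (h.stabEquiv (b, 1) : G)) := by
  have hcl := isClassFunction (isCharacter_of_irr χ.2)
  rw [classInner_indFun _ _ hcl, h.inner_stab]
  rw [Finset.sum_eq_single_of_mem (1 : scalars G) (Finset.mem_univ _) (fun a _ ha =>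
    Finset.sum_eq_zero fun b _ => by rw [h.theta_el, if_neg ha, zero_mul])]
  simp only [h.theta_el, if_true, Finset.sum_mul]
  rw [Finset.sum_comm, Finset.sum_congr rfl (g := fun _ => ∑ b : V,
    z b * conj ((χ : G → ℂ) (h.stabEquiv (b, 1) : G))), Finset.sum_const, Finset.card_univ,
    nsmul_eq_mul, mul_inv, mul_assoc, inv_mul_cancel_left₀ (Nat.cast_ne_zero.mpr Fintype.card_ne_zero)]
  intro c _
  refine Fintype.sum_equiv (c : Equiv.Perm V) _ _ fun b => ?_
  have hconj : h.stabEquiv ((c : Equiv.Perm V) b, 1) =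
      h.stabEquiv (0, c) * h.stabEquiv (b, 1) * (h.stabEquiv (0, c))⁻¹ := by
    rw [eq_mul_inv_iff_mul_eq, h.el_mul, h.el_mul]
    simp
  rw [moveChar_apply, hconj, Subgroup.coe_mul, Subgroup.coe_mul, Subgroup.coe_inv, hcl]

theorem Coord.exists_nat_theta (z : AddChar V ℂ) (χ : Cfsg.IrrCharacter G) :
    ∃ m : ℕ, Cfsg.classInner (Cfsg.indFun (Stab G) (h.theta z)) (χ : G → ℂ) = m := by
  let τ : Multiplicative V →* G := MonoidHom.mk' (fun b => (h.stabEquiv (b.toAdd, 1) : G)) fun b c => by
    rw [← Subgroup.coe_mul, h.el_mul]; simp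
  let φ : Multiplicative V →* ℂ := AddChar.toMonoidHom z
  obtain ⟨m, hm⟩ := classInner_characters_nat (CfsgLib.Clifford.isCharacter_of_hom φ)
    (isCharacter_comp (isCharacter_of_irr χ.2) τ)
  refine ⟨m, ?_⟩
  rw [h.inner_theta_char, ← hm, classInner_eq, Nat.card_congr Multiplicative.toAdd]
  congr 1
  exact (Fintype.sum_equiv Multiplicative.toAdd _ _ fun _ => rfl).symm

end CfsgLib.Zas
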