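import Mathlib
import Cfsg.Agent.Zas.Chars

/-!
The bound on the index of the scalars.
-/

set_option autoImplicit false

namespace CfsgLib.Zas

open CfsgLib.CharBasics CfsgLib.CyclicTI
open CfsgLib.DegPSucc (nat_sq_sum_eq_one classInner_parseval)

universe u

variable {V : Type u} [AddCommGroup V] [Finite V] {G : Subgroup (Equiv.Perm (Option V))}

theorem moveChar_moveChar (ψ : AddChar V ℂ) (a b : scalars G) : moveChar (moveChar ψ a) b = moveChar ψ (a * b) := by
  ext v
  rfl

theorem moveChar_one (ψ : AddChar V ℂ) : moveChar ψ (1 : scalars G) = ψ := by ext v; rfl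

theorem Coord.moveChar_free (h : Coord G) {ψ : AddChar V ℂ} (hψ : ψ ≠ 0) {a : scalars G}
    (ha : moveChar ψ a = ψ) : a = 1 := by
  by_contra hne
  refine hψ ((AddChar.eq_zero_iff).mpr fun v => ?_)
  obtain ⟨c, rfl⟩ := (h.sub_bijective hne).2 v
  have h1 : ψ ((a : Equiv.Perm V) c) = ψ c := DFunLike.congr_fun ha c
  show ψ (c - (a : Equiv.Perm V) c) = 1
  rw [AddChar.map_sub_eq_div, h1, div_self]
  exact (AddChar.val_isUnit ψ c).ne_zero

/-- A coprime factor of the number of translations is congruent to one modulo the number of scalars. -/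
theorem Coord.dvd_factor_sub_one (h : Coord G) {a b : ℕ} (hab : a.Coprime b) (hq : Nat.card V = a * b) :
    Nat.card (scalars G) ∣ a - 1 := by
  let fa : V →+ V := nsmulAddMonoidHom a
  let fb : V →+ V := nsmulAddMonoidHom b
  have ha0 : 0 < a := Nat.pos_of_ne_zero fun e => by simp [e, Nat.card_pos.ne'] at hq
  have hb0 : 0 < b := Nat.pos_of_ne_zero fun e => by simp [e, Nat.card_pos.ne'] at hq
  have hcard : ∀ (n n' : ℕ), n.Coprime n' → n * n' = Nat.card V →
      (Nat.card (nsmulAddMonoidHom n : V →+ V).ker).Coprime n' ∧ Nat.card (nsmulAddMonoidHom n : V →+ V).ker ∣ n := by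
    intro n n' hnn hmul
    have hc : (Nat.card (nsmulAddMonoidHom n : V →+ V).ker).Coprime n' := by
      refine Nat.coprime_of_dvd fun r hr h1 h2 => ?_
      haveI := Fact.mk hr
      obtain ⟨x, hx⟩ := exists_prime_addOrderOf_dvd_card' r h1
      have h3 : r ∣ n := by
        rw [← hx, ← AddSubgroup.addOrderOf_coe]
        exact addOrderOf_dvd_iff_nsmul_eq_zero.mpr x.2
      exact hr.one_lt.ne' (Nat.dvd_one.mp (hnn ▸ Nat.dvd_gcd h3 h2))
    refine ⟨hc, hc.dvd_of_dvd_mul_right ?_⟩
    rw [hmul]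
    exact AddSubgroup.card_addSubgroup_dvd_card _
  obtain ⟨-, hA⟩ := hcard a b hab hq.symm
  obtain ⟨-, hB⟩ := hcard b a hab.symm (by rw [hq, mul_comm])
  have hWa : Nat.card fa.ker = a := by
    refine le_antisymm (Nat.le_of_dvd ha0 hA) ?_
    have h1 : fb.range ≤ fa.ker := by
      rintro _ ⟨v, rfl⟩
      show a • (b • v) = 0
      rw [← mul_nsmul, mul_comm, ← hq]
      exact card_nsmul_eq_zero'
    have h2 := AddSubgroup.card_eq_card_quotient_mul_card_addSubgroup fb.ker
    rw [Nat.card_congr (QuotientAddGroup.quotientKerEquivRange fb).toEquiv] at h2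
    have h3 : Nat.card fb.range ≤ Nat.card fa.ker :=
      Nat.le_of_dvd Nat.card_pos (AddSubgroup.card_dvd_of_le h1)
    have h4 : a * b ≤ Nat.card fa.ker * b :=
      le_of_eq_of_le (hq.symm.trans h2) (Nat.mul_le_mul h3 (Nat.le_of_dvd hb0 hB))
    exact Nat.le_of_mul_le_mul_right h4 hb0
  have h5 := h.dvd_card ((fa.ker : Set V) \ {0}) (fun e => e.2 rfl) fun c v hv =>
    ⟨show a • (c : Equiv.Perm V) v = 0 by
      rw [← toAdd_apply, ← map_nsmul, show a • v = 0 from hv.1, map_zero],
      fun e => hv.2 ((c : Equiv.Perm V).injective (e.trans (map_zero_scalar c).symm))⟩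
  rw [Nat.card_coe_set_eq, Set.ncard_sdiff_singleton_of_mem (show (0 : V) ∈ (fa.ker : Set V) from fa.ker.zero_mem),
    ← Nat.card_coe_set_eq, show Nat.card (fa.ker : Set V) = Nat.card fa.ker from rfl, hWa] at h5
  exact h5

set_option maxHeartbeats 800000 in
/-- The character argument. -/
theorem Coord.index_le_two (h : Coord G) (hS : SwapInvol G) (hodd : Odd (Nat.card (scalars G)))
    (h3 : 3 ≤ Nat.card (scalars G)) : Nat.card V - 1 ∣ 2 * Nat.card (scalars G) := by
  classical
  haveI := Fintype.ofFinite G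
  haveI := Fintype.ofFinite (Stab G)
  haveI := Fintype.ofFinite (scalars G)
  haveI := Fintype.ofFinite V
  haveI := Fintype.ofFinite (Cfsg.IrrCharacter G)
  letI : CommGroup (scalars G) := { (inferInstance : Group (scalars G)) with mul_comm := hS.comm h }
  haveI : Finite (scalars G →* ℂˣ) := Nat.finite_of_card_ne_zero (by
    rw [CommGroup.card_monoidHom_of_hasEnoughRootsOfUnity]; exact Nat.card_pos.ne')
  haveI := Fintype.ofFinite (scalars G →* ℂˣ)
  set d := Fintype.card (scalars G) with hd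
  rw [Nat.card_eq_fintype_card (α := scalars G), ← hd] at hodd h3 ⊢
  obtain ⟨E, hE⟩ := hodd
  have hq2 : 2 ≤ Nat.card V := by
    have h1 := h.dvd_card_sub_one
    by_contra hlt
    have : Nat.card V = 1 := by have := Nat.card_pos (α := V); omega
    haveI : Subsingleton V := (Nat.card_eq_one_iff_unique.mp this).1
    have : Subsingleton (scalars G) := ⟨fun a b => Subtype.ext (Equiv.ext fun x => Subsingleton.elim _ _)⟩
    have := Fintype.card_le_one_iff_subsingleton.mpr this
    omega
  choose ν hν using fun (l : scalars G →* ℂˣ) (χ : Cfsg.IrrCharacter G) => classInner_character_nat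
    (isCharacter_indFun (Stab G) (CfsgLib.Clifford.isCharacter_of_hom ((Units.coeHom ℂ).comp (l.comp h.proj)))) χ
  choose μ hμ using h.exists_nat_theta
  have hν' : ∀ l χ, Cfsg.classInner (Cfsg.indFun (Stab G) (h.lam l)) (Subtype.val χ) = (ν l χ : ℂ) := hν
  have hpll : ∀ l l', ∑ χ, ν l χ * ν l' χ = (if l = l' then 1 else 0) + (if l = l'⁻¹ then 1 else 0) := by
    intro l l'
    have h1 := h.inner_lam_lam hS l l'
    rw [classInner_parseval (isClassFunction_indFun _ _)] at h1
    simp only [hν', Complex.conj_natCast] at h1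
    exact_mod_cast h1
  have hplt : ∀ l z, ∑ χ, ν l χ * μ z χ = if z = 0 then 2 else 1 := by
    intro l z
    have h1 := h.inner_lam_theta hS l z
    rw [classInner_parseval (isClassFunction_indFun _ _)] at h1
    simp only [hν', hμ, Complex.conj_natCast] at h1
    exact_mod_cast h1
  have hptt : ∀ z y, (∑ χ, μ z χ * μ y χ) * d = d ^ 2 + ∑ c : scalars G, ∑ e : scalars G,
      if moveChar z c = moveChar y e then 1 else 0 := by
    intro z y
    have h1 := h.inner_theta_theta hS z y
    rw [classInner_parseval (isClassFunction_indFun _ _)] at h1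
    simp only [hμ, Complex.conj_natCast, ← hd] at h1
    exact_mod_cast h1
  have hone : ∀ l, ν l oneChar = if l = 1 then 1 else 0 := by
    intro l
    have h1 := (hν' l oneChar).symm.trans (h.inner_lam_one l)
    exact_mod_cast h1
  have honeμ : ∀ z, μ z oneChar = if z = 0 then 1 else 0 := by
    intro z
    have h1 := (hμ z oneChar).symm.trans (h.inner_theta_one z)
    exact_mod_cast h1
  have hdcard : Fintype.card (scalars G →* ℂˣ) = d := by
    rw [← Nat.card_eq_fintype_card, CommGroup.card_monoidHom_of_hasEnoughRootsOfUnity, Nat.card_eq_fintype_card, hd]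
  have hne : ∀ l : scalars G →* ℂˣ, l ≠ 1 → l ≠ l⁻¹ := by
    intro l hl e
    refine hl (MonoidHom.ext fun a => ?_)
    have h1 : l a ^ 2 = 1 := by
      rw [pow_two]
      nth_rw 2 [DFunLike.congr_fun e a]
      rw [MonoidHom.inv_apply]
      exact mul_inv_cancel (l a)
    have h2 : l a ^ d = 1 := by rw [← map_pow, hd, pow_card_eq_one, map_one]
    rw [hE, pow_succ, pow_mul, h1, one_pow, one_mul] at h2
    exact h2
  have hinv : ∀ l : scalars G →* ℂˣ, l⁻¹ = 1 → l = 1 := fun l e => MonoidHom.ext fun a =>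
    inv_eq_one.mp (DFunLike.congr_fun e a)
  have h11 : (1 : scalars G →* ℂˣ) = (1 : scalars G →* ℂˣ)⁻¹ := MonoidHom.ext fun a => inv_one.symm
  obtain ⟨St, hStm, hSt1, hSt0⟩ : ∃ St ∈ Finset.univ.erase oneChar, ν 1 St = 1 ∧
      ∀ χ ∈ Finset.univ.erase oneChar, χ ≠ St → ν 1 χ = 0 := by
    refine nat_sq_sum_eq_one _ _ ?_
    have := hpll 1 1
    rw [← Finset.add_sum_erase _ _ (Finset.mem_univ oneChar), hone, if_pos rfl, if_pos h11] at this
    omega
  have hSt' : St ≠ oneChar := Finset.ne_of_mem_erase hStm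
  have hν1 : ∀ f : Cfsg.IrrCharacter G → ℕ, ∑ χ, ν 1 χ * f χ = f oneChar + f St := by
    intro f
    rw [← Finset.add_sum_erase _ _ (Finset.mem_univ oneChar), ← Finset.add_sum_erase _ _ hStm, hone, hSt1,
      Finset.sum_eq_zero fun χ hχ => by rw [hSt0 χ (Finset.mem_of_mem_erase hχ) (Finset.ne_of_mem_erase hχ), zero_mul]]
    simp
  have hStμ : ∀ z, μ z St = 1 := by
    intro z
    have := hplt 1 z
    rw [hν1, honeμ] at this
    split_ifs at this <;> omega
  have hex : ∀ l, l ≠ 1 → ∃ χ, ν l χ = 1 ∧ ∀ χ', χ' ≠ χ → ν l χ' = 0 := by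
    intro l hl
    obtain ⟨χ, -, h1, h2⟩ := nat_sq_sum_eq_one Finset.univ (ν l) (by
      rw [hpll l l, if_pos rfl, if_neg (hne l hl)])
    exact ⟨χ, h1, fun χ' h => h2 χ' (Finset.mem_univ _) h⟩
  haveI : Nonempty (Cfsg.IrrCharacter G) := ⟨oneChar⟩
  choose! X hX1 hX0 using hex
  have hXsum : ∀ l, l ≠ 1 → ∀ f : Cfsg.IrrCharacter G → ℕ, ∑ χ, ν l χ * f χ = f (X l) := fun l hl f => by
    rw [Finset.sum_eq_single (X l) (fun χ _ hχ => by rw [hX0 l hl χ hχ, zero_mul]) (by simp), hX1 l hl, one_mul]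
  have hStl : ∀ l, l ≠ 1 → ν l St = 0 := by
    intro l hl
    have h1 := hpll 1 l
    rw [hν1, if_neg hl.symm, if_neg fun e => hl (hinv l e.symm), hone, if_neg hl] at h1
    omega
  set L := Finset.univ.erase (1 : scalars G →* ℂˣ) with hL
  set Im := L.image X with hIm
  have hImcard : Im.card = E := by
    have h1 : ∑ χ ∈ Im, ∑ l ∈ L, ν l χ = Im.card * 2 := by
      rw [Finset.sum_congr rfl (g := fun _ => 2), Finset.sum_const, smul_eq_mul]
      intro χ hχ
      obtain ⟨l₀, hl₀, rfl⟩ := Finset.mem_image.mp hχ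
      have hl₀' := Finset.ne_of_mem_erase hl₀
      have h2 : ∀ l, ν l (X l₀) = (if l = l₀ then 1 else 0) + (if l = l₀⁻¹ then 1 else 0) := fun l => by
        rw [← hpll l l₀, ← hXsum l₀ hl₀' (ν l)]
        exact Finset.sum_congr rfl fun χ _ => mul_comm _ _
      rw [Finset.sum_congr rfl (fun l _ => h2 l), Finset.sum_add_distrib, Finset.sum_ite_eq', Finset.sum_ite_eq',
        if_pos hl₀, if_pos (Finset.mem_erase.mpr ⟨fun e => hl₀' (hinv l₀ e), Finset.mem_univ _⟩)]
    rw [Finset.sum_comm, Finset.sum_congr rfl (g := fun _ => 1), Finset.sum_const, smul_eq_mul, mul_one, hL,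
      Finset.card_erase_of_mem (Finset.mem_univ _), Finset.card_univ, hdcard] at h1
    · omega
    · intro l hl
      have := Finset.ne_of_mem_erase hl
      rw [Finset.sum_eq_single_of_mem (X l) (Finset.mem_image.mpr ⟨l, hl, rfl⟩) (fun χ _ hχ => hX0 l this χ hχ), hX1 l this]
  have hImμ : ∀ χ ∈ Im, ∀ z, μ z χ = if z = 0 then 2 else 1 := by
    intro χ hχ z
    obtain ⟨l, hl, rfl⟩ := Finset.mem_image.mp hχ
    rw [← hplt l z, hXsum l (Finset.ne_of_mem_erase hl)]
  have hout : ∀ χ ∈ ({oneChar, St} : Finset (Cfsg.IrrCharacter G)), χ ∉ Im := by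
    intro χ hχ hχI
    obtain ⟨l, hl, rfl⟩ := Finset.mem_image.mp hχI
    have h1 := hX1 l (Finset.ne_of_mem_erase hl)
    rcases Finset.mem_insert.mp hχ with e | e
    · rw [e, hone, if_neg (Finset.ne_of_mem_erase hl)] at h1; exact zero_ne_one h1
    · rw [Finset.mem_singleton.mp e, hStl l (Finset.ne_of_mem_erase hl)] at h1; exact zero_ne_one h1
  set O := ({oneChar, St} : Finset (Cfsg.IrrCharacter G)) ∪ Im with hO
  have hsplit : ∀ z y, ∑ χ, μ z χ * μ y χ = (μ z oneChar * μ y oneChar + 1) +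
      E * ((if z = 0 then 2 else 1) * (if y = 0 then 2 else 1)) + ∑ χ ∈ Oᶜ, μ z χ * μ y χ := by
    intro z y
    rw [← Finset.sum_add_sum_compl O, hO, Finset.sum_union (Finset.disjoint_left.mpr hout), Finset.sum_pair hSt'.symm,
      hStμ, hStμ, Finset.sum_congr rfl (fun χ hχ => by rw [hImμ χ hχ z, hImμ χ hχ y]), Finset.sum_const, hImcard,
      smul_eq_mul]
  have hdpos : 0 < d := by omega
  have hmove0 : ∀ c : scalars G, moveChar (0 : AddChar V ℂ) c = 0 := fun c => moveChar_eq_zero_iff.mpr rfl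
  have hμ00 : ∀ χ ∈ Oᶜ, μ 0 χ = 0 := by
    have h1 := hptt 0 0
    simp only [hmove0, if_true, Finset.sum_const, Finset.card_univ, ← hd, smul_eq_mul, mul_one] at h1
    have h2 : ∑ χ, μ 0 χ * μ 0 χ = 2 * d := Nat.eq_of_mul_eq_mul_right hdpos (by rw [h1]; ring)
    rw [hsplit, honeμ] at h2
    simp only [if_true] at h2
    have h3 : ∑ χ ∈ Oᶜ, μ 0 χ * μ 0 χ = 0 := by omega
    intro χ hχ
    simpa using (Finset.sum_eq_zero_iff.mp h3) χ hχ
  -- orbit representatives
  let sd : Setoid {ψ : AddChar V ℂ // ψ ≠ 0} :=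
    { r := fun ψ φ => ∃ c : scalars G, moveChar ψ.1 c = φ.1
      iseqv := ⟨fun ψ => ⟨1, moveChar_one _⟩, fun {ψ φ} ⟨c, e⟩ => ⟨c⁻¹, by
        rw [← e, moveChar_moveChar, mul_inv_cancel, moveChar_one]⟩, fun {ψ φ η} ⟨c, e⟩ ⟨c', e'⟩ => ⟨c * c', by
        rw [← e', ← e, moveChar_moveChar]⟩⟩ }
  let J := Quotient sd
  haveI : Fintype J := Fintype.ofFinite J
  let rep : J → AddChar V ℂ := fun j => (Quotient.out j).1
  have hrep : ∀ j, rep j ≠ 0 := fun j => (Quotient.out j).2
  have hiff : ∀ (j k : J) (c e : scalars G), moveChar (rep j) c = moveChar (rep k) e ↔ j = k ∧ c = e := by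
    intro j k c e
    constructor
    · intro hce
      have hjk : j = k := by
        rw [← Quotient.out_eq j, ← Quotient.out_eq k]
        refine Quotient.sound ⟨c * e⁻¹, ?_⟩
        rw [← moveChar_moveChar]
        show moveChar (moveChar (rep j) c) e⁻¹ = rep k
        rw [hce, moveChar_moveChar, mul_inv_cancel, moveChar_one]
      refine ⟨hjk, ?_⟩
      subst hjk
      refine mul_inv_eq_one.mp (h.moveChar_free (hrep j) ?_)
      rw [← moveChar_moveChar, hce, moveChar_moveChar, mul_inv_cancel, moveChar_one]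
    · rintro ⟨rfl, rfl⟩; rfl
  let par : J × scalars G ≃ {ψ : AddChar V ℂ // ψ ≠ 0} := Equiv.ofBijective
    (fun x => ⟨moveChar (rep x.1) x.2, fun e => hrep _ (moveChar_eq_zero_iff.mp e)⟩)
    ⟨fun x y e => by
      obtain ⟨h1, h2⟩ := (hiff x.1 y.1 x.2 y.2).mp (congrArg Subtype.val e)
      exact Prod.ext h1 h2, fun ψ => by
      obtain ⟨c, hc⟩ := Quotient.exact (Quotient.out_eq (Quotient.mk sd ψ))
      exact ⟨(Quotient.mk sd ψ, c), Subtype.ext hc⟩⟩
  have hμmul : ∀ z (c : scalars G), μ (moveChar z c) = μ z := by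
    intro z c
    have h1 : h.theta (moveChar z c) = h.theta z := by
      funext y
      simp only [Coord.theta]
      split_ifs
      · refine Fintype.sum_equiv (Equiv.mulLeft c) _ _ fun e => ?_
        rw [moveChar_moveChar]
        rfl
      · rfl
    funext χ
    have := hμ (moveChar z c) χ
    rw [h1, hμ z χ] at this
    exact_mod_cast this.symm
  have hmd : Fintype.card J * d = Nat.card V - 1 := by
    rw [hd, ← Fintype.card_prod, Fintype.card_congr par, Fintype.card_subtype_compl,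
      Fintype.card_subtype_eq, AddChar.card_eq, Nat.card_eq_fintype_card (α := V)]
  have hres := bound_of_gram (T := {χ // χ ∈ Oᶜ}) (J := J) (fun χ j => μ (rep j) χ) hq2 hE (by omega) hmd ?_ ?_
  · rcases hres with hr | ⟨m, hm3, hdm, hqm⟩
    · exact hr
    · exfalso
      have hcop : (m - 1).Coprime (2 * m - 1) := by
        refine Nat.coprime_of_dvd fun r hr h1 h2 => ?_
        have h4 : r ∣ 2 * m - 1 - 2 * (m - 1) := Nat.dvd_sub h2 (h1.mul_left 2)
        rw [show 2 * m - 1 - 2 * (m - 1) = 1 by omega] at h4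
        exact hr.one_lt.ne' (Nat.dvd_one.mp h4)
      have h1 := Nat.le_of_dvd (by omega) (h.dvd_factor_sub_one hcop hqm)
      rw [Nat.card_eq_fintype_card, ← hd] at h1
      omega
  · intro j k
    have h1 := hptt (rep j) (rep k)
    have h2 : ∑ c : scalars G, ∑ e : scalars G, (if moveChar (rep j) c = moveChar (rep k) e then 1 else 0) =
        d * if j = k then 1 else 0 := by
      simp only [hiff]
      by_cases hjk : j = k
      · simp [hjk, hd]
      · simp [hjk]
    rw [h2, pow_two, ← Nat.mul_add] at h1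
    have h3 : ∑ χ, μ (rep j) χ * μ (rep k) χ = d + if j = k then 1 else 0 :=
      Nat.eq_of_mul_eq_mul_right hdpos (h1.trans (mul_comm _ _))
    rw [hsplit, honeμ, honeμ, if_neg (hrep _), if_neg (hrep _), if_neg (hrep _),
      if_neg (hrep _), ← Finset.sum_coe_sort] at h3
    omega
  · rintro ⟨χ, hχ⟩
    have hdeg : Cfsg.charDegree (χ : G → ℂ) = ∑ z : AddChar V ℂ, μ z χ := by
      have h1 : (Cfsg.charDegree (χ : G → ℂ) : ℂ) = ∑ z : AddChar V ℂ, (μ z χ : ℂ) := by
        simp only [← hμ, h.inner_theta_char, ← Finset.mul_sum]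
        rw [Finset.sum_comm]
        simp only [← Finset.sum_mul, AddChar.sum_apply_eq_ite, ite_mul, zero_mul, Finset.sum_ite_eq', Finset.mem_univ,
          if_true]
        rw [Nat.card_eq_fintype_card, inv_mul_cancel_left₀ (Nat.cast_ne_zero.mpr Fintype.card_ne_zero), h.el_one,
          Subgroup.coe_one, apply_one (isCharacter_of_irr χ.2), Complex.conj_natCast]
      exact_mod_cast h1
    have hdvd := degree_dvd χ
    rw [h.card_eq, Nat.card_eq_fintype_card (α := scalars G), ← hd, hdeg] at hdvd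
    refine dvd_trans (dvd_of_eq ?_) hdvd
    rw [← Finset.add_sum_erase _ _ (Finset.mem_univ (0 : AddChar V ℂ)), hμ00 χ hχ, zero_add,
      Finset.sum_subtype _ (p := fun z : AddChar V ℂ => z ≠ 0) (by simp), ← Fintype.sum_equiv par
        (fun x => μ (par x).1 χ) (fun u => μ u.1 χ) (fun _ => rfl), Fintype.sum_prod_type, Finset.mul_sum]
    refine Finset.sum_congr rfl fun j _ => ?_
    rw [Finset.sum_congr rfl (g := fun _ => μ (rep j) χ), Finset.sum_const, Finset.card_univ, smul_eq_mul, hd]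
    intro c _
    exact congrFun (hμmul (rep j) c) χ

end CfsgLib.Zas
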