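import Mathlib
import Cfsg.Agent.Zas.Setup

/-!
Counting involutions with fixed points.
-/

set_option autoImplicit false

namespace CfsgLib.Zas

universe u

variable {V : Type u} [AddCommGroup V] [Finite V] {G : Subgroup (Equiv.Perm (Option V))}

/-- The double count: with `s` the number of fixed points of an involution fixing a point and `i` the number
of those fixing `none`, the number `n` of those with a given swapped pair satisfies
`i * (q + 1 - s) = n * q * s`. -/
theorem Coord.count (h : Coord G) {s : ℕ}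
    (hfix : ∀ g ∈ G, g * g = 1 → g ≠ 1 → g none = none → Nat.card {x // g x = x} = s) :
    ∃ n, n ≤ Nat.card (scalars G) ∧
      (Nat.card V + 1 - s) * Nat.card {g : G // g * g = 1 ∧ g ≠ 1 ∧ (g : Equiv.Perm (Option V)) none = none} =
        n * Nat.card V * s ∧
      (0 < n → ∃ w ∈ G, w none = some 0 ∧ w (some 0) = none ∧ w * w = 1) ∧
      (n = Nat.card (scalars G) → SwapInvol G) := by
  classical
  haveI := Fintype.ofFinite V
  set I : Finset (Equiv.Perm (Option V)) :=
    Finset.univ.filter fun g => g ∈ G ∧ g * g = 1 ∧ g ≠ 1 ∧ ∃ x, g x = x with hI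
  have hmem : ∀ g, g ∈ I ↔ g ∈ G ∧ g * g = 1 ∧ g ≠ 1 ∧ ∃ x, g x = x := fun g => by simp [hI]
  have hconjI : ∀ t ∈ G, ∀ g ∈ I, t * g * t⁻¹ ∈ I := by
    intro t ht g hg
    obtain ⟨h1, h2, h3, x, hx⟩ := (hmem g).mp hg
    refine (hmem _).mpr ⟨G.mul_mem (G.mul_mem ht h1) (G.inv_mem ht), ?_, ?_, t x, by simp [hx]⟩
    · rw [show t * g * t⁻¹ * (t * g * t⁻¹) = t * (g * g) * t⁻¹ by group, h2, mul_one, mul_inv_cancel]
    · rwa [Ne, conj_eq_one_iff]
  set i := (I.filter fun g => g none = none).card with hi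
  have hi' : Nat.card {g : G // g * g = 1 ∧ g ≠ 1 ∧ (g : Equiv.Perm (Option V)) none = none} = i := by
    rw [hi, ← Nat.card_eq_finsetCard]
    exact Nat.card_congr {
      toFun := fun g => ⟨((g : G) : Equiv.Perm (Option V)), Finset.mem_filter.mpr ⟨(hmem _).mpr
        ⟨g.1.2, congrArg Subtype.val g.2.1, fun e => g.2.2.1 (Subtype.ext e), none, g.2.2.2⟩, g.2.2.2⟩⟩
      invFun := fun g => ⟨⟨(g : Equiv.Perm (Option V)), ((hmem _).mp (Finset.mem_filter.mp g.2).1).1⟩,
        Subtype.ext ((hmem _).mp (Finset.mem_filter.mp g.2).1).2.1,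
        fun e => ((hmem _).mp (Finset.mem_filter.mp g.2).1).2.2.1 (congrArg Subtype.val e),
        (Finset.mem_filter.mp g.2).2⟩
      left_inv := fun g => rfl
      right_inv := fun g => rfl }
  have hfix2 : ∀ g ∈ I, (Finset.univ.filter fun x => g x = x).card = s := by
    intro g hg
    obtain ⟨x, hx⟩ := ((hmem g).mp hg).2.2.2
    obtain ⟨t, ht, htx⟩ := h.transitive none x
    have h0 : (t⁻¹ * g * t⁻¹⁻¹) none = none := by
      simp only [inv_inv, Equiv.Perm.mul_apply, htx, hx]
      rw [← htx]; simp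
    obtain ⟨a1, a2, a3, -⟩ := (hmem _).mp (hconjI t⁻¹ (G.inv_mem ht) g hg)
    rw [← hfix _ a1 a2 a3 h0, ← Fintype.card_subtype, ← Nat.card_eq_fintype_card]
    exact Nat.card_congr (t⁻¹.subtypeEquiv fun y => by simp)
  have hfixcount : ∀ x, (I.filter fun g => g x = x).card = i := by
    intro x
    obtain ⟨t, ht, htx⟩ := h.transitive none x
    refine Finset.card_nbij' (fun g => t⁻¹ * g * t⁻¹⁻¹) (fun g => t * g * t⁻¹) ?_ ?_ ?_ ?_
    · intro g hg
      obtain ⟨hgI, hgx⟩ := Finset.mem_filter.mp hg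
      refine Finset.mem_filter.mpr ⟨hconjI t⁻¹ (G.inv_mem ht) g hgI, ?_⟩
      simp only [inv_inv, Equiv.Perm.mul_apply, htx, hgx]
      rw [← htx]; simp
    · intro g hg
      obtain ⟨hgI, hgx⟩ := Finset.mem_filter.mp hg
      refine Finset.mem_filter.mpr ⟨hconjI t ht g hgI, ?_⟩
      simp only [Equiv.Perm.mul_apply, show t⁻¹ x = none by rw [← htx]; simp, hgx, htx]
    · intro g _; group
    · intro g _; group
  set n := (I.filter fun g => g none = some 0).card with hn
  have hpaircount : ∀ x y, x ≠ y → (I.filter fun g => g x = y).card = n := by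
    intro x y hxy
    obtain ⟨t, ht, htx, hty⟩ := h.exists_mem x y hxy
    refine Finset.card_nbij' (fun g => t⁻¹ * g * t⁻¹⁻¹) (fun g => t * g * t⁻¹) ?_ ?_ ?_ ?_
    · intro g hg
      obtain ⟨hgI, hgx⟩ := Finset.mem_filter.mp hg
      refine Finset.mem_filter.mpr ⟨hconjI t⁻¹ (G.inv_mem ht) g hgI, ?_⟩
      simp only [inv_inv, Equiv.Perm.mul_apply, htx, hgx]
      rw [← hty]; simp
    · intro g hg
      obtain ⟨hgI, hgx⟩ := Finset.mem_filter.mp hg
      refine Finset.mem_filter.mpr ⟨hconjI t ht g hgI, ?_⟩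
      simp only [Equiv.Perm.mul_apply, show t⁻¹ x = none by rw [← htx]; simp, hgx, hty]
    · intro g _; group
    · intro g _; group
  set q := Nat.card V with hq
  have hq1 : Fintype.card (Option V) = q + 1 := by rw [Fintype.card_option, hq, Nat.card_eq_fintype_card]
  have hsum1 : ∑ g ∈ I, (Finset.univ.filter fun x => g x = x).card = (q + 1) * i := by
    simp only [Finset.card_filter]
    rw [Finset.sum_comm]
    simp only [← Finset.card_filter, hfixcount, Finset.sum_const, smul_eq_mul, Finset.card_univ, hq1]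
  have hsum2 : ∑ g ∈ I, (Finset.univ.filter fun x => ¬ g x = x).card = (q + 1) * (q * n) := by
    have h1 : ∀ g : Equiv.Perm (Option V), (Finset.univ.filter fun x => ¬ g x = x).card =
        ∑ x, ∑ y ∈ Finset.univ.erase x, if g x = y then 1 else 0 := fun g => by
      rw [Finset.card_filter]
      refine Finset.sum_congr rfl fun x _ => ?_
      rw [Finset.sum_ite_eq]
      simp
    simp only [h1]
    rw [Finset.sum_comm, Finset.sum_congr rfl (g := fun _ => q * n), Finset.sum_const, smul_eq_mul, Finset.card_univ, hq1]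
    intro x _
    rw [Finset.sum_comm, Finset.sum_congr rfl (g := fun _ => n), Finset.sum_const, smul_eq_mul,
      Finset.card_erase_of_mem (Finset.mem_univ _), Finset.card_univ, hq1, Nat.add_sub_cancel]
    intro y hy
    rw [← Finset.card_filter, hpaircount x y (Finset.ne_of_mem_erase hy).symm]
  have hmoved : ∀ g ∈ I, (Finset.univ.filter fun x => ¬ g x = x).card = q + 1 - s := by
    intro g hg
    have := Finset.card_filter_add_card_filter_not (s := Finset.univ) (fun x => g x = x)
    rw [hfix2 g hg, Finset.card_univ, hq1] at this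
    omega
  rw [Finset.sum_congr rfl hfix2, Finset.sum_const, smul_eq_mul] at hsum1
  rw [Finset.sum_congr rfl hmoved, Finset.sum_const, smul_eq_mul] at hsum2
  obtain ⟨w, hw, w0, w1⟩ := h.exists_swap
  set S : Finset (Equiv.Perm (Option V)) :=
    Finset.univ.filter fun g => g ∈ G ∧ g none = some 0 ∧ g (some 0) = none with hS
  have hScard : S.card = Nat.card (scalars G) := by
    haveI := Fintype.ofFinite (scalars G)
    rw [Nat.card_eq_fintype_card, ← Finset.card_univ]
    refine (Finset.card_bij (s := (Finset.univ : Finset (scalars G))) (fun b _ => w * sc (b : Equiv.Perm V)) ?_ ?_ ?_).symm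
    · intro b _
      exact Finset.mem_filter.mpr ⟨Finset.mem_univ _, G.mul_mem hw (sc_mem b), by simp [w0],
        by simp [w1, map_zero_scalar]⟩
    · intro b _ b' _ e
      exact Subtype.ext (sc_injective (mul_left_cancel e))
    · intro g hg
      obtain ⟨-, hg1, hg2, hg3⟩ := Finset.mem_filter.mp hg
      obtain ⟨b, rfl⟩ := h.eq_mul_sc hw w0 w1 hg1 hg2 hg3
      exact ⟨b, Finset.mem_univ _, rfl⟩
  have hsub : (I.filter fun g => g none = some 0) ⊆ S := by
    intro g hg
    obtain ⟨hgI, hg0⟩ := Finset.mem_filter.mp hg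
    obtain ⟨h1, h2, -⟩ := (hmem g).mp hgI
    refine Finset.mem_filter.mpr ⟨Finset.mem_univ _, h1, hg0, ?_⟩
    rw [← hg0, ← Equiv.Perm.mul_apply, h2, Equiv.Perm.one_apply]
  have hle := Finset.card_le_card hsub
  rw [← hn, hScard] at hle
  refine ⟨n, hle, ?_, fun hpos => ?_, fun he => ?_⟩
  · rw [hi']
    refine Nat.eq_of_mul_eq_mul_left (Nat.succ_pos q) ?_
    calc (q + 1) * ((q + 1 - s) * i) = (q + 1) * i * (q + 1 - s) := by ring
      _ = I.card * s * (q + 1 - s) := by rw [hsum1]
      _ = I.card * (q + 1 - s) * s := by ring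
      _ = (q + 1) * (q * n) * s := by rw [hsum2]
      _ = (q + 1) * (n * q * s) := by ring
  · obtain ⟨g, hg⟩ := Finset.card_pos.mp hpos
    obtain ⟨-, h1, h2, h3⟩ := Finset.mem_filter.mp (hsub hg)
    exact ⟨g, h1, h2, h3, ((hmem g).mp (Finset.mem_filter.mp hg).1).2.1⟩
  · intro v hv v0 v1
    have heq := Finset.eq_of_subset_of_card_le hsub (by omega)
    have : v ∈ I.filter fun g => g none = some 0 := heq ▸ Finset.mem_filter.mpr ⟨Finset.mem_univ _, hv, v0, v1⟩
    exact ((hmem v).mp (Finset.mem_filter.mp this).1).2.1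

theorem Coord.neg_mem (h : Coord G) (hd : 2 ∣ Nat.card (scalars G)) :
    ∃ a : scalars G, a ≠ 1 ∧ ∀ v, (a : Equiv.Perm V) v = -v := by
  haveI : Fact (Nat.Prime 2) := ⟨Nat.prime_two⟩
  obtain ⟨z, hz⟩ := exists_prime_orderOf_dvd_card' (G := scalars G) 2 hd
  refine ⟨z, fun e => by rw [e, orderOf_one] at hz; omega, fun v => ?_⟩
  have hzz : z * z = 1 := by rw [← pow_two, ← hz, pow_orderOf_eq_one]
  by_contra hne
  have hw : v + (z : Equiv.Perm V) v ≠ 0 := fun e => hne (eq_neg_of_add_eq_zero_right e)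
  have : z = 1 := h.free z _ hw (by
    rw [map_add_scalar, ← Equiv.Perm.mul_apply, ← Subgroup.coe_mul, hzz, Subgroup.coe_one, Equiv.Perm.one_apply,
      add_comm])
  rw [this, orderOf_one] at hz
  omega

theorem Coord.inv_form (h : Coord G) {g : Equiv.Perm (Option V)} (hg : g ∈ G) (h2 : g * g = 1) (h0 : g none = none) :
    ∃ (a : scalars G) (b : V), g = tr b * sc (a : Equiv.Perm V) ∧ a * a = 1 ∧ (a : Equiv.Perm V) b + b = 0 := by
  obtain ⟨a, b, rfl⟩ := h.affine' hg h0
  have e1 := congrArg (fun g : Equiv.Perm (Option V) => g (some 0)) h2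
  simp [map_zero_scalar] at e1
  refine ⟨a, b, rfl, Subtype.ext (Equiv.ext fun x => ?_), e1⟩
  have e2 := congrArg (fun g : Equiv.Perm (Option V) => g (some x)) h2
  simp [map_add_scalar, add_assoc, e1] at e2
  simpa using e2

/-- For even `d`: involutions interchanging the base points exist, and `q - 1 ≤ 2 d`. -/
theorem Coord.even_case (h : Coord G) (hd : 2 ∣ Nat.card (scalars G)) (hq2 : 2 ≤ Nat.card V) :
    Odd (Nat.card V) ∧ (∃ w ∈ G, w none = some 0 ∧ w (some 0) = none ∧ w * w = 1) ∧
      Nat.card V - 1 ≤ 2 * Nat.card (scalars G) ∧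
      (2 * Nat.card (scalars G) = Nat.card V - 1 → SwapInvol G) := by
  classical
  obtain ⟨z, hz1, hz⟩ := h.neg_mem hd
  have hodd : Odd (Nat.card V) := by
    have h1 := dvd_trans hd h.dvd_card_sub_one
    rcases Nat.even_or_odd (Nat.card V) with he | he
    · rw [even_iff_two_dvd] at he
      omega
    · exact he
  have htwo : Function.Bijective fun v : V => v + v := by
    have := h.sub_bijective hz1
    simpa [hz] using this
  have hinv : ∀ a : scalars G, a * a = 1 → a ≠ 1 → a = z := fun a ha ha1 => Subtype.ext (Equiv.ext fun v => by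
    rw [hz]
    by_contra hne
    refine ha1 (h.free a (v + (a : Equiv.Perm V) v) (fun e => hne (eq_neg_of_add_eq_zero_right e)) ?_)
    rw [map_add_scalar, ← Equiv.Perm.mul_apply, ← Subgroup.coe_mul, ha, Subgroup.coe_one, Equiv.Perm.one_apply,
      add_comm])
  have hform : ∀ g ∈ G, g * g = 1 → g ≠ 1 → g none = none → ∃ b, g = tr b * sc (z : Equiv.Perm V) := by
    intro g hg h2 h1 h0
    obtain ⟨a, b, rfl, haa, hab⟩ := h.inv_form hg h2 h0
    by_cases ha : a = 1
    · exfalso
      rw [ha] at hab h1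
      simp only [Subgroup.coe_one, Equiv.Perm.one_apply] at hab
      exact h1 (by rw [show b = 0 from htwo.1 (by simpa using hab), tr_zero, Subgroup.coe_one, map_one, one_mul])
    · exact ⟨b, by rw [hinv a haa ha]⟩
  obtain ⟨n, hnd, hcount, hw, hS⟩ := h.count (s := 2) (fun g hg h2 h1 h0 => by
    obtain ⟨b, rfl⟩ := hform g hg h2 h1 h0
    haveI := Fintype.ofFinite V
    obtain ⟨c, hc⟩ := htwo.2 b
    simp only at hc
    rw [Nat.card_eq_fintype_card, Fintype.card_subtype, show
      (Finset.univ.filter fun x => (tr b * sc (z : Equiv.Perm V)) x = x) = {none, some c} from ?_,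
      Finset.card_pair (by simp)]
    ext x
    rw [Finset.mem_filter]
    cases x with
    | none => simp
    | some x =>
      simp [hz]
      constructor
      · intro e
        refine htwo.1 ?_
        simp only
        rw [hc]
        calc x + x = x + (-x + b) := by rw [e]
          _ = b := by abel
      · rintro rfl
        rw [← hc]; abel)
  have hi : Nat.card {g : G // g * g = 1 ∧ g ≠ 1 ∧ (g : Equiv.Perm (Option V)) none = none} = Nat.card V := by
    obtain ⟨v, hv⟩ : ∃ v : V, v ≠ 0 := by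
      haveI := Finite.one_lt_card_iff_nontrivial.mp (show 1 < Nat.card V by omega)
      exact exists_ne 0
    have hf : ∀ b : V, (⟨tr b * sc (z : Equiv.Perm V), G.mul_mem (h.tr_mem b) (sc_mem z)⟩ : G) *
        ⟨tr b * sc (z : Equiv.Perm V), G.mul_mem (h.tr_mem b) (sc_mem z)⟩ = 1 ∧
        (⟨tr b * sc (z : Equiv.Perm V), G.mul_mem (h.tr_mem b) (sc_mem z)⟩ : G) ≠ 1 := fun b => by
      refine ⟨Subtype.ext (Equiv.ext fun y => ?_), fun e => ?_⟩
      · cases y with
        | none => simp
        | some y => simp [hz]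
      · have e0 := congrArg (fun g : G => (g : Equiv.Perm (Option V)) (some 0)) e
        have e1 := congrArg (fun g : G => (g : Equiv.Perm (Option V)) (some v)) e
        simp [hz] at e0 e1
        rw [e0, add_zero] at e1
        exact hv (htwo.1 (by simpa using neg_eq_iff_add_eq_zero.mp e1))
    let f : V → {g : G // g * g = 1 ∧ g ≠ 1 ∧ (g : Equiv.Perm (Option V)) none = none} := fun b =>
      ⟨⟨tr b * sc (z : Equiv.Perm V), G.mul_mem (h.tr_mem b) (sc_mem z)⟩, (hf b).1, (hf b).2, by simp⟩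
    refine (Nat.card_congr (Equiv.ofBijective f ⟨fun b b' e => ?_, ?_⟩)).symm
    · have := congrArg (fun g => ((g : G) : Equiv.Perm (Option V)) (some 0)) (congrArg Subtype.val e)
      simpa [f, hz] using this
    · rintro ⟨⟨g, hg⟩, h2, h1, h0⟩
      obtain ⟨b, rfl⟩ := hform g hg (congrArg Subtype.val h2) (fun e => h1 (Subtype.ext e)) h0
      exact ⟨b, rfl⟩
  rw [hi] at hcount
  have hn2 : Nat.card V + 1 - 2 = n * 2 := by
    refine Nat.eq_of_mul_eq_mul_right (show 0 < Nat.card V by omega) ?_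
    rw [hcount]; ring
  obtain ⟨t, ht⟩ := hodd
  exact ⟨⟨t, ht⟩, hw (by omega), by omega, fun e => hS (by omega)⟩

/-- For odd `d` and `q` even, all swaps are involutions. -/
theorem Coord.two_case (h : Coord G) (hd : ¬ 2 ∣ Nat.card (scalars G)) (hq : 2 ∣ Nat.card V) : SwapInvol G := by
  classical
  have ha1 : ∀ a : scalars G, a * a = 1 → a = 1 := fun a ha => by
    by_contra hne
    refine hd ?_
    rw [← orderOf_eq_prime (show a ^ 2 = 1 by rw [pow_two, ha]) hne]
    exact orderOf_dvd_natCard a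
  have hform : ∀ g ∈ G, g * g = 1 → g ≠ 1 → g none = none → ∃ b, b ≠ 0 ∧ b + b = 0 ∧ g = tr b := by
    intro g hg h2 h1 h0
    obtain ⟨a, b, rfl, haa, hab⟩ := h.inv_form hg h2 h0
    rw [ha1 a haa] at hab h1 ⊢
    simp only [Subgroup.coe_one, Equiv.Perm.one_apply, map_one, mul_one] at hab h1 ⊢
    exact ⟨b, fun e => h1 (by rw [e, tr_zero]), hab, rfl⟩
  obtain ⟨n, hnd, hcount, -, hS⟩ := h.count (s := 1) (fun g hg h2 h1 h0 => by
    obtain ⟨b, hb0, -, rfl⟩ := hform g hg h2 h1 h0
    rw [Nat.card_eq_one_iff_unique]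
    refine ⟨⟨fun x y => Subtype.ext ?_⟩, ⟨⟨none, rfl⟩⟩⟩
    have : ∀ x : Option V, tr b x = x → x = none := fun x hx => by
      cases x with
      | none => rfl
      | some x => simp at hx; exact absurd hx hb0
    rw [this _ x.2, this _ y.2])
  set S : Set V := {b | b ≠ 0 ∧ b + b = 0}
  have hi : Nat.card {g : G // g * g = 1 ∧ g ≠ 1 ∧ (g : Equiv.Perm (Option V)) none = none} = Nat.card S := by
    have hf : ∀ b : S, (⟨tr (b : V), h.tr_mem _⟩ : G) * ⟨tr (b : V), h.tr_mem _⟩ = 1 ∧
        (⟨tr (b : V), h.tr_mem _⟩ : G) ≠ 1 := fun b => by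
      refine ⟨Subtype.ext ?_, fun e => ?_⟩
      · show tr (b : V) * tr (b : V) = 1
        rw [tr_add, b.2.2, tr_zero]
      · have := congrArg (fun g : G => (g : Equiv.Perm (Option V)) (some 0)) e
        simp at this
        exact b.2.1 this
    let f : S → {g : G // g * g = 1 ∧ g ≠ 1 ∧ (g : Equiv.Perm (Option V)) none = none} := fun b =>
      ⟨⟨tr (b : V), h.tr_mem _⟩, (hf b).1, (hf b).2, rfl⟩
    refine (Nat.card_congr (Equiv.ofBijective f ⟨fun b b' e => ?_, ?_⟩)).symm
    · have := congrArg (fun g => ((g : G) : Equiv.Perm (Option V)) (some 0)) (congrArg Subtype.val e)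
      exact Subtype.ext (by simpa [f] using this)
    · rintro ⟨⟨g, hg⟩, h2, h1, h0⟩
      obtain ⟨b, hb0, hbb, rfl⟩ := hform g hg (congrArg Subtype.val h2) (fun e => h1 (Subtype.ext e)) h0
      exact ⟨⟨b, hb0, hbb⟩, rfl⟩
  have hdvd : Nat.card (scalars G) ∣ Nat.card S := h.dvd_card S (fun e => e.1 rfl) fun a v hv =>
    ⟨fun e => hv.1 ((a : Equiv.Perm V).injective (e.trans (map_zero_scalar a).symm)),
      by rw [← map_add_scalar, hv.2, map_zero_scalar]⟩
  have hSpos : 0 < Nat.card S := by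
    haveI : Fact (Nat.Prime 2) := ⟨Nat.prime_two⟩
    obtain ⟨b, hb⟩ := exists_prime_addOrderOf_dvd_card' (G := V) 2 hq
    refine Nat.card_pos_iff.mpr ⟨⟨⟨b, fun e => ?_, ?_⟩⟩, inferInstance⟩
    · rw [e, addOrderOf_zero] at hb; omega
    · rw [← two_nsmul, ← hb, addOrderOf_nsmul_eq_zero]
  rw [hi] at hcount
  have hn : n = Nat.card S := by
    refine Nat.eq_of_mul_eq_mul_right (show 0 < Nat.card V from Nat.card_pos) ?_
    rw [Nat.add_sub_cancel, mul_one, mul_comm] at hcount
    exact hcount.symm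
  refine hS (le_antisymm hnd ?_)
  rw [hn]
  exact Nat.le_of_dvd hSpos hdvd

end CfsgLib.Zas
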