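import Mathlib
import Cfsg.Agent.Zas.CharBound
import Cfsg.Agent.SharpTwo.Basic
import Cfsg.Agent.PiClasses.Action
import Cfsg.Agent.Frob.Structure

/-!
Odd number of scalars and odd number of translations: either a regular normal subgroup or all swaps are
involutions.
-/

set_option autoImplicit false

namespace CfsgLib.Zas

universe u

variable {V : Type u} [AddCommGroup V] [Finite V] {G : Subgroup (Equiv.Perm (Option V))}

theorem hasRegular_of_trivial (h : Coord G) (hd : Nat.card (scalars G) = 1) : HasRegular G := by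
  classical
  haveI : MulAction.IsMultiplyPretransitive G (Option V) 2 := by
    refine MulAction.is_two_pretransitive_iff.mpr ?_
    intro a b c e hab hce
    obtain ⟨g, hg, g0, g1⟩ := h.exists_mem a b hab
    obtain ⟨k, hk, k0, k1⟩ := h.exists_mem c e hce
    refine ⟨⟨k * g⁻¹, G.mul_mem hk (G.inv_mem hg)⟩, ?_, ?_⟩
    · show (k * g⁻¹) a = c
      rw [← g0]; simp [k0]
    · show (k * g⁻¹) b = e
      rw [← g1]; simp [k1]
  have hsharp : ∀ x : Fin 2 ↪ Option V, MulAction.stabilizer G x = ⊥ := by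
    intro x
    rw [eq_bot_iff]
    intro g hg
    obtain ⟨t, ht, t0, t1⟩ := h.exists_mem (x 0) (x 1) fun e => absurd (x.injective e) (by decide)
    have e0 : (g : Equiv.Perm (Option V)) (x 0) = x 0 := DFunLike.congr_fun (MulAction.mem_stabilizer_iff.mp hg) 0
    have e1 : (g : Equiv.Perm (Option V)) (x 1) = x 1 := DFunLike.congr_fun (MulAction.mem_stabilizer_iff.mp hg) 1
    obtain ⟨a, hga⟩ := h.fix_two (G.mul_mem (G.mul_mem (G.inv_mem ht) g.2) ht)
      (by simp [t0, e0]; rw [← t0]; simp) (by simp [t1, e1]; rw [← t1]; simp)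
    rw [show a = 1 from (Nat.card_eq_one_iff_unique.mp hd).1.elim _ _, Subgroup.coe_one, map_one, mul_assoc,
      inv_mul_eq_one] at hga
    have hg1 : (g : Equiv.Perm (Option V)) * t = 1 * t := by rw [one_mul, ← hga]
    exact Subgroup.mem_bot.mpr (Subtype.ext (mul_right_cancel hg1))
  obtain ⟨_, _, N, _, _, h1, h2, hN, _, _, _, _, htr⟩ := CfsgLib.SharpTwo.exists_regular_normal (G := G) hsharp
    (by rw [Finite.card_option]; have := Nat.card_pos (α := V); omega)
  refine ⟨N.map G.subtype, Subgroup.map_subtype_le N, ?_, ?_, ?_⟩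
  · rintro g hg _ ⟨n, hn, rfl⟩
    exact ⟨⟨g, hg⟩ * n * ⟨g, hg⟩⁻¹, hN.conj_mem n hn _, rfl⟩
  · rw [Subgroup.card_map_of_injective G.subtype_injective, h2, ← h1, Finite.card_option]
  · intro x y
    obtain ⟨n, hn, hxy⟩ := htr x y
    exact ⟨n, Subgroup.mem_map_of_mem G.subtype hn, hxy⟩

variable {N : Subgroup (Equiv.Perm (Option V))}

theorem ev_bijective (hcard : Nat.card N = Nat.card V + 1) (htr : ∀ x y, ∃ n ∈ N, n x = y) :
    Function.Bijective fun n : N => (n : Equiv.Perm (Option V)) none := by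
  classical
  haveI := Fintype.ofFinite N
  haveI := Fintype.ofFinite V
  refine (Fintype.bijective_iff_surjective_and_card _).mpr ⟨fun y => ?_, ?_⟩
  · obtain ⟨n, hn, h⟩ := htr none y
    exact ⟨⟨n, hn⟩, h⟩
  · rw [← Nat.card_eq_fintype_card, hcard, Fintype.card_option, Nat.card_eq_fintype_card]

theorem elementary (h : Coord G) (hodd : Odd (Nat.card V)) (hnorm : ∀ g ∈ G, ∀ n ∈ N, g * n * g⁻¹ ∈ N)
    (hcard : Nat.card N = Nat.card V + 1) (htr : ∀ x y, ∃ n ∈ N, n x = y) : ∀ n : N, n * n = 1 := by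
  haveI : Fact (Nat.Prime 2) := ⟨Nat.prime_two⟩
  have hev := ev_bijective hcard htr
  have heven : 2 ∣ Nat.card N := by
    rw [hcard]
    exact even_iff_two_dvd.mp hodd.add_one
  obtain ⟨t, ht⟩ := exists_prime_orderOf_dvd_card' (G := N) 2 heven
  intro n
  by_cases hn : n = 1
  · rw [hn, one_mul]
  have hne : ∀ z : N, z ≠ 1 → ∃ c, (z : Equiv.Perm (Option V)) none = some c := fun z hz =>
    Option.ne_none_iff_exists'.mp fun e => hz (hev.1 (show (z : Equiv.Perm (Option V)) none = _ by rw [e]; rfl))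
  obtain ⟨c, hc⟩ := hne n hn
  obtain ⟨c', hc'⟩ := hne t fun e => by rw [e, orderOf_one] at ht; omega
  have hconj : (⟨_, hnorm _ (h.tr_mem (c - c')) t t.2⟩ : N) = n := hev.1 (by
    show (tr (c - c') * (t : Equiv.Perm (Option V)) * (tr (c - c'))⁻¹) none = _
    rw [tr_inv]
    simp [hc, hc'])
  have htt : (t : Equiv.Perm (Option V)) * t = 1 := by
    have := pow_orderOf_eq_one t
    rw [ht, pow_two] at this
    exact congrArg Subtype.val this
  apply Subtype.ext
  rw [← hconj]
  show tr (c - c') * (t : Equiv.Perm (Option V)) * (tr (c - c'))⁻¹ * (tr (c - c') * t * (tr (c - c'))⁻¹) = 1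
  calc _ = tr (c - c') * ((t : Equiv.Perm (Option V)) * t) * (tr (c - c'))⁻¹ := by group
    _ = 1 := by rw [htt, mul_one, mul_inv_cancel]

theorem hasRegular_of_normal (hq : Odd (Nat.card V)) {K : Subgroup (Equiv.Perm (Option V))} (hK : Coord K)
    (hKG : K ≤ G) (hnorm : ∀ g ∈ G, ∀ k ∈ K, g * k * g⁻¹ ∈ K) (hR : HasRegular K) : HasRegular G := by
  obtain ⟨N, hNK, hNn, hNc, hNt⟩ := hR
  refine ⟨N, hNK.trans hKG, fun g hg n hn => ?_, hNc, hNt⟩
  by_contra hout
  set N' := N.map (MulAut.conj g).toMonoidHom with hN'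
  have hN'mem : ∀ m ∈ N', ∃ m₀ ∈ N, g * m₀ * g⁻¹ = m := fun m hm => by
    obtain ⟨m₀, hm₀, rfl⟩ := hm
    exact ⟨m₀, hm₀, rfl⟩
  have hN'K : N' ≤ K := fun m hm => by
    obtain ⟨m₀, hm₀, rfl⟩ := hN'mem m hm
    exact hnorm g hg m₀ (hNK hm₀)
  have hN'n : ∀ k ∈ K, ∀ m ∈ N', k * m * k⁻¹ ∈ N' := by
    intro k hk m hm
    obtain ⟨m₀, hm₀, rfl⟩ := hN'mem m hm
    have hgk : g⁻¹ * k * g ∈ K := by
      have := hnorm g⁻¹ (G.inv_mem hg) k hk
      rwa [inv_inv] at this
    refine ⟨_, hNn _ hgk m₀ hm₀, ?_⟩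
    show g * (g⁻¹ * k * g * m₀ * (g⁻¹ * k * g)⁻¹) * g⁻¹ = _
    group
  have hN'c : Nat.card N' = Nat.card V + 1 := by
    rw [hN', Subgroup.card_map_of_injective (MulAut.conj g).injective, hNc]
  have hN't : ∀ x y, ∃ m ∈ N', m x = y := by
    intro x y
    obtain ⟨m, hm, hmxy⟩ := hNt (g⁻¹ x) (g⁻¹ y)
    refine ⟨g * m * g⁻¹, ⟨m, hm, rfl⟩, ?_⟩
    rw [Equiv.Perm.mul_apply, Equiv.Perm.mul_apply, hmxy]; simp
  have hev := ev_bijective hNc hNt
  have hel := elementary hK hq hNn hNc hNt
  -- translations move the nontrivial elements of `N` transitively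
  have hmove : ∀ m ∈ N, ∀ m' ∈ N, m ≠ 1 → m' ≠ 1 → ∃ b, tr b * m * (tr b)⁻¹ = m' := by
    intro m hm m' hm' hm1 hm'1
    have hne : ∀ z : N, z ≠ 1 → ∃ c, (z : Equiv.Perm (Option V)) none = some c := fun z hz =>
      Option.ne_none_iff_exists'.mp fun e => hz (hev.1 (show (z : Equiv.Perm (Option V)) none = _ by rw [e]; rfl))
    obtain ⟨c, hc⟩ := hne ⟨m, hm⟩ fun e => hm1 (congrArg Subtype.val e)
    obtain ⟨c', hc'⟩ := hne ⟨m', hm'⟩ fun e => hm'1 (congrArg Subtype.val e)
    refine ⟨c' - c, congrArg Subtype.val (hev.1 (a₁ := ⟨_, hNn _ (hK.tr_mem (c' - c)) m hm⟩) (a₂ := ⟨m', hm'⟩) ?_)⟩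
    show (tr (c' - c) * m * (tr (c' - c))⁻¹) none = m' none
    simp only at hc hc'
    rw [hc', tr_inv]
    simp [hc]
  by_cases hint : ∃ m ∈ N, m ∈ N' ∧ m ≠ 1
  · obtain ⟨m, hmN, hmN', hm1⟩ := hint
    have hle : N ≤ N' := by
      intro m' hm'
      rcases eq_or_ne m' 1 with rfl | hm'1
      · exact one_mem _
      obtain ⟨b, rfl⟩ := hmove m hmN m' hm' hm1 hm'1
      exact hN'n _ (hK.tr_mem b) m hmN'
    have heq : N = N' := Subgroup.eq_of_le_of_card_ge hle (by rw [hN'c, hNc])
    exact hout (heq ▸ ⟨n, hn, rfl⟩)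
  · push Not at hint
    have hcomm : ∀ m ∈ N, ∀ m' ∈ N', m' * m = m * m' := by
      intro m hm m' hm'
      have h1 : m' * m * m'⁻¹ * m⁻¹ ∈ N := N.mul_mem (hNn m' (hN'K hm') m hm) (N.inv_mem hm)
      have h2 : m' * m * m'⁻¹ * m⁻¹ ∈ N' := by
        rw [show m' * m * m'⁻¹ * m⁻¹ = m' * (m * m'⁻¹ * m⁻¹) by group]
        exact N'.mul_mem hm' (hN'n m (hNK hm) _ (N'.inv_mem hm'))
      have h3 := hint _ h1 h2
      rw [mul_inv_eq_one, mul_inv_eq_iff_eq_mul] at h3
      exact h3
    obtain ⟨m', hm', hm'x⟩ := hN't none (some 0)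
    obtain ⟨n₀, hn₀, hn₀x⟩ := hNt none (some 0)
    have hNcomm : ∀ a b : N, a * b = b * a := fun a b => by
      have ha := inv_eq_of_mul_eq_one_right (hel a)
      have hb := inv_eq_of_mul_eq_one_right (hel b)
      have hab := inv_eq_of_mul_eq_one_right (hel (a * b))
      rw [mul_inv_rev, ha, hb] at hab
      exact hab.symm
    have heq : m' = n₀ := Equiv.ext fun x => by
      obtain ⟨m, hm, rfl⟩ := hNt none x
      have e1 := congrArg (fun z : Equiv.Perm (Option V) => z none) (hcomm m hm m' hm')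
      have e2 := congrArg (fun z : N => (z : Equiv.Perm (Option V)) none) (hNcomm ⟨n₀, hn₀⟩ ⟨m, hm⟩)
      simp only [Equiv.Perm.mul_apply, Subgroup.coe_mul] at e1 e2
      rw [e1, e2, hm'x, hn₀x]
    have := hint n₀ hn₀ (heq ▸ hm')
    rw [this] at hn₀x
    exact Option.some_ne_none _ hn₀x.symm

set_option maxHeartbeats 1000000 in
theorem isZGroup_scalars (h : Coord G) (hodd : Odd (Nat.card (scalars G))) : IsZGroup (scalars G) := by
  classical
  set L := Stab G
  set C : Subgroup L := MulAction.stabilizer L (some (0 : V))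
  let ι : scalars G →* C := MonoidHom.mk' (fun a => ⟨⟨⟨sc (a : Equiv.Perm V), sc_mem a⟩, rfl⟩, by
    show sc (a : Equiv.Perm V) (some 0) = some 0
    simp [map_zero_scalar]⟩) fun a b => by
      refine Subtype.ext (Subtype.ext (Subtype.ext ?_))
      exact map_mul sc (a : Equiv.Perm V) (b : Equiv.Perm V)
  have hι : Function.Injective ι := fun a b e => Subtype.ext (sc_injective
    (congrArg (fun z : C => (((z : L) : G) : Equiv.Perm (Option V))) e))
  refine ⟨fun p hp P => ?_⟩
  haveI := Fact.mk hp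
  obtain ⟨t, ht⟩ := IsPGroup.iff_card.mp P.2
  by_cases ht0 : t = 0
  · rw [ht0, pow_zero] at ht
    exact @isCyclic_of_subsingleton _ _ (Nat.card_eq_one_iff_unique.mp ht).1
  have hpd : p ∣ Nat.card (scalars G) :=
    (dvd_pow_self p ht0).trans (ht ▸ Subgroup.card_subgroup_dvd_card _)
  obtain ⟨z, hz⟩ := exists_prime_orderOf_dvd_card' (G := scalars G) p hpd
  have hzne : z ≠ 1 := fun e => by rw [e, orderOf_one] at hz; exact hp.one_lt.ne hz
  obtain ⟨v, hv⟩ : ∃ v : V, v ≠ 0 := by
    by_contra hc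
    push Not at hc
    exact hzne (Subtype.ext (Equiv.ext fun x => by rw [hc x]; exact map_zero_scalar z))
  have hlat : CfsgLib.Frob.LatFpf C := by
    refine CfsgLib.Frob.latFpf_of_complement ⟨fun e => ?_, fun e => ?_, fun g hg => ?_⟩
    · have h1 : ((ι z : C) : L) ∈ (⊥ : Subgroup L) := e ▸ (ι z).2
      rw [Subgroup.mem_bot] at h1
      exact hzne (hι ((Subtype.ext h1).trans (map_one ι).symm))
    · have h1 : (h.stabEquiv (v, 1) : L) ∈ C := e ▸ Subgroup.mem_top _
      have h2 : (tr v * sc ((1 : scalars G) : Equiv.Perm V)) (some 0) = some 0 := h1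
      simp at h2
      exact hv h2
    · rw [eq_bot_iff]
      intro x hx
      obtain ⟨hx1, hx2⟩ := Subgroup.mem_inf.mp hx
      rw [Subgroup.mem_pointwise_smul_iff_inv_smul_mem] at hx2
      have e3 : (g⁻¹ * x * g : L) ∈ C := by simpa [MulAut.smul_def] using hx2
      obtain ⟨c, hc⟩ : ∃ c, ((g : G) : Equiv.Perm (Option V)) (some 0) = some c :=
        Option.ne_none_iff_exists'.mp fun e => Option.some_ne_none _
          (((g : G) : Equiv.Perm (Option V)).injective (e.trans (show ((g : G) : Equiv.Perm (Option V)) none = none from g.2).symm))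
      have hc0 : c ≠ 0 := fun e => hg (show ((g : G) : Equiv.Perm (Option V)) (some 0) = some 0 by rw [hc, e])
      obtain ⟨a, ha⟩ := h.fix_two (x : G).2 x.2 hx1
      have e4 : (g⁻¹ * x * g : L) • (some 0 : Option V) = some 0 := e3
      rw [mul_smul, mul_smul, inv_smul_eq_iff] at e4
      have e5 : ((x : G) : Equiv.Perm (Option V)) (((g : G) : Equiv.Perm (Option V)) (some 0)) =
          ((g : G) : Equiv.Perm (Option V)) (some 0) := e4
      rw [hc, ha, sc_some, Option.some_inj] at e5
      refine Subgroup.mem_bot.mpr (Subtype.ext (Subtype.ext ?_))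
      rw [ha, h.free a c hc0 e5, Subgroup.coe_one, map_one]
      rfl
  have hQ := CfsgLib.Frob.LatFpf.sylow_cyclic_or_quaternion hlat (p := p) (P := (P : Subgroup (scalars G)).map ι)
    (P.2.map _)
  rcases hQ with hc | ⟨rfl, -⟩
  · exact isCyclic_of_surjective (Subgroup.equivMapOfInjective (P : Subgroup (scalars G)) ι hι).symm.toMonoidHom
      (Subgroup.equivMapOfInjective (P : Subgroup (scalars G)) ι hι).symm.surjective
  · exact absurd (even_iff_two_dvd.mpr hpd) (Nat.not_even_iff_odd.mpr hodd)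

theorem invol_of_cyclic {A : Type*} [Group A] [Finite A] [IsCyclic A] {r : ℕ} [Fact r.Prime] (hr2 : r ≠ 2)
    (hA : IsPGroup r A) (τ : A →* A) (hτ : ∀ a, τ (τ a) = a) (hne : ∃ a, τ a ≠ a) : ∀ a, τ a = a⁻¹ := by
  have hr : r.Prime := Fact.out
  obtain ⟨g, hg⟩ := (inferInstance : IsCyclic A).exists_generator
  obtain ⟨k, hk⟩ := Subgroup.mem_zpowers_iff.mp (hg (τ g))
  obtain ⟨e', he'⟩ := hA g
  obtain ⟨e, -, he⟩ := (Nat.dvd_prime_pow hr).mp (orderOf_dvd_of_pow_eq_one he')
  have hkk : ((r : ℤ) ^ e) ∣ (k - 1) * (k + 1) := by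
    have h2 : g ^ (k * k - 1) = 1 := by
      rw [zpow_sub, zpow_mul, hk, ← map_zpow, hk, hτ, zpow_one, mul_inv_cancel]
    rw [show (k - 1) * (k + 1) = k * k - 1 by ring, ← Nat.cast_pow, ← he]
    exact orderOf_dvd_iff_zpow_eq_one.mpr h2
  have hrprime : Prime (r : ℤ) := Nat.prime_iff_prime_int.mp hr
  have hnot : ¬ ((r : ℤ) ∣ k - 1 ∧ (r : ℤ) ∣ k + 1) := fun ⟨x, y⟩ => by
    have h2 := dvd_sub y x
    rw [show k + 1 - (k - 1) = ((2 : ℕ) : ℤ) by push_cast; ring, Int.natCast_dvd_natCast] at h2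
    exact hr2 ((Nat.prime_dvd_prime_iff_eq hr Nat.prime_two).mp h2)
  rcases Classical.em ((r : ℤ) ∣ k - 1) with h2 | h2
  · exfalso
    have h3 : ((r : ℤ) ^ e) ∣ k - 1 := hrprime.pow_dvd_of_dvd_mul_right e (fun y => hnot ⟨h2, y⟩) hkk
    rw [← Nat.cast_pow, ← he, orderOf_dvd_iff_zpow_eq_one, zpow_sub, zpow_one, hk, mul_inv_eq_one] at h3
    obtain ⟨a, ha⟩ := hne
    obtain ⟨i, rfl⟩ := Subgroup.mem_zpowers_iff.mp (hg a)
    exact ha (by rw [map_zpow, h3])
  · have h3 : ((r : ℤ) ^ e) ∣ k + 1 := hrprime.pow_dvd_of_dvd_mul_left e h2 hkk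
    rw [← Nat.cast_pow, ← he, orderOf_dvd_iff_zpow_eq_one, zpow_add, zpow_one, hk] at h3
    intro a
    obtain ⟨i, rfl⟩ := Subgroup.mem_zpowers_iff.mp (hg a)
    rw [map_zpow, eq_inv_of_mul_eq_one_left h3, inv_zpow]

set_option maxHeartbeats 1000000 in
theorem odd_case (hq : Odd (Nat.card V)) : ∀ (n : ℕ) (G : Subgroup (Equiv.Perm (Option V))), Coord G →
    Nat.card (scalars G) = n → Odd n → HasRegular G ∨ (2 * n = Nat.card V - 1 ∧ SwapInvol G) := by
  intro n
  induction n using Nat.strong_induction_on with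
  | _ n ih =>
  intro G h hn hodd
  classical
  by_cases h1 : n = 1
  · exact Or.inl (hasRegular_of_trivial h (hn.trans h1))
  have hn3 : 3 ≤ n := by obtain ⟨k, rfl⟩ := hodd; omega
  haveI := isZGroup_scalars h (hn.symm ▸ hodd)
  set A := commutator (scalars G) with hA
  have hcop := IsZGroup.coprime_commutator_index (scalars G)
  have hdvd : n ∣ Nat.card V - 1 := hn ▸ h.dvd_card_sub_one
  have hq3 : 3 ≤ Nat.card V := by
    obtain ⟨k, hk⟩ := hq
    rcases Nat.eq_zero_or_pos k with rfl | hk0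
    · exfalso
      haveI : Subsingleton V := (Nat.card_eq_one_iff_unique.mp (show Nat.card V = 1 by omega)).1
      haveI : Subsingleton (scalars G) := ⟨fun a b => Subtype.ext (Equiv.ext fun x => Subsingleton.elim _ _)⟩
      rw [Nat.card_eq_one_iff_unique.mpr ⟨inferInstance, inferInstance⟩] at hn
      omega
    · omega
  have hnq : n ≤ Nat.card V - 1 := Nat.le_of_dvd (by omega) hdvd
  have hr2 : ∀ r, r.Prime → r ∣ n → r ≠ 2 := by
    rintro r - hrn rfl
    exact Nat.not_even_iff_odd.mpr hodd (even_iff_two_dvd.mpr hrn)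
  -- elements of the scalars normalising a Sylow subgroup outside the commutator centralise it
  have hfix : ∀ r, r.Prime → r ∣ A.index → ∀ (Q : Sylow r (scalars G)) (b a : scalars G), a ∈ Q →
      b * a * b⁻¹ ∈ Q → b * a * b⁻¹ = a := by
    intro r hr hri Q b a ha hba
    haveI := Fact.mk hr
    rw [← mul_inv_eq_one]
    have h2 : b * a * b⁻¹ * a⁻¹ ∈ A := by
      have := Subgroup.commutator_mem_commutator (Subgroup.mem_top b) (Subgroup.mem_top a)
      rwa [commutatorElement_def] at this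
    have h3 : b * a * b⁻¹ * a⁻¹ ∈ (Q : Subgroup (scalars G)) := mul_mem hba (inv_mem ha)
    have h4 : orderOf (b * a * b⁻¹ * a⁻¹) ∣ Nat.card A := Subgroup.orderOf_dvd_natCard A h2
    obtain ⟨k, hk⟩ := Q.2 ⟨_, h3⟩
    obtain ⟨e, -, he⟩ := (Nat.dvd_prime_pow hr).mp (orderOf_dvd_of_pow_eq_one (congrArg Subtype.val hk :
      (b * a * b⁻¹ * a⁻¹) ^ r ^ k = 1))
    rcases Nat.eq_zero_or_pos e with rfl | he0
    · rwa [pow_zero, orderOf_eq_one_iff] at he
    · exact absurd (hcop.coprime_dvd_left ((he ▸ dvd_pow_self r he0.ne').trans h4))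
        fun hc => hr.one_lt.ne' (Nat.dvd_one.mp (hc ▸ Nat.dvd_gcd dvd_rfl hri))
  obtain ⟨w, hw, w0, w1⟩ := h.exists_swap
  by_cases hcent : ∃ r, r.Prime ∧ r ∣ A.index ∧ ∃ Q : Sylow r (scalars G), ∀ v ∈ G, ∀ (v0 : v none = some 0)
      (v1 : v (some 0) = none), (∀ a ∈ Q, ∃ a' ∈ Q, v * sc (a : Equiv.Perm V) * v⁻¹ = sc ((a' : scalars G) : Equiv.Perm V)) →
        ∀ a ∈ Q, v * sc (a : Equiv.Perm V) * v⁻¹ = sc (a : Equiv.Perm V)
  · obtain ⟨r, hr, hri, Q, hQ⟩ := hcent
    haveI := Fact.mk hr
    have hrn : r ∣ n := hn ▸ hri.trans A.index_dvd_card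
    let ι : scalars G →* G := MonoidHom.mk' (fun a => ⟨sc (a : Equiv.Perm V), sc_mem a⟩) fun a b =>
      Subtype.ext (map_mul sc (a : Equiv.Perm V) (b : Equiv.Perm V))
    have hι : Function.Injective ι := fun a b e => Subtype.ext (sc_injective (congrArg Subtype.val e))
    have hrp : ¬ r ∣ (Nat.card V + 1) * Nat.card V := by
      intro e
      have hrp1 : r ∣ Nat.card V - 1 := hrn.trans hdvd
      rcases hr.dvd_mul.mp e with e | e
      · have h3 := Nat.dvd_sub e hrp1
        rw [show Nat.card V + 1 - (Nat.card V - 1) = 2 by omega] at h3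
        exact hr2 r hr hrn ((Nat.prime_dvd_prime_iff_eq hr Nat.prime_two).mp h3)
      · have h3 := Nat.dvd_sub e hrp1
        rw [show Nat.card V - (Nat.card V - 1) = 1 by omega] at h3
        exact hr.one_lt.ne' (Nat.dvd_one.mp h3)
    have hcardG : Nat.card G = (Nat.card V + 1) * Nat.card V * n := by rw [h.card_eq, hn]
    let P : Sylow r G := Sylow.ofCard ((Q : Subgroup (scalars G)).map ι) (by
      rw [Subgroup.card_map_of_injective hι, Q.card_eq_multiplicity, hn, hcardG,
        Nat.factorization_mul (Nat.mul_ne_zero (Nat.succ_ne_zero _) Nat.card_pos.ne') (by omega), Finsupp.add_apply,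
        Nat.factorization_eq_zero_of_not_dvd hrp, zero_add])
    obtain ⟨z, hzQ, hz1⟩ : ∃ z ∈ (Q : Subgroup (scalars G)), z ≠ 1 := by
      refine (Subgroup.bot_or_exists_ne_one _).resolve_left fun e => ?_
      have h2 := Q.card_eq_multiplicity
      rw [e, Subgroup.card_bot, hn] at h2
      have h4 : 0 < n.factorization r := hr.factorization_pos_of_dvd (by omega) hrn
      have h5 : r ≤ r ^ n.factorization r := Nat.le_self_pow h4.ne' r
      have := hr.two_le
      omega
    have hP : Subgroup.normalizer ((P : Subgroup G) : Set G) ≤ Subgroup.centralizer ((P : Subgroup G) : Set G) := by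
      intro g hg
      rw [Subgroup.mem_centralizer_iff]
      have hnorm : ∀ a ∈ Q, ∃ a' ∈ Q, (g : Equiv.Perm (Option V)) * sc (a : Equiv.Perm V) * (g : Equiv.Perm (Option V))⁻¹ =
          sc ((a' : scalars G) : Equiv.Perm V) := by
        intro a ha
        obtain ⟨a', ha', e⟩ := (Subgroup.mem_normalizer_iff.mp hg (ι a)).mp ⟨a, ha, rfl⟩
        exact ⟨a', ha', (congrArg Subtype.val e).symm⟩
      rintro _ ⟨a, ha, rfl⟩
      obtain ⟨a', -, ha'⟩ := hnorm z hzQ
      have hfixp : ∀ x, sc (z : Equiv.Perm V) x = x → sc (a' : Equiv.Perm V) ((g : Equiv.Perm (Option V)) x) =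
          (g : Equiv.Perm (Option V)) x := fun x hx => by
        rw [← ha']; simp [hx]
      have ha'1 : a' ≠ 1 := by
        intro e
        rw [e, Subgroup.coe_one, map_one, conj_eq_one_iff] at ha'
        exact hz1 (Subtype.ext (sc_injective (ha'.trans (map_one sc).symm)))
      have hpts : ∀ x, sc (a' : Equiv.Perm V) x = x → x = none ∨ x = some 0 := by
        intro x hx
        cases x with
        | none => exact Or.inl rfl
        | some x =>
          rw [sc_some, Option.some_inj] at hx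
          rcases eq_or_ne x 0 with rfl | hx0
          · exact Or.inr rfl
          · exact absurd (h.free a' x hx0 hx) ha'1
      have g0 := hpts _ (hfixp none (by simp))
      have g1 := hpts _ (hfixp (some 0) (by simp [map_zero_scalar]))
      have hne : (g : Equiv.Perm (Option V)) none ≠ (g : Equiv.Perm (Option V)) (some 0) :=
        fun e => Option.some_ne_none _ ((g : Equiv.Perm (Option V)).injective e).symm
      refine Subtype.ext ?_
      show sc (a : Equiv.Perm V) * (g : Equiv.Perm (Option V)) = (g : Equiv.Perm (Option V)) * sc (a : Equiv.Perm V)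
      obtain ⟨a'', ha''Q, ha''⟩ := hnorm a ha
      rcases g0 with g0 | g0 <;> rcases g1 with g1 | g1
      · exact absurd (g0.trans g1.symm) hne
      · obtain ⟨b, hb⟩ := h.fix_two g.2 g0 g1
        rw [hb] at ha'' ⊢
        have h5 : b * a * b⁻¹ = a'' := Subtype.ext (sc_injective (by
          rw [Subgroup.coe_mul, Subgroup.coe_mul, Subgroup.coe_inv, map_mul, map_mul, map_inv]; exact ha''))
        have h6 := hfix r hr hri Q b a ha (h5 ▸ ha''Q)
        rw [mul_inv_eq_iff_eq_mul] at h6
        rw [← map_mul, ← map_mul, ← Subgroup.coe_mul, ← Subgroup.coe_mul, h6]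
      · have := hQ _ g.2 g0 g1 hnorm a ha
        rw [mul_inv_eq_iff_eq_mul] at this
        exact this.symm
      · exact absurd (g0.trans g1.symm) hne
    obtain ⟨K0, hK0n, hcompl⟩ : ∃ K0 : Subgroup G, K0.Normal ∧ K0.IsComplement' (P : Subgroup G) :=
      ⟨_, MonoidHom.normal_ker _, MonoidHom.ker_transferSylow_isComplement' P hP⟩
    have hcardK : Nat.card K0 * r ^ n.factorization r = (Nat.card V + 1) * Nat.card V * n := by
      have h2 := hcompl.card_mul
      rw [show Nat.card (P : Subgroup G) = r ^ n.factorization r by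
        rw [show (P : Subgroup G) = (Q : Subgroup (scalars G)).map ι from rfl, Subgroup.card_map_of_injective hι,
          Q.card_eq_multiplicity, hn], hcardG] at h2
      exact h2
    have hker_idx : K0.index = r ^ n.factorization r := by
      have h2 := K0.card_mul_index
      rw [hcardG, ← hcardK] at h2
      exact Nat.eq_of_mul_eq_mul_left Nat.card_pos h2
    set K := K0.map G.subtype
    have hKG : K ≤ G := Subgroup.map_subtype_le _
    have hKn : ∀ g ∈ G, ∀ k ∈ K, g * k * g⁻¹ ∈ K := by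
      rintro g hg _ ⟨k, hk, rfl⟩
      exact ⟨⟨g, hg⟩ * k * ⟨g, hg⟩⁻¹, hK0n.conj_mem k hk _, rfl⟩
    have htrK : ∀ b, tr b ∈ K := by
      intro b
      refine ⟨⟨tr b, h.tr_mem b⟩, CfsgLib.PiClasses.mem_of_coprime_index K0 ?_, rfl⟩
      rw [hker_idx]
      refine Nat.Coprime.pow_right _ ?_
      refine Nat.Coprime.coprime_dvd_left (show orderOf (⟨tr b, h.tr_mem b⟩ : G) ∣ Nat.card V from
        orderOf_dvd_of_pow_eq_one (Subtype.ext (by
          show tr b ^ Nat.card V = 1
          rw [tr_pow, card_nsmul_eq_zero', tr_zero]))) ?_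
      rw [Nat.coprime_comm, hr.coprime_iff_not_dvd]
      exact fun e => hrp (e.mul_left _)
    obtain ⟨v₀, hv₀⟩ : ∃ v : V, v ≠ 0 := by
      haveI := Finite.one_lt_card_iff_nontrivial.mp (show 1 < Nat.card V by omega)
      exact exists_ne 0
    obtain ⟨k₀, hk₀, hk₀n⟩ : ∃ k ∈ K, k none ≠ none := by
      by_contra hc
      push Not at hc
      obtain ⟨g, hg, hgx⟩ := h.transitive (some 0) none
      have e := hc _ (hKn g hg _ (htrK v₀))
      rw [Equiv.Perm.mul_apply, Equiv.Perm.mul_apply, show g⁻¹ none = some 0 by rw [← hgx]; simp, tr_some, ← hgx] at e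
      exact hv₀ (by simpa using g.injective e)
    obtain ⟨c, hc⟩ := Option.ne_none_iff_exists'.mp hk₀n
    have htransK : ∀ x y, ∃ g ∈ K, g x = y := by
      have hto : ∀ x, ∃ g ∈ K, g none = x := by
        intro x
        cases x with
        | none => exact ⟨1, K.one_mem, rfl⟩
        | some x => exact ⟨tr (x - c) * k₀, K.mul_mem (htrK _) hk₀, by simp [hc]⟩
      intro x y
      obtain ⟨g, hg, hgx⟩ := hto x
      obtain ⟨g', hg', hgy⟩ := hto y
      exact ⟨g' * g⁻¹, K.mul_mem hg' (K.inv_mem hg), by rw [← hgx]; simp [hgy]⟩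
    have hK : Coord K := h.mono hKG htrK htransK
    have hdK : Nat.card (scalars K) * r ^ n.factorization r = n := by
      have h2 := hK.card_eq
      rw [Subgroup.card_map_of_injective G.subtype_injective] at h2
      rw [h2, mul_assoc] at hcardK
      exact Nat.eq_of_mul_eq_mul_left (Nat.mul_pos (Nat.succ_pos _) Nat.card_pos) hcardK
    have hr3 : 3 ≤ r ^ n.factorization r := by
      have h4 : 0 < n.factorization r := hr.factorization_pos_of_dvd (by omega) hrn
      have h5 : r ≤ r ^ n.factorization r := Nat.le_self_pow h4.ne' r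
      have := hr.two_le
      have := hr2 r hr hrn
      omega
    have hKpos : 0 < Nat.card (scalars K) := Nat.card_pos
    have h3K : Nat.card (scalars K) * 3 ≤ n := le_of_le_of_eq (Nat.mul_le_mul_left _ hr3) hdK
    have hlt : Nat.card (scalars K) < n := by omega
    rcases ih _ hlt K hK rfl (hodd.of_dvd_nat (Dvd.intro _ hdK)) with hR | ⟨e, -⟩
    · exact Or.inl (hasRegular_of_normal hq hK hKG hKn hR)
    · exfalso
      omega
  · push Not at hcent
    set σ := h.conjHom hw w0 w1
    have hσinj : Function.Injective σ := fun a b e => Subtype.ext (sc_injective (by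
      have := congrArg (fun z : scalars G => sc (z : Equiv.Perm V)) e
      simp only [σ, h.sc_conjHom, mul_left_inj, mul_right_inj] at this
      exact this))
    let f : scalars G →* Abelianization (scalars G) :=
      (Abelianization.of.comp σ) * Abelianization.of
    have hker : f.ker = ⊤ := by
      refine Subgroup.eq_top_of_le_card _ (Nat.le_of_dvd Nat.card_pos ?_)
      rw [Nat.dvd_iff_prime_pow_dvd_dvd]
      intro r v hr hrv
      rcases Nat.eq_zero_or_pos v with rfl | hv
      · simp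
      haveI := Fact.mk hr
      have hrn : r ∣ n := hn ▸ (dvd_pow_self r hv.ne').trans hrv
      by_cases hri : r ∣ A.index
      swap
      · have hA1 : A ≤ f.ker := Abelianization.commutator_subset_ker f
        refine dvd_trans ?_ (Subgroup.card_dvd_of_le hA1)
        have h2 : r ^ v ∣ Nat.card A * A.index := by rw [A.card_mul_index]; exact hrv
        exact (Nat.Coprime.dvd_of_dvd_mul_right ((hr.coprime_iff_not_dvd.mpr hri).pow_left v) h2)
      obtain ⟨Q⟩ : Nonempty (Sylow r (scalars G)) := inferInstance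
      obtain ⟨v', hv', v0, v1, hnorm, a₀, ha₀, hne⟩ := hcent r hr hri Q
      refine dvd_trans ?_ (Subgroup.card_dvd_of_le (H := (Q : Subgroup (scalars G))) ?_)
      · rw [Q.card_eq_multiplicity]
        exact pow_dvd_pow r ((hr.pow_dvd_iff_le_factorization Nat.card_pos.ne').mp hrv)
      have hmem : ∀ a ∈ Q, h.conjHom hv' v0 v1 a ∈ Q := fun a ha => by
        obtain ⟨a', ha', e⟩ := hnorm a ha
        rw [show h.conjHom hv' v0 v1 a = a' from Subtype.ext (sc_injective ((h.sc_conjHom hv' v0 v1 a).trans e))]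
        exact ha'
      let τ : (Q : Subgroup (scalars G)) →* (Q : Subgroup (scalars G)) :=
        ((h.conjHom hv' v0 v1).comp (Q : Subgroup (scalars G)).subtype).codRestrict _ fun a => hmem a a.2
      obtain ⟨c, hc⟩ := h.sq_swap hv' v0 v1
      have hττ : ∀ a, τ (τ a) = a := fun a => by
        refine Subtype.ext ?_
        show h.conjHom hv' v0 v1 (h.conjHom hv' v0 v1 (a : scalars G)) = a
        have e : h.conjHom hv' v0 v1 (h.conjHom hv' v0 v1 (a : scalars G)) = c * a * c⁻¹ := by
          refine Subtype.ext (sc_injective ?_)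
          rw [h.sc_conjHom, h.sc_conjHom, Subgroup.coe_mul, Subgroup.coe_mul, Subgroup.coe_inv, map_mul, map_mul,
            map_inv, ← hc]
          group
        rw [e]
        exact hfix r hr hri Q c a a.2 (e ▸ hmem _ (hmem _ a.2))
      have hinvQ := invol_of_cyclic (hr2 r hr hrn) Q.2 τ hττ ⟨⟨a₀, ha₀⟩, fun e => hne (by
        rw [← h.sc_conjHom hv' v0 v1, show h.conjHom hv' v0 v1 a₀ = a₀ from congrArg Subtype.val e])⟩
      obtain ⟨b, hb⟩ := h.eq_mul_sc hw w0 w1 hv' v0 v1
      intro a ha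
      rw [MonoidHom.mem_ker]
      show Abelianization.of (σ a) * Abelianization.of a = 1
      have e : σ (b * a * b⁻¹) = a⁻¹ := by
        have h2 : h.conjHom hv' v0 v1 a = a⁻¹ := congrArg Subtype.val (hinvQ ⟨a, ha⟩)
        rw [← h2]
        refine Subtype.ext (sc_injective ?_)
        rw [h.sc_conjHom, h.sc_conjHom, Subgroup.coe_mul, Subgroup.coe_mul, Subgroup.coe_inv, map_mul, map_mul,
          map_inv, hb]
        group
      have e2 := congrArg Abelianization.of e
      rw [map_mul σ, map_mul σ, map_inv σ, map_mul, map_mul, map_inv, map_inv, mul_comm (Abelianization.of (σ b)),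
        mul_inv_cancel_right] at e2
      rw [e2, inv_mul_cancel]
    have hσA : ∀ a, σ a * a ∈ A := fun a => by
      have h2 : f a = 1 := MonoidHom.mem_ker.mp (hker ▸ Subgroup.mem_top a)
      have h3 : Abelianization.of (σ a * a) = 1 := by rw [map_mul]; exact h2
      rwa [← MonoidHom.mem_ker, Abelianization.ker_of] at h3
    have hσAA : ∀ x ∈ A, σ x ∈ A := fun x hx => by
      have := Subgroup.map_commutator (⊤ : Subgroup (scalars G)) ⊤ σ
      have h2 : σ x ∈ (commutator (scalars G)).map σ := Subgroup.mem_map_of_mem σ hx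
      rw [commutator_def, this] at h2
      exact (Subgroup.commutator_mono le_top le_top) h2
    haveI := IsZGroup.isCyclic_commutator (G := scalars G)
    have hcenter : A ≤ Subgroup.center (scalars G) := by
      intro x hx
      rw [Subgroup.mem_center_iff]
      intro a
      haveI : A.Normal := Subgroup.commutator_normal ⊤ ⊤
      obtain ⟨i, hi⟩ := MonoidHom.map_cyclic ((MulAut.conjNormal a : MulAut A) : A →* A)
      have hi' : ∀ y ∈ A, a * y * a⁻¹ = y ^ i := fun y hy => by
        have := congrArg Subtype.val (hi ⟨y, hy⟩)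
        simpa using this
      let σA : A → A := fun y => ⟨σ (y : scalars G), hσAA _ y.2⟩
      obtain ⟨⟨y, hy⟩, hyx⟩ := (Finite.injective_iff_surjective.mp
        (show Function.Injective σA from fun u u' e => Subtype.ext (hσinj (congrArg Subtype.val e)))) ⟨x, hx⟩
      have hyx' : σ y = x := congrArg Subtype.val hyx
      have e1 : σ a * x * (σ a)⁻¹ = x ^ i := by
        rw [← hyx', ← map_inv, ← map_mul, ← map_mul, hi' y hy, map_zpow]
      have hee : σ a * a ∈ A := hσA a
      have e2 : a⁻¹ * x * a = x ^ i := by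
        rw [← e1, show σ a * x * (σ a)⁻¹ = (σ a * a) * (a⁻¹ * x * a) * (σ a * a)⁻¹ by group]
        haveI : IsMulCommutative A := IsCyclic.isMulCommutative
        have hmem2 : a⁻¹ * x * a ∈ A := by
          have := (inferInstance : A.Normal).conj_mem x hx a⁻¹
          rwa [inv_inv] at this
        have h7 := congrArg Subtype.val ((IsMulCommutative.is_comm (M := A)).comm ⟨_, hee⟩ ⟨_, hmem2⟩)
        simp only [Subgroup.coe_mul] at h7
        rw [h7, mul_inv_cancel_right]
      have e3 : a ^ 2 * x * (a ^ 2)⁻¹ = x := by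
        calc a ^ 2 * x * (a ^ 2)⁻¹ = a * (a * x * a⁻¹) * a⁻¹ := by rw [pow_two]; group
          _ = a * (a⁻¹ * x * a) * a⁻¹ := by rw [hi' x hx, e2]
          _ = x := by group
      have hodd' : Odd (orderOf a) := hodd.of_dvd_nat (hn ▸ orderOf_dvd_natCard a)
      obtain ⟨k, hk⟩ := hodd'
      have e4 : a = (a ^ 2) ^ (k + 1) := by
        rw [← pow_mul, show 2 * (k + 1) = 2 * k + 1 + 1 by ring, pow_succ, ← hk, pow_orderOf_eq_one, one_mul]
      rw [e4]
      exact (Commute.pow_left (mul_inv_eq_iff_eq_mul.mp e3 : Commute (a ^ 2) x) (k + 1)).eq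
    have hcomm : ∀ a b : scalars G, a * b = b * a := fun a b =>
      commutative_of_cyclic_center_quotient (Abelianization.of (G := scalars G)) (by rw [Abelianization.ker_of]; exact hcenter) a b
    have hinv : ∀ a, σ a = a⁻¹ := by
      intro a
      have hAbot : A = ⊥ := by
        rw [hA, commutator_def, Subgroup.commutator_eq_bot_iff_le_centralizer]
        intro x _
        rw [Subgroup.mem_centralizer_iff]
        intro y _
        exact hcomm y x
      have := hσA a
      rw [hAbot, Subgroup.mem_bot] at this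
      exact eq_inv_of_mul_eq_one_left this
    have hS : SwapInvol G := by
      obtain ⟨c, hww⟩ := h.sq_swap hw w0 w1
      have hc1 : c = 1 := by
        have h2 : σ c = c := by
          refine Subtype.ext (sc_injective ?_)
          rw [h.sc_conjHom, ← hww]
          group
        rw [hinv, inv_eq_iff_mul_eq_one] at h2
        have h3 : orderOf c ∣ 2 := orderOf_dvd_of_pow_eq_one (by rw [pow_two, h2])
        have h4 : orderOf c ∣ n := hn ▸ orderOf_dvd_natCard _
        have h5 := Nat.dvd_gcd h3 h4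
        rw [(Nat.coprime_two_left.mpr hodd).gcd_eq_one] at h5
        exact orderOf_eq_one_iff.mp (Nat.eq_one_of_dvd_one h5)
      intro v hv v0 v1
      obtain ⟨b, rfl⟩ := h.eq_mul_sc hw w0 w1 hv v0 v1
      have e := h.sc_conjHom hw w0 w1 b
      rw [hinv] at e
      calc w * sc (b : Equiv.Perm V) * (w * sc (b : Equiv.Perm V))
          = (w * sc (b : Equiv.Perm V) * w⁻¹) * (w * w) * sc (b : Equiv.Perm V) := by group
        _ = 1 := by
          rw [← e, hww, hc1, Subgroup.coe_one, map_one, mul_one, ← map_mul, Subgroup.coe_inv, inv_mul_cancel, map_one]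
    refine Or.inr ⟨?_, hS⟩
    have h2 := Nat.le_of_dvd (by omega) (h.index_le_two hS (hn.symm ▸ hodd) (hn.symm ▸ hn3))
    obtain ⟨m, hm⟩ := hdvd
    rw [hn] at h2
    have hm2 : m ≤ 2 := Nat.le_of_mul_le_mul_left (show n * m ≤ n * 2 by omega) (by omega)
    interval_cases m
    · omega
    · exfalso
      obtain ⟨k, hk⟩ := hq
      obtain ⟨l, hl⟩ := hodd
      omega
    · omega

end CfsgLib.Zas
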