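import Mathlib
import Cfsg.Agent.Zas.Setup
import Cfsg.Agent.Zas.Count
import Cfsg.Agent.Zas.CharBound
import Cfsg.Agent.Zas.OddCase

/-!
The number of scalars of a Zassenhaus group with abelian kernel.
-/

set_option autoImplicit false

namespace CfsgLib.Zas

universe u

variable {V : Type u} [AddCommGroup V] [Finite V] {G : Subgroup (Equiv.Perm (Option V))}

/-- Without regular normal subgroup there are all scalars, or half of them with all swaps involutions. -/
theorem Coord.classify (h : Coord G) (hd : 1 < Nat.card (scalars G)) (hR : ¬ HasRegular G) :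
    Nat.card (scalars G) = Nat.card V - 1 ∨
      (Odd (Nat.card V) ∧ 5 ≤ Nat.card V ∧ 2 * Nat.card (scalars G) = Nat.card V - 1 ∧ SwapInvol G) := by
  obtain ⟨m, hm⟩ := h.dvd_card_sub_one
  set d := Nat.card (scalars G) with hdd
  rcases Nat.eq_zero_or_pos m with rfl | hm0
  · exfalso
    haveI : Subsingleton V := by
      have := Nat.card_pos (α := V)
      exact (Nat.card_eq_one_iff_unique.mp (show Nat.card V = 1 by omega)).1
    haveI : Subsingleton (scalars G) := ⟨fun a b => Subtype.ext (Equiv.ext fun x => Subsingleton.elim _ _)⟩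
    have h1 : Nat.card (scalars G) = 1 := Nat.card_eq_one_iff_unique.mpr ⟨inferInstance, inferInstance⟩
    omega
  have hle : d ≤ Nat.card V - 1 := by rw [hm]; exact Nat.le_mul_of_pos_right _ hm0
  by_cases h2 : 2 ∣ d
  · obtain ⟨hodd, -, hlow, hhalf⟩ := h.even_case h2 (by omega)
    have hm2 : m ≤ 2 := Nat.le_of_mul_le_mul_left (show d * m ≤ d * 2 by omega) (by omega)
    rcases (show m = 1 ∨ m = 2 by omega) with rfl | rfl
    · exact Or.inl (by omega)
    · exact Or.inr ⟨hodd, by omega, by omega, hhalf (by omega)⟩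
  · have hdo : Odd d := Nat.not_even_iff_odd.mp fun e => h2 (even_iff_two_dvd.mp e)
    rcases Nat.even_or_odd (Nat.card V) with he | ho
    · left
      have hS := h.two_case h2 (even_iff_two_dvd.mp he)
      have h3d : 3 ≤ d := by obtain ⟨t, ht⟩ := hdo; omega
      have hdvd := h.index_le_two hS hdo h3d
      obtain ⟨c, hc⟩ := he
      have hcop : Nat.Coprime (Nat.card V - 1) 2 := Nat.coprime_two_right.mpr ⟨c - 1, by omega⟩
      have := Nat.le_of_dvd (by omega) (hcop.dvd_of_dvd_mul_left hdvd)
      omega
    · rcases odd_case ho d G h hdd.symm hdo with hreg | ⟨hc, hS⟩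
      · exact absurd hreg hR
      · exact Or.inr ⟨ho, by obtain ⟨t, ht⟩ := hdo; omega, hc, hS⟩

end CfsgLib.Zas
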