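import Mathlib
import Cfsg.Agent.Zas.Setup
import Cfsg.Agent.H29.SL2Congruence
import Cfsg.Agent.PiClasses.Action
import Cfsg.Agent.S0307

/-!
Recognition of `PGL(2,K)` and `PSL(2,K)` on the projective line of a finite field.
-/

set_option autoImplicit false

namespace CfsgLib.Zas

open Matrix

variable {K : Type} [Field K] [Finite K] [DecidableEq K]

/-- The action of `GL₂` on the projective line. -/
noncomputable def glPerm : GL (Fin 2) K →* Equiv.Perm (Option K) :=
  MulAction.toPermHom (GL (Fin 2) K) (OnePoint K)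

theorem glPerm_apply (g : GL (Fin 2) K) :
    glPerm g none = (if g 1 0 = 0 then none else some (g 0 0 / g 1 0)) ∧
    ∀ x, glPerm g (some x) =
      if g 1 0 * x + g 1 1 = 0 then none else some ((g 0 0 * x + g 0 1) / (g 1 0 * x + g 1 1)) :=
  ⟨OnePoint.smul_infty_eq_ite g, fun _ => OnePoint.smul_some_eq_ite⟩

theorem glPerm_scalar (u : Kˣ) : glPerm (GeneralLinearGroup.scalar (Fin 2) u) = 1 := by
  refine Equiv.ext fun x => ?_
  cases x with
  | none => rw [(glPerm_apply _).1]; simp [Matrix.scalar_apply]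
  | some x =>
    rw [(glPerm_apply _).2]
    simp [Matrix.scalar_apply]

/-- The action of `PGL₂` on the projective line. -/
noncomputable def pglPerm : Matrix.ProjGenLinGroup (Fin 2) K →* Equiv.Perm (Option K) :=
  Matrix.ProjGenLinGroup.lift glPerm (MonoidHom.ext glPerm_scalar)

theorem pglPerm_mk (g : GL (Fin 2) K) : pglPerm (Matrix.ProjGenLinGroup.mk g) = glPerm g := rfl

theorem pglPerm_injective : Function.Injective (pglPerm (K := K)) := by
  rw [injective_iff_map_eq_one]
  intro x hx
  induction x using Matrix.ProjGenLinGroup.induction_on with | mk g => ?_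
  rw [pglPerm_mk] at hx
  have h0 := (glPerm_apply g).1
  rw [hx, Equiv.Perm.one_apply] at h0
  have hc : g 1 0 = 0 := by
    by_contra hc
    rw [if_neg hc] at h0
    exact Option.some_ne_none _ h0.symm
  have h1 := fun y => (glPerm_apply g).2 y
  simp only [hx, Equiv.Perm.one_apply, hc, zero_mul, zero_add] at h1
  have hd : g 1 1 ≠ 0 := fun e => by
    have := h1 0
    rw [if_pos e] at this
    exact Option.some_ne_none _ this
  have hb := h1 0
  have ha := h1 1
  rw [if_neg hd] at hb ha
  have hb' := Option.some_injective _ hb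
  have ha' := Option.some_injective _ ha
  rw [eq_div_iff hd, zero_mul, mul_zero, zero_add] at hb'
  rw [eq_div_iff hd, one_mul, mul_one, ← hb', add_zero] at ha'
  rw [Matrix.ProjGenLinGroup.mk_eq_one, Matrix.GeneralLinearGroup.center_eq_range_scalar]
  refine ⟨Units.mk0 _ hd, Units.ext (Matrix.ext fun i j => ?_)⟩
  fin_cases i <;> fin_cases j <;> simp [Matrix.scalar_apply, hc, ← hb', ← ha']

theorem tr_mem_range (b : K) : tr b ∈ (pglPerm (K := K)).range := by
  refine ⟨Matrix.ProjGenLinGroup.mk (GeneralLinearGroup.mkOfDetNeZero !![1, b; 0, 1] (by simp [Matrix.det_fin_two_of])), ?_⟩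
  rw [pglPerm_mk]
  refine Equiv.ext fun x => ?_
  cases x with
  | none => rw [(glPerm_apply _).1]; simp
  | some x => rw [(glPerm_apply _).2]; simp

theorem sc_mem_range (a : Kˣ) : sc (Units.mulLeft a) ∈ (pglPerm (K := K)).range := by
  refine ⟨Matrix.ProjGenLinGroup.mk (GeneralLinearGroup.mkOfDetNeZero !![(a : K), 0; 0, 1] (by simp [Matrix.det_fin_two_of])), ?_⟩
  rw [pglPerm_mk]
  refine Equiv.ext fun x => ?_
  cases x with
  | none => rw [(glPerm_apply _).1]; simp
  | some x => rw [(glPerm_apply _).2]; simp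

theorem inversion_mem_range {k : K} (hk : k ≠ 0) {w : Equiv.Perm (Option K)} (w0 : w none = some 0)
    (w1 : w (some 0) = none) (hw : ∀ x, x ≠ 0 → w (some x) = some (k * x⁻¹)) : w ∈ (pglPerm (K := K)).range := by
  refine ⟨Matrix.ProjGenLinGroup.mk (GeneralLinearGroup.mkOfDetNeZero !![0, k; 1, 0] (by simp [Matrix.det_fin_two_of, hk])), ?_⟩
  rw [pglPerm_mk]
  refine Equiv.ext fun x => ?_
  cases x with
  | none => rw [(glPerm_apply _).1, w0]; simp
  | some x =>
    rw [(glPerm_apply _).2]
    rcases eq_or_ne x 0 with rfl | hx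
    · simp [w1]
    · rw [hw x hx]; simp [hx, div_eq_mul_inv]

theorem coord_range : Coord (pglPerm (K := K)).range := by
  have hto : ∀ x, ∃ g ∈ (pglPerm (K := K)).range, g none = x := by
    intro x
    cases x with
    | none => exact ⟨1, one_mem _, rfl⟩
    | some x =>
      let g : GL (Fin 2) K := GeneralLinearGroup.mkOfDetNeZero !![x, -1; 1, 0] (by simp [Matrix.det_fin_two_of])
      refine ⟨glPerm g, ⟨Matrix.ProjGenLinGroup.mk g, pglPerm_mk g⟩, ?_⟩
      rw [(glPerm_apply _).1]; simp [g]
  have haff : ∀ g ∈ (pglPerm (K := K)).range, g none = none →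
      ∃ (u : Kˣ) (b : K), g = tr b * sc (Units.mulLeft u) := ?_
  refine ⟨tr_mem_range, fun x y => ?_, fun g hg h0 => ?_, fun a v hv hav => ?_⟩
  · obtain ⟨g, hg, hgx⟩ := hto x
    obtain ⟨g', hg', hgy⟩ := hto y
    exact ⟨g' * g⁻¹, mul_mem hg' (inv_mem hg), by rw [← hgx]; simp [hgy]⟩
  · obtain ⟨u, b, e⟩ := haff g hg h0
    exact ⟨_, fun y z => by simp [mul_add], b, e⟩
  · obtain ⟨u, b, e⟩ := haff _ (sc_mem a) (sc_none _)
    have e0 := congrArg (fun g : Equiv.Perm (Option K) => g (some 0)) e
    simp [map_zero_scalar] at e0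
    rw [← e0, tr_zero, one_mul] at e
    have e1 := sc_injective e
    rw [e1] at hav
    simp [hv] at hav
    refine Subtype.ext ?_
    rw [e1, hav]
    exact Equiv.ext fun y => one_mul y
  · intro g hg h0
    obtain ⟨x, rfl⟩ := hg
    induction x using Matrix.ProjGenLinGroup.induction_on with | mk g => ?_
    rw [pglPerm_mk] at h0 ⊢
    rw [(glPerm_apply g).1] at h0
    have hc : g 1 0 = 0 := by
      by_contra hc
      rw [if_neg hc] at h0
      exact Option.some_ne_none _ h0
    have hdet := g.det_ne_zero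
    rw [Matrix.det_fin_two, hc, mul_zero, sub_zero] at hdet
    have ha := left_ne_zero_of_mul hdet
    have hd := right_ne_zero_of_mul hdet
    refine ⟨Units.mk0 (g 0 0 / g 1 1) (div_ne_zero ha hd), g 0 1 / g 1 1, Equiv.ext fun y => ?_⟩
    cases y with
    | none => rw [(glPerm_apply _).1, if_pos hc]; simp
    | some y =>
      rw [(glPerm_apply _).2]
      simp [hc, hd]
      field_simp

theorem card_pgl :
    Nat.card (Matrix.ProjGenLinGroup (Fin 2) K) = (Nat.card K + 1) * Nat.card K * (Nat.card K - 1) := by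
  rw [Nat.card_congr (MonoidHom.ofInjective pglPerm_injective).toEquiv, coord_range.card_eq]
  congr 1
  have hd := coord_range.dvd_card_sub_one (V := K)
  refine Nat.dvd_antisymm hd ?_
  rw [← Nat.card_units K]
  let ρ : Kˣ →* scalars (pglPerm (K := K)).range := MonoidHom.mk'
    (fun u => ⟨Units.mulLeft u, sc_mem_range u, fun y z => by simp [mul_add]⟩)
    fun u v => Subtype.ext (Equiv.ext fun y => mul_assoc (u : K) v y)
  refine Subgroup.card_dvd_of_injective ρ fun u v e => Units.ext ?_
  simpa [ρ] using congrArg (fun a : scalars (pglPerm (K := K)).range => (a : Equiv.Perm K) 1) e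

variable {G : Subgroup (Equiv.Perm (Option K))}

theorem le_range (h : Coord G) (hlin : ∀ a : scalars G, ∃ u : Kˣ, (a : Equiv.Perm K) = Units.mulLeft u) {w : Equiv.Perm (Option K)} (hw : w ∈ G) (w0 : w none = some 0)
    (w1 : w (some 0) = none) (hww : w ∈ (pglPerm (K := K)).range) : G ≤ (pglPerm (K := K)).range := by
  have hB : ∀ g ∈ G, g none = none → g ∈ (pglPerm (K := K)).range := fun g hg h0 => by
    obtain ⟨a, b, rfl⟩ := h.affine' hg h0
    obtain ⟨u, hu⟩ := hlin a
    exact mul_mem (tr_mem_range b) (hu ▸ sc_mem_range u)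
  intro g hg
  by_cases h0 : g none = none
  · exact hB g hg h0
  · obtain ⟨c, hc⟩ := Option.ne_none_iff_exists'.mp h0
    have e : g = (tr c * w⁻¹) * (w * tr (-c) * g) := by
      rw [← tr_inv]; group
    rw [e]
    refine mul_mem (mul_mem (tr_mem_range c) (inv_mem hww))
      (hB _ (G.mul_mem (G.mul_mem hw (h.tr_mem _)) hg) ?_)
    simp [hc, w1]

theorem iso_pgl (hle : G ≤ (pglPerm (K := K)).range) (hcard : Nat.card G = (Nat.card K + 1) * Nat.card K * (Nat.card K - 1)) :
    Nonempty (G ≃* Matrix.ProjGenLinGroup (Fin 2) K) := by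
  have he : G = (pglPerm (K := K)).range := Subgroup.eq_of_le_of_card_ge hle
    (by rw [hcard, ← card_pgl, Nat.card_congr (MonoidHom.ofInjective pglPerm_injective).toEquiv])
  exact ⟨(MulEquiv.subgroupCongr he).trans (MonoidHom.ofInjective pglPerm_injective).symm⟩

theorem iso_psl (hp2 : ringChar K ≠ 2) (hle : G ≤ (pglPerm (K := K)).range)
    (hcard : 2 * Nat.card G = (Nat.card K + 1) * Nat.card K * (Nat.card K - 1)) :
    Nonempty (G ≃* Matrix.ProjectiveSpecialLinearGroup (Fin 2) K) := by
  haveI := Fintype.ofFinite K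
  set p := ringChar K
  haveI : CharP K p := ringChar.charP K
  have hp : p.Prime := CharP.char_is_prime K p
  haveI := Fact.mk hp
  haveI : Finite (Matrix.ProjGenLinGroup (Fin 2) K) := Finite.of_injective _ pglPerm_injective
  set H := G.comap (pglPerm (K := K))
  have hmap : H.map pglPerm = G := Subgroup.map_comap_eq_self hle
  have hHcard : Nat.card H = Nat.card G := by
    rw [← hmap, Subgroup.card_map_of_injective pglPerm_injective]
  have hHidx : H.index = 2 := by
    have h1 := H.card_mul_index
    rw [hHcard, card_pgl, ← hcard, mul_comm] at h1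
    exact Nat.eq_of_mul_eq_mul_right Nat.card_pos h1
  haveI := Subgroup.normal_of_index_eq_two hHidx
  have hodd : ∀ x : Matrix.ProjGenLinGroup (Fin 2) K, x ^ p = 1 → x ∈ H := fun x hx =>
    CfsgLib.PiClasses.mem_of_coprime_index H (Nat.Coprime.coprime_dvd_left (orderOf_dvd_of_pow_eq_one hx)
      (by rw [hHidx]; exact Nat.coprime_two_right.mpr (hp.odd_of_ne_two hp2)))
  let f : Matrix.SpecialLinearGroup (Fin 2) K →* Matrix.ProjGenLinGroup (Fin 2) K :=
    Matrix.SpecialLinearGroup.toPGL
  have hup : ∀ (n : ℕ) (t : K), CfsgLib.H29.SL2.upper t ^ n = CfsgLib.H29.SL2.upper ((n : K) * t) := by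
    intro n t
    induction n with
    | zero => simp [CfsgLib.H29.SL2.upper_zero]
    | succ n ih => rw [pow_succ, ih, ← CfsgLib.H29.SL2.upper_add]; congr 1; push_cast; ring
  have hlo : ∀ (n : ℕ) (t : K), CfsgLib.H29.SL2.lower t ^ n = CfsgLib.H29.SL2.lower ((n : K) * t) := by
    intro n t
    induction n with
    | zero => simp [CfsgLib.H29.SL2.lower_zero]
    | succ n ih => rw [pow_succ, ih, ← CfsgLib.H29.SL2.lower_add]; congr 1; push_cast; ring
  have htop : H.comap f = ⊤ := CfsgLib.H29.SL2.closure_elementary _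
    (fun t => hodd _ (by rw [← map_pow, hup, CharP.cast_eq_zero, zero_mul, CfsgLib.H29.SL2.upper_zero, map_one]))
    (fun t => hodd _ (by rw [← map_pow, hlo, CharP.cast_eq_zero, zero_mul, CfsgLib.H29.SL2.lower_zero, map_one]))
  set R := (Matrix.ProjectiveSpecialLinearGroup.toPGL :
    Matrix.ProjectiveSpecialLinearGroup (Fin 2) K →* Matrix.ProjGenLinGroup (Fin 2) K).range
  have hR : R ≤ H := by
    rintro _ ⟨x, rfl⟩
    induction x using QuotientGroup.induction_on with | H g => ?_
    have : g ∈ H.comap f := htop ▸ Subgroup.mem_top g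
    exact this
  obtain ⟨g, hg, hker⟩ := Cfsg.Agent.S0307.result (F := K) rfl 2 one_le_two
  have hRidx : R.index = 2 := by
    rw [show R = g.ker from hker.symm, Subgroup.index_ker, MonoidHom.range_eq_top.mpr hg, Subgroup.card_top,
      Nat.card_congr Multiplicative.toAdd, Nat.card_zmod]
    obtain ⟨k, hk⟩ := Nat.odd_iff.mpr (FiniteField.odd_card_of_char_ne_two hp2)
    exact Nat.gcd_eq_left (Dvd.intro k (by omega))
  have heq : R = H := by
    refine Subgroup.eq_of_le_of_card_ge hR ?_
    have h1 := R.card_mul_index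
    have h2 := H.card_mul_index
    rw [hRidx] at h1
    rw [hHidx] at h2
    omega
  exact ⟨(MulEquiv.subgroupCongr hmap.symm).trans ((Subgroup.equivMapOfInjective H pglPerm pglPerm_injective).symm.trans
    ((MulEquiv.subgroupCongr heq.symm).trans
      (MonoidHom.ofInjective Matrix.ProjectiveSpecialLinearGroup.toPGL_injective).symm))⟩

end CfsgLib.Zas
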