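import Mathlib
import Cfsg.Agent.Zas.Setup
import Cfsg.Agent.Zas.Count

/-!
With half of the scalars of a finite field, the involution interchanging the base points is `x ↦ k / x`.
-/

set_option autoImplicit false

namespace CfsgLib.Zas

variable {K : Type} [Field K] [Finite K] [DecidableEq K] {G : Subgroup (Equiv.Perm (Option K))}

/-- The action of a swap on the nonzero residues. -/
def swapFun (w : Equiv.Perm (Option K)) (x : K) : K := (w (some x)).getD 0

variable {w : Equiv.Perm (Option K)}

theorem swapFun_spec (w0 : w none = some 0) (w1 : w (some 0) = none) {x : K} (hx : x ≠ 0) :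
    w (some x) = some (swapFun w x) ∧ swapFun w x ≠ 0 := by
  obtain ⟨y, hy⟩ := Option.ne_none_iff_exists'.mp fun e : w (some x) = none =>
    hx (Option.some_injective _ (w.injective (e.trans w1.symm)))
  have e : swapFun w x = y := by simp [swapFun, hy]
  refine ⟨by rw [hy, e], fun h0 => ?_⟩
  rw [← e, h0, ← w0] at hy
  exact Option.some_ne_none _ (w.injective hy)

theorem swapFun_swapFun (w0 : w none = some 0) (w1 : w (some 0) = none) (hww : w * w = 1) {x : K}
    (hx : x ≠ 0) : swapFun w (swapFun w x) = x := by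
  have h1 := congrArg (fun g : Equiv.Perm (Option K) => g (some x)) hww
  simp only [Equiv.Perm.mul_apply, Equiv.Perm.one_apply, (swapFun_spec w0 w1 hx).1,
    (swapFun_spec w0 w1 (swapFun_spec w0 w1 hx).2).1] at h1
  exact Option.some_injective _ h1

theorem Coord.swapFun_apply (h : Coord G) (hS : SwapInvol G) (hw : w ∈ G) (w0 : w none = some 0)
    (w1 : w (some 0) = none) (a : scalars G) {u : Kˣ} (hu : (a : Equiv.Perm K) = Units.mulLeft u) {x : K} (hx : x ≠ 0) :
    swapFun w ((u : K) * x) = swapFun w x / (u : K) := by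
  have h1 := congrArg (fun g : Equiv.Perm (Option K) => g (w (some x))) (hS.conj hw w0 w1 a)
  simp only [Equiv.Perm.mul_apply, Equiv.Perm.inv_def, Equiv.symm_apply_apply, Subgroup.coe_inv, map_inv] at h1
  rw [(swapFun_spec w0 w1 hx).1, sc_some, hu, Units.mulLeft_apply,
    (swapFun_spec w0 w1 (mul_ne_zero (Units.ne_zero _) hx)).1, sc_some] at h1
  rw [eq_div_iff (Units.ne_zero u), mul_comm]
  exact ((Equiv.eq_symm_apply _).mp (Option.some_injective _ h1))

/-- The fundamental identity. -/
theorem Coord.swap_identity (h : Coord G) (hlin : ∀ a : scalars G, ∃ u : Kˣ, (a : Equiv.Perm K) = Units.mulLeft u) (hw : w ∈ G) (w0 : w none = some 0) (w1 : w (some 0) = none)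
    (hww : w * w = 1) {c : K} (hc : c ≠ 0) :
    ∃ a : K, a ≠ 0 ∧ swapFun w (-(a * swapFun w (-c))) = -swapFun w c ∧
      ∀ x, x ≠ 0 → x ≠ swapFun w (-c) →
        swapFun w (swapFun w x + c) - swapFun w c = swapFun w (a * (x - swapFun w (-c))) := by
  have hs := fun {x : K} => @swapFun_spec K _ _ _ w w0 w1 x
  set x₀ := swapFun w (-c) with hx₀def
  have hnc : (-c) ≠ 0 := neg_ne_zero.mpr hc
  have hx₀ : x₀ ≠ 0 := (hs hnc).2
  have hwx₀ : w (some x₀) = some (-c) := by rw [(hs hx₀).1, swapFun_swapFun w0 w1 hww hnc]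
  set v := tr (-swapFun w c) * w * tr c * w * tr x₀ with hv
  have v0 : v none = some 0 := by simp [hv, w0, (hs hc).1]
  have v1 : v (some 0) = none := by simp [hv, hwx₀, w1]
  obtain ⟨s, hva⟩ := h.eq_mul_sc hw w0 w1
    (G.mul_mem (G.mul_mem (G.mul_mem (G.mul_mem (h.tr_mem _) hw) (h.tr_mem _)) hw) (h.tr_mem _)) v0 v1
  obtain ⟨a, ha⟩ := hlin s
  rw [ha] at hva
  have key : ∀ y : K, v (some y) = w (some ((a : K) * y)) := fun y => by rw [hv, hva]; simp
  refine ⟨a, Units.ne_zero a, ?_, fun x hx hxx => ?_⟩
  · have e := key (-x₀)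
    rw [(hs (mul_ne_zero (Units.ne_zero a) (neg_ne_zero.mpr hx₀))).1] at e
    simp [hv, w0, w1] at e
    exact e.symm
  · have hy : x - x₀ ≠ 0 := sub_ne_zero.mpr hxx
    have e := key (x - x₀)
    rw [(hs (mul_ne_zero (Units.ne_zero a) hy)).1] at e
    have hne : swapFun w x + c ≠ 0 := fun e0 => hxx (by
      rw [hx₀def, ← eq_neg_of_add_eq_zero_left e0, swapFun_swapFun w0 w1 hww hx])
    simp [hv, (hs hx).1, (hs hne).1] at e
    linear_combination e

theorem card_linear_roots [Fintype K] {B C : K} (hB : B ≠ 0) :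
    (Finset.univ.filter fun x : K => B * x + C = 0).card ≤ 1 := by
  refine Finset.card_le_one.mpr fun x hx y hy => ?_
  simp at hx hy
  exact mul_left_cancel₀ hB (by linear_combination hx - hy)

theorem card_quadratic_roots [Fintype K] {A B C : K} (hA : A ≠ 0) :
    (Finset.univ.filter fun x : K => A * (x * x) + B * x + C = 0).card ≤ 2 := by
  rcases Finset.eq_empty_or_nonempty (Finset.univ.filter fun x : K => A * (x * x) + B * x + C = 0) with e | ⟨r, hr⟩
  · rw [e]; simp
  · refine (Finset.card_le_card (t := {r, -B / A - r}) fun x hx => ?_).trans Finset.card_le_two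
    simp at hx hr ⊢
    have h1 : (x - r) * (A * (x + r) + B) = 0 := by linear_combination hx - hr
    rcases mul_eq_zero.mp h1 with h2 | h2
    · exact Or.inl (sub_eq_zero.mp h2)
    · refine Or.inr ?_
      field_simp
      linear_combination h2

/-- The exceptional configuration has no solution in a computable model of a small field. -/
def NoTwist (M : Type) [Fintype M] [DecidableEq M] [CommRing M] (d : ℕ) : Prop :=
  ∀ K0 K1 : M, K0 ^ d = 1 → K1 ^ d = 1 → K0 ≠ K1 →
    let k := fun z : M => if z ^ d = 1 then K0 else K1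
    ∃ x : M, x ≠ 0 ∧ x + k (-1) ≠ 0 ∧ k x + x ≠ 0 ∧
      ¬ K0 * (k (-(x + k (-1))) - x - k (-1)) * (k x + x) + k ((k x + x) * x) * x * (x + k (-1)) = 0

theorem noTwist_five : NoTwist (ZMod 5) 2 := by unfold NoTwist; decide +kernel
theorem noTwist_seven : NoTwist (ZMod 7) 3 := by unfold NoTwist; decide +kernel
theorem noTwist_eleven : NoTwist (ZMod 11) 5 := by unfold NoTwist; decide +kernel
theorem noTwist_thirteen : NoTwist (ZMod 13) 6 := by unfold NoTwist; decide +kernel

theorem NoTwist.of_model {M : Type} [Fintype M] [DecidableEq M] [CommRing M] {d : ℕ} (h : NoTwist M d)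
    (e : M ≃+* K) [Fintype K] : NoTwist K d := by
  intro K0 K1 h0 h1 hne k
  obtain ⟨x, hx⟩ := h (e.symm K0) (e.symm K1) (by rw [← map_pow, h0, map_one]) (by rw [← map_pow, h1, map_one])
    (e.symm.injective.ne hne)
  set k' := fun z : M => if z ^ d = 1 then e.symm K0 else e.symm K1
  have key : ∀ z : M, k (e z) = e (k' z) := fun z => by
    have hiff : (e z) ^ d = 1 ↔ z ^ d = 1 := by rw [← map_pow, map_eq_one_iff _ e.injective]
    by_cases hz : z ^ d = 1
    · simp only [k, k', if_pos hz, if_pos (hiff.mpr hz), RingEquiv.apply_symm_apply]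
    · simp only [k, k', if_neg hz, if_neg (hz ∘ hiff.mp), RingEquiv.apply_symm_apply]
  have hm1 : k (-1) = e (k' (-1)) := by rw [← key, map_neg, map_one]
  obtain ⟨e0, e1, e2, e3⟩ := hx
  refine ⟨e x, by simpa using e0, ?_, ?_, ?_⟩
  · rw [hm1, ← map_add]; exact fun h => e1 (e.injective (h.trans (map_zero e).symm))
  · rw [key, ← map_add]; exact fun h => e2 (e.injective (h.trans (map_zero e).symm))
  · rw [hm1, key, ← map_add, ← map_add, ← map_neg, key, ← map_mul, key, ← e.apply_symm_apply K0]
    simp only [← map_add, ← map_sub, ← map_mul]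
    exact fun h => e3 (e.injective (h.trans (map_zero e).symm))

/-- The squares of a field of order nine, as a computable model. -/
instance : Fintype (QuadraticAlgebra (ZMod 3) 2 0) := Fintype.ofEquiv _ (QuadraticAlgebra.equivProd (2 : ZMod 3) 0).symm

theorem noTwist_nine : NoTwist (QuadraticAlgebra (ZMod 3) 2 0) 4 := by unfold NoTwist; decide +kernel

theorem sumSq_three : ∀ a b : ZMod 3, b ≠ 0 → a * a + b * b ≠ 0 := by decide

theorem noTwist_small [Fintype K] {d : ℕ} (hq : Fintype.card K = 2 * d + 1) (h1 : 2 ≤ d) (h6 : d ≤ 6) : NoTwist K d := by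
  obtain ⟨p, hp⟩ := CharP.exists K
  haveI := hp
  obtain ⟨n, hprime, hn⟩ := FiniteField.card K p
  haveI := Fact.mk hprime
  have prime_case : ∀ {m : ℕ} [NeZero m], m.Prime → Fintype.card K = m → ∀ {t}, NoTwist (ZMod m) t → NoTwist K t := by
    intro m _ hm hcard t ht
    haveI := Fact.mk hm
    exact ht.of_model (ZMod.ringEquivOfPrime K hm hcard)
  interval_cases d
  · exact prime_case (m := 5) (by norm_num) hq noTwist_five
  · exact prime_case (m := 7) (by norm_num) hq noTwist_seven
  · -- nine
    have hp3 : p = 3 := by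
      have h3 : p ∣ 3 ^ 2 := by
        rw [show (3 : ℕ) ^ 2 = Fintype.card K by omega, hn]; exact dvd_pow_self p n.ne_zero
      exact (Nat.prime_dvd_prime_iff_eq hprime Nat.prime_three).mp (hprime.dvd_of_dvd_pow h3)
    subst hp3
    obtain ⟨i, hi⟩ := (FiniteField.isSquare_neg_one_iff (F := K)).mpr (by omega)
    let f : QuadraticAlgebra (ZMod 3) 2 0 →+* K :=
      { toFun := fun z => ZMod.castHom (dvd_refl 3) K z.re + ZMod.castHom (dvd_refl 3) K z.im * i
        map_one' := by simp [QuadraticAlgebra.re_one, QuadraticAlgebra.im_one]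
        map_zero' := by simp [QuadraticAlgebra.re_zero, QuadraticAlgebra.im_zero]
        map_add' := fun x y => by simp only [QuadraticAlgebra.re_add, QuadraticAlgebra.im_add, map_add]; ring
        map_mul' := fun x y => by
          have h3 : (3 : K) = 0 := by exact_mod_cast CharP.cast_eq_zero K 3
          have h2 : ZMod.castHom (dvd_refl 3) K 2 = 2 := map_ofNat _ 2
          simp only [QuadraticAlgebra.re_mul, QuadraticAlgebra.im_mul, map_add, map_mul, map_zero, h2]
          linear_combination (ZMod.castHom (dvd_refl 3) K x.im * ZMod.castHom (dvd_refl 3) K y.im) * hi +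
            (ZMod.castHom (dvd_refl 3) K x.im * ZMod.castHom (dvd_refl 3) K y.im) * h3 }
    have hinj : Function.Injective f := by
      refine (injective_iff_map_eq_zero f).mpr fun z hz => ?_
      have key : ∀ a b : ZMod 3, b ≠ 0 → ZMod.castHom (dvd_refl 3) K a + ZMod.castHom (dvd_refl 3) K b * i ≠ 0 := by
        intro a b hb e
        have hb' : ZMod.castHom (dvd_refl 3) K b ≠ 0 := fun e0 => hb ((ZMod.castHom (dvd_refl 3) K).injective (by rw [e0, map_zero]))
        have h1 : ZMod.castHom (dvd_refl 3) K (a * a + b * b) = 0 := by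
          rw [map_add, map_mul, map_mul]
          linear_combination (ZMod.castHom (dvd_refl 3) K a - ZMod.castHom (dvd_refl 3) K b * i) * e +
            (- ZMod.castHom (dvd_refl 3) K b * ZMod.castHom (dvd_refl 3) K b) * hi
        have h2 : a * a + b * b = 0 := (ZMod.castHom (dvd_refl 3) K).injective (by rw [h1, map_zero])
        exact sumSq_three a b hb h2
      have him : z.im = 0 := by_contra fun e => key _ _ e hz
      have hre : z.re = 0 := (ZMod.castHom (dvd_refl 3) K).injective (by simpa [f, him] using hz)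
      exact QuadraticAlgebra.ext hre him
    exact noTwist_nine.of_model (RingEquiv.ofBijective f ((Fintype.bijective_iff_injective_and_card f).mpr
      ⟨hinj, by rw [hq, Fintype.card_congr (QuadraticAlgebra.equivProd (2 : ZMod 3) 0)]; rfl⟩))
  · exact prime_case (m := 11) (by norm_num) hq noTwist_eleven
  · exact prime_case (m := 13) (by norm_num) hq noTwist_thirteen

/-- Half of the scalars, all swaps involutions. -/
theorem shape_half (h : Coord G) (hlin : ∀ a : scalars G, ∃ u : Kˣ, (a : Equiv.Perm K) = Units.mulLeft u)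
    (hq5 : 5 ≤ Nat.card K) (hd : 2 * Nat.card (scalars G) = Nat.card K - 1) (hS : SwapInvol G) (hw : w ∈ G)
    (w0 : w none = some 0) (w1 : w (some 0) = none) :
    ∀ x, x ≠ 0 → swapFun w x = swapFun w 1 * x⁻¹ := by
  classical
  haveI := Fintype.ofFinite K
  set d := Nat.card (scalars G) with hd'
  have hqd : Fintype.card K = 2 * d + 1 := by rw [← Nat.card_eq_fintype_card]; omega
  have hww := hS w hw w0 w1
  have hs := fun {x : K} => @swapFun_spec K _ _ _ w w0 w1 x
  choose ρ hρ using hlin
  let ρh : scalars G →* Kˣ := MonoidHom.mk' ρ fun a b => Units.ext (by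
    have := congrArg (fun g : Equiv.Perm K => g 1) (hρ (a * b))
    simp [hρ a, hρ b] at this
    simpa using this.symm)
  have hρinj : Function.Injective ρh := fun a b e => Subtype.ext (by
    rw [hρ a, hρ b]; exact congrArg Units.mulLeft e)
  have hrange : ∀ u : Kˣ, u ^ d = 1 → ∃ a, ρh a = u := by
    have hle : Finset.univ.image ρh ⊆ Finset.univ.filter fun u : Kˣ => u ^ d = 1 := by
      intro u hu
      obtain ⟨a, -, rfl⟩ := Finset.mem_image.mp hu
      simp only [Finset.mem_filter, Finset.mem_univ, true_and]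
      rw [← map_pow, hd', pow_card_eq_one', map_one]
    have hc : (Finset.univ.image ρh).card = d := by
      rw [Finset.card_image_of_injective _ hρinj, Finset.card_univ, hd', Nat.card_eq_fintype_card]
    have he := Finset.eq_of_subset_of_card_le hle (by rw [hc]; exact IsCyclic.card_pow_eq_one_le (by omega))
    intro u hu
    have := (Finset.ext_iff.mp he u).mpr (by simp [hu])
    simpa using this
  have hmul : ∀ {a x : K}, a ^ d = 1 → x ≠ 0 → swapFun w (a * x) = swapFun w x / a := by
    intro a x ha hx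
    have ha0 : a ≠ 0 := by
      rintro rfl
      rw [zero_pow (by omega)] at ha
      exact zero_ne_one ha
    obtain ⟨s, hs'⟩ := hrange (Units.mk0 a ha0) (Units.ext (by simpa using ha))
    exact h.swapFun_apply hS hw w0 w1 s (u := Units.mk0 a ha0) (by rw [hρ s, ← hs']; rfl) hx
  -- the character
  have hchi : ∀ x : K, x ≠ 0 → x ^ d = 1 ∨ x ^ d = -1 := fun x hx => by
    refine mul_self_eq_one_iff.mp ?_
    rw [← pow_add, show d + d = Fintype.card K - 1 by omega]
    exact FiniteField.pow_card_sub_one_eq_one x hx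
  let Kf : K → K := fun x => x * swapFun w x
  have hKeq : ∀ {x y : K}, x ≠ 0 → y ≠ 0 → x ^ d = y ^ d → Kf x = Kf y := by
    intro x y hx hy hxy
    have ha : (x / y) ^ d = 1 := by rw [div_pow, hxy, div_self (pow_ne_zero _ hy)]
    have e := hmul ha hy
    rw [div_mul_cancel₀ x hy] at e
    simp only [Kf, e]
    field_simp
  have hK0 : ∀ {x : K}, x ≠ 0 → Kf x ≠ 0 := fun hx => mul_ne_zero hx (hs hx).2
  have hKW : ∀ {x : K}, x ≠ 0 → Kf (swapFun w x) = Kf x := fun {x} hx => by
    simp only [Kf, swapFun_swapFun w0 w1 hww hx, mul_comm]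
  set k := swapFun w 1 with hk
  have hk0 : k ≠ 0 := (hs one_ne_zero).2
  have hKone : Kf 1 = k := one_mul _
  by_contra hcon
  push Not at hcon
  obtain ⟨z, hz, hzk⟩ := hcon
  set K1 := Kf z with hK1
  have hK1k : K1 ≠ k := fun e => hzk (by rw [← e, hK1]; simp only [Kf]; field_simp)
  have hzd : z ^ d = -1 := (hchi z hz).resolve_left fun e => hK1k (by
    rw [hK1, hKeq hz one_ne_zero (by rw [e, one_pow]), hKone])
  set KK : K → K := fun x => if x ^ d = 1 then k else K1 with hK
  have hKf : ∀ {x : K}, x ≠ 0 → Kf x = KK x := by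
    intro x hx
    simp only [hK]
    split_ifs with e
    · rw [hKeq hx one_ne_zero (by rw [e, one_pow]), hKone]
    · rw [hKeq hx hz (((hchi x hx).resolve_left e).trans hzd.symm)]
  have hW : ∀ {x : K}, x ≠ 0 → swapFun w x = KK x / x := fun {x} hx => by
    rw [← hKf hx]; simp only [Kf]; field_simp
  have hksq : k ^ d = 1 := (hchi k hk0).resolve_right fun e => hK1k (by
    exact (hKeq hz hk0 (hzd.trans e.symm)).trans ((hKW one_ne_zero).trans hKone))
  have hneg1 : (1 : K) ≠ -1 := fun e => by
    have h2 : (2 : K) = 0 := by linear_combination e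
    exact Ring.two_ne_zero (fun hc => by
      have := FiniteField.even_card_iff_char_two.mp hc
      omega) h2
  have hK1sq : K1 ^ d = 1 := (hchi K1 (hK0 hz)).resolve_right fun e => by
    have h1 : (swapFun w z) ^ d = 1 := by
      rw [show swapFun w z = K1 / z by rw [hK1]; simp only [Kf]; field_simp, div_pow, e, hzd, div_neg, neg_div, neg_neg, div_one]
    have h2 := hKW hz
    rw [hKf (hs hz).2] at h2
    simp only [hK, if_pos h1] at h2
    exact hK1k h2.symm
  -- the identity
  obtain ⟨a, ha, hax, hid⟩ := h.swap_identity (fun a => ⟨ρ a, hρ a⟩) hw w0 w1 hww (c := 1) one_ne_zero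
  have hm1 : (-1 : K) ≠ 0 := by simp
  set Km := KK (-1) with hKm
  have hx₀ : swapFun w (-1) = -Km := by rw [hW hm1, hKm, div_neg, div_one]
  rw [hx₀, ← hk] at hax
  simp only [hx₀, ← hk] at hid
  have hKm0 : Km ≠ 0 := by rw [hKm, ← hKf hm1]; exact hK0 hm1
  have hKsq : ∀ x : K, (KK x) ^ d = 1 := fun x => by simp only [hK]; split_ifs <;> assumption
  have hKcongr : ∀ {x y : K}, x ^ d = y ^ d → KK x = KK y := fun e => by simp only [hK, e]
  have hak : a = -k⁻¹ := by
    have haKm : a * Km ≠ 0 := mul_ne_zero ha hKm0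
    rw [show -(a * -Km) = a * Km by ring] at hax
    have h3 := swapFun_swapFun w0 w1 hww haKm
    rw [hax, hW (neg_ne_zero.mpr hk0),
      hKcongr (show (-k) ^ d = (-1 : K) ^ d by rw [neg_pow, hksq, mul_one]), ← hKm] at h3
    field_simp at h3 ⊢
    linear_combination -h3
  have hEq : ∀ x, x ≠ 0 → x + Km ≠ 0 → KK x + x ≠ 0 →
      k * (KK (-(x + Km)) - x - Km) * (KK x + x) + KK ((KK x + x) * x) * x * (x + Km) = 0 := by
    intro x hx hxm hxK
    have e := hid x hx fun e => hxm (by rw [e]; ring)
    have hne : swapFun w x + 1 ≠ 0 := by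
      rw [hW hx, div_add_one hx]; exact div_ne_zero hxK hx
    have hxm' : a * (x - -Km) ≠ 0 := mul_ne_zero ha (by rwa [sub_neg_eq_add])
    rw [hW hne, hW hxm'] at e
    have c1 : KK (swapFun w x + 1) = KK ((KK x + x) * x) := hKcongr (by
      rw [hW hx, div_add_one hx, div_pow, mul_pow, div_eq_mul_inv]
      congr 1
      rcases hchi x hx with e | e <;> rw [e] <;> simp)
    have c2 : KK (a * (x - -Km)) = KK (-(x + Km)) := hKcongr (by
      rw [hak, show -k⁻¹ * (x - -Km) = k⁻¹ * (-(x + Km)) by ring, mul_pow, inv_pow, hksq, inv_one, one_mul])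
    rw [c1, c2, hW hx, hak, sub_neg_eq_add] at e
    field_simp at e
    rw [mul_comm x (KK x + x)] at e
    linear_combination e
  rcases le_or_gt d 6 with hd6 | hd6
  · obtain ⟨x, h1, h2, h3, h4⟩ := noTwist_small hqd (by omega) hd6 k K1 hksq hK1sq hK1k.symm
    exact h4 (hEq _ h1 h2 h3)
  · -- many solutions
    obtain ⟨Ka, hKa, hKam, e, he, hcl⟩ : ∃ Ka, (Ka = k ∨ Ka = K1) ∧ Ka ≠ Km ∧ ∃ e : K, e ≠ 0 ∧
        ∀ x, x ≠ 0 → x ^ d = e ^ d → KK x = Ka := by
      rcases hchi (-1) hm1 with e | e
      · refine ⟨K1, Or.inr rfl, ?_, z, hz, fun x _ hx => ?_⟩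
        · rw [hKm]; simp only [hK, if_pos e]; exact hK1k
        · rw [hzd] at hx; simp only [hK]; rw [if_neg]; rw [hx]; exact hneg1.symm
      · refine ⟨k, Or.inl rfl, ?_, 1, one_ne_zero, fun x _ hx => ?_⟩
        · rw [hKm]; simp only [hK]; rw [if_neg (by rw [e]; exact hneg1.symm)]; exact hK1k.symm
        · rw [one_pow] at hx; simp only [hK, if_pos hx]
    set S := Finset.univ.filter fun x : K => x ≠ 0 ∧ x ^ d = e ^ d with hS'
    have hScard : d ≤ S.card := by
      rw [hd', Nat.card_eq_fintype_card, ← Finset.card_univ]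
      refine Finset.card_le_card_of_injOn (fun u : scalars G => e * (ρh u : K)) (fun u _ => ?_) ?_
      · refine Finset.mem_filter.mpr ⟨Finset.mem_univ _, mul_ne_zero he (Units.ne_zero _), ?_⟩
        rw [mul_pow, ← Units.val_pow_eq_pow_val, ← map_pow, hd', pow_card_eq_one', map_one, Units.val_one, mul_one]
      · intro u _ u' _ huu
        exact hρinj (Units.ext (mul_left_cancel₀ he huu))
    -- roots
    let F : K → K → Finset K := fun Kb Kc => Finset.univ.filter fun x =>
      (Kb - k) * (x * x) + (k * (Kc - Km - Ka) + Kb * Km) * x + k * Ka * (Kc - Km) = 0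
    have hsub : S ⊆ F k k ∪ F k K1 ∪ (F K1 k ∪ F K1 K1) := by
      intro x hx
      obtain ⟨-, hx0, hxd⟩ := Finset.mem_filter.mp hx
      have hKx := hcl x hx0 hxd
      have hxK : KK x + x ≠ 0 := fun e0 => hKam (by
        have hxeq : x = -1 * Ka := by rw [← hKx]; linear_combination e0
        have h1 : x ^ d = (-1 : K) ^ d := by
          rw [hxeq, mul_pow]
          rcases hKa with r | r <;> rw [r] <;> simp [hksq, hK1sq]
        rw [← hKx, hKcongr h1])
      have hxm : x + Km ≠ 0 := fun e0 => hKam (by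
        have h1 : x ^ d = (-1 : K) ^ d := by
          rw [show x = -1 * Km by linear_combination e0, mul_pow, hKm, hKsq, mul_one]
        rw [← hKx, hKcongr h1])
      have e1 := hEq x hx0 hxm hxK
      rw [hKx] at e1
      have hKv : ∀ y, KK y = k ∨ KK y = K1 := fun y => by simp only [hK]; split_ifs <;> simp
      have hx' : x ∈ F (KK ((Ka + x) * x)) (KK (-(x + Km))) :=
        Finset.mem_filter.mpr ⟨Finset.mem_univ _, by linear_combination e1⟩
      rcases hKv ((Ka + x) * x) with r | r <;> rcases hKv (-(x + Km)) with r' | r' <;> rw [r, r'] at hx' <;>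
        simp only [Finset.mem_union] <;> tauto
    have hlin : ∀ Kc, (F k Kc).card ≤ 1 := by
      intro Kc
      by_cases hKc : Kc = Ka
      · subst hKc
        have : F k Kc = ∅ := by
          refine Finset.filter_eq_empty_iff.mpr fun x _ e => ?_
          have : k * Kc * (Kc - Km) = 0 := by linear_combination e
          exact mul_ne_zero (mul_ne_zero hk0 (by rcases hKa with r | r <;> rw [r]; exacts [hk0, hK0 hz])) (sub_ne_zero.mpr hKam) this
        rw [this]; simp
      · refine (Finset.card_le_card fun x hx => ?_).trans (card_linear_roots (B := Kc - Ka) (C := Ka * (Kc - Km)) (sub_ne_zero.mpr hKc))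
        simp [F] at hx ⊢
        exact mul_left_cancel₀ hk0 (by linear_combination hx)
    have hquad : ∀ Kc, (F K1 Kc).card ≤ 2 := fun Kc => card_quadratic_roots (sub_ne_zero.mpr hK1k)
    have := Finset.card_le_card hsub
    have := Finset.card_union_le (F k k ∪ F k K1) (F K1 k ∪ F K1 K1)
    have := Finset.card_union_le (F k k) (F k K1)
    have := Finset.card_union_le (F K1 k) (F K1 K1)
    have := hlin k; have := hlin K1; have := hquad k; have := hquad K1
    -- at most six solutions
    omega

end CfsgLib.Zas
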