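import Mathlib
import Cfsg.Agent.Zas.Setup
import Cfsg.Agent.Zas.Field
import Cfsg.Agent.Zas.Shape
import Cfsg.Agent.Zas.Recognise

/-!
Sharply three-transitive groups, and the groups with half of the scalars.
-/

set_option autoImplicit false

namespace CfsgLib.Zas

universe u

variable {V : Type u} [AddCommGroup V] [Finite V] {G : Subgroup (Equiv.Perm (Option V))}

/-- With all scalars the group is transitive on triples. -/
theorem Coord.three_transitive (h : Coord G) (hd : Nat.card (scalars G) = Nat.card V - 1) {v : V} (hv : v ≠ 0)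
    (x y z : Option V) (hxy : x ≠ y) (hxz : x ≠ z) (hyz : y ≠ z) :
    ∃ g ∈ G, g none = x ∧ g (some 0) = y ∧ g (some v) = z := by
  obtain ⟨t, ht, htx, hty⟩ := h.exists_mem x y hxy
  have hne : t⁻¹ z ≠ none := fun e => hxz (by rw [← htx, ← e]; simp)
  obtain ⟨c, hc⟩ := Option.ne_none_iff_exists'.mp hne
  have hc0 : c ≠ 0 := fun e => hyz (by rw [← hty, ← e, ← hc]; simp)
  have hsurj : ∃ a : scalars G, (a : Equiv.Perm V) v = c := by
    classical
    haveI := Fintype.ofFinite V
    let f : scalars G → {u : V // u ≠ 0} := fun a =>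
      ⟨(a : Equiv.Perm V) v, fun e => hv ((a : Equiv.Perm V).injective (e.trans (map_zero_scalar a).symm))⟩
    haveI := Fintype.ofFinite (scalars G)
    have hbij : Function.Bijective f := (Fintype.bijective_iff_injective_and_card f).mpr
      ⟨fun a b e => h.apply_injective hv (congrArg Subtype.val e), by
        rw [← Nat.card_eq_fintype_card, hd, Fintype.card_subtype_compl, Fintype.card_subtype_eq, Nat.card_eq_fintype_card]⟩
    obtain ⟨a, ha⟩ := hbij.2 ⟨c, hc0⟩
    exact ⟨a, congrArg Subtype.val ha⟩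
  obtain ⟨a, ha⟩ := hsurj
  exact ⟨t * sc (a : Equiv.Perm V), G.mul_mem ht (sc_mem a), by simp [htx], by simp [map_zero_scalar, hty],
    by simp [ha, ← hc]⟩

/-- Abelian irreducible fixed point free scalars are cyclic. -/
theorem isCyclic_scalars (h : Coord G) (hcomm : ∀ a b : scalars G, a * b = b * a)
    (hirr : ∀ W : AddSubgroup V, (∀ a : scalars G, ∀ v ∈ W, (a : Equiv.Perm V) v ∈ W) → W = ⊥ ∨ W = ⊤) :
    IsCyclic (scalars G) := by
  classical
  rcases subsingleton_or_nontrivial V with hV | hV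
  · haveI : Subsingleton (scalars G) := ⟨fun a b => Subtype.ext (Equiv.ext fun x => Subsingleton.elim _ _)⟩
    exact isCyclic_of_subsingleton
  let T : scalars G → AddMonoid.End V := fun a => (toAdd a).toAddMonoidHom
  let A := Subring.closure (Set.range T)
  have hTT : ∀ a b, T a * T b = T (a * b) := fun a b => DFunLike.ext _ _ fun v => rfl
  letI : CommRing A := Subring.closureCommRingOfComm fun x hx y hy => by
    obtain ⟨a, rfl⟩ := hx
    obtain ⟨b, rfl⟩ := hy
    rw [hTT, hTT, hcomm]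
  let t : scalars G → A := fun a => ⟨T a, Subring.subset_closure ⟨a, rfl⟩⟩
  have hinj : ∀ a : A, a ≠ 0 → Function.Injective (a : AddMonoid.End V) := by
    intro a ha
    rcases hirr (AddMonoidHom.ker ((a : AddMonoid.End V) : V →+ V)) (fun b v hv => by
      have h2 := congrArg (fun z : A => (z : AddMonoid.End V) v) (mul_comm a (t b))
      show (a : AddMonoid.End V) (T b v) = 0
      refine Eq.trans h2 ?_
      show T b ((a : AddMonoid.End V) v) = 0
      rw [show (a : AddMonoid.End V) v = 0 from hv, map_zero]) with h | h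
    · exact (AddMonoidHom.ker_eq_bot_iff _).mp h
    · exact absurd (Subtype.ext (DFunLike.ext (F := AddMonoid.End V) _ _ fun v => by
        have : v ∈ AddMonoidHom.ker ((a : AddMonoid.End V) : V →+ V) := h ▸ AddSubgroup.mem_top v
        exact this)) ha
  obtain ⟨v₀, hv₀⟩ := exists_ne (0 : V)
  haveI : Nontrivial A := ⟨⟨0, 1, fun e => hv₀ (congrArg (fun z : A => (z : AddMonoid.End V) v₀) e).symm⟩⟩
  haveI : NoZeroDivisors A := ⟨fun {a b} hab => by
    rcases eq_or_ne a 0 with ha | ha
    · exact Or.inl ha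
    · refine Or.inr (Subtype.ext (DFunLike.ext (F := AddMonoid.End V) _ _ fun v => hinj a ha ?_))
      refine Eq.trans ?_ (map_zero _).symm
      show ((a * b : A) : AddMonoid.End V) v = 0
      rw [hab]; rfl⟩
  haveI : IsDomain A := NoZeroDivisors.to_isDomain A
  letI : CommGroup (scalars G) := { (inferInstance : Group (scalars G)) with mul_comm := hcomm }
  exact isCyclic_of_subgroup_isDomain
    (⟨⟨t, Subtype.ext (DFunLike.ext _ _ fun v => rfl)⟩, fun a b => Subtype.ext (hTT a b).symm⟩ : scalars G →* A)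
    fun a b e => Subtype.ext (Equiv.ext fun v => congrArg (fun z : A => (z : AddMonoid.End V) v) e)

/-- Change of coordinates. -/
def mapPerm {V : Type u} {W : Type*} [AddCommGroup V] [AddCommGroup W] (Φ : V ≃+ W) :
    Equiv.Perm (Option V) ≃* Equiv.Perm (Option W) :=
  Φ.toEquiv.optionCongr.permCongrHom

/-- Change of coordinates on vectors. -/
def mapVec {V : Type u} {W : Type*} [AddCommGroup V] [AddCommGroup W] (Φ : V ≃+ W) :
    Equiv.Perm V ≃* Equiv.Perm W :=
  Φ.toEquiv.permCongrHom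

section MapCoord

variable {W : Type*} [AddCommGroup W] (Φ : V ≃+ W)

theorem mapPerm_apply (p : Equiv.Perm (Option V)) (o : Option W) :
    mapPerm Φ p o = Option.map Φ (p (Option.map Φ.symm o)) := by
  cases o <;> rfl

theorem mapPerm_tr (b : V) : mapPerm Φ (tr b) = tr (Φ b) := Equiv.ext fun o => by
  rw [mapPerm_apply]; cases o <;> simp

theorem mapVec_apply (a : Equiv.Perm V) (y : W) : mapVec Φ a y = Φ (a (Φ.symm y)) := rfl

theorem mapPerm_sc (a : Equiv.Perm V) : mapPerm Φ (sc a) = sc (mapVec Φ a) := Equiv.ext fun o => by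
  rw [mapPerm_apply]; cases o <;> simp [mapVec_apply]

theorem mapVec_mem_addPerm (a : Equiv.Perm V) : mapVec Φ a ∈ addPerm W ↔ a ∈ addPerm V := by
  refine ⟨fun ha y z => ?_, fun ha y z => ?_⟩
  · have := ha (Φ y) (Φ z)
    rw [← map_add Φ, mapVec_apply, mapVec_apply, mapVec_apply, AddEquiv.symm_apply_apply,
      AddEquiv.symm_apply_apply, AddEquiv.symm_apply_apply] at this
    exact Φ.injective (this.trans (map_add Φ _ _).symm)
  · rw [mapVec_apply, mapVec_apply, mapVec_apply, map_add Φ.symm, ha, map_add Φ]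

theorem mem_scalars_map (a : Equiv.Perm V) :
    mapVec Φ a ∈ scalars (G.map (mapPerm Φ).toMonoidHom) ↔ a ∈ scalars G := by
  show (sc (mapVec Φ a) ∈ G.map (mapPerm Φ).toMonoidHom ∧ mapVec Φ a ∈ addPerm W) ↔ (sc a ∈ G ∧ a ∈ addPerm V)
  rw [← mapPerm_sc, mapVec_mem_addPerm]
  exact and_congr_left fun _ => ⟨fun ⟨q, hq, e⟩ => (mapPerm Φ).injective e ▸ hq, fun h => ⟨_, h, rfl⟩⟩

theorem card_scalars_map : Nat.card (scalars (G.map (mapPerm Φ).toMonoidHom)) = Nat.card (scalars G) :=
  (Nat.card_congr ((mapVec Φ).toEquiv.subtypeEquiv fun a => (mem_scalars_map Φ a).symm)).symm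

theorem Coord.mapCoord (h : Coord G) : Coord (G.map (mapPerm Φ).toMonoidHom) := by
  refine ⟨fun b => ⟨tr (Φ.symm b), h.tr_mem _, ?_⟩, fun x y => ?_, ?_, ?_⟩
  · show mapPerm Φ _ = _
    rw [mapPerm_tr, AddEquiv.apply_symm_apply]
  · obtain ⟨p, hp, hpx⟩ := h.transitive (Option.map Φ.symm x) (Option.map Φ.symm y)
    refine ⟨mapPerm Φ p, ⟨p, hp, rfl⟩, ?_⟩
    rw [mapPerm_apply, hpx]; cases y <;> simp
  · rintro _ ⟨p, hp, rfl⟩ h0
    change mapPerm Φ p none = none at h0
    rw [mapPerm_apply, Option.map_eq_none_iff] at h0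
    obtain ⟨a, b, rfl⟩ := h.affine' hp (by simpa using h0)
    refine ⟨mapVec Φ (a : Equiv.Perm V), (mapVec_mem_addPerm Φ _).mpr a.2.2, Φ b, ?_⟩
    show mapPerm Φ _ = _
    rw [map_mul, mapPerm_tr, mapPerm_sc]
  · rintro ⟨a, ha⟩ v hv hav
    obtain ⟨a0, rfl⟩ := (mapVec Φ).surjective a
    have := h.free ⟨a0, (mem_scalars_map Φ a0).mp ha⟩ (Φ.symm v) (by simpa using hv) (Φ.injective (by
      rw [AddEquiv.apply_symm_apply]; exact hav))
    exact Subtype.ext ((congrArg (mapVec Φ) (show a0 = 1 from congrArg Subtype.val this)).trans (map_one _))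

theorem SwapInvol.mapCoord (hS : SwapInvol G) : SwapInvol (G.map (mapPerm Φ).toMonoidHom) := by
  rintro _ ⟨p, hp, rfl⟩ w0 w1
  change mapPerm Φ p none = some 0 at w0
  change mapPerm Φ p (some 0) = none at w1
  rw [mapPerm_apply] at w0 w1
  show mapPerm Φ p * mapPerm Φ p = 1
  rw [← map_mul, hS p hp ?_ ?_, map_one]
  · exact Option.map_injective Φ.injective (by simpa using w0)
  · exact Option.map_injective Φ.injective (by simpa using w1)

end MapCoord

/-- Half of the scalars and all swaps involutions: coordinates in a field make the scalars multiplications by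
squares and the swaps fractional linear. -/
theorem exists_linear_of_half (h : Coord G) (hS : SwapInvol G) (hq : Odd (Nat.card V)) (hq5 : 5 ≤ Nat.card V)
    (hd : 2 * Nat.card (scalars G) = Nat.card V - 1) :
    ∃ (K : Type) (_ : Field K) (_ : Fintype K) (_ : DecidableEq K) (Φ : V ≃+ K) (ω : K),
      ringChar K ≠ 2 ∧ Subring.closure ({ω} : Set K) = ⊤ ∧
      (∀ a : scalars (G.map (mapPerm Φ).toMonoidHom), ∃ u : Kˣ, (a : Equiv.Perm K) = Units.mulLeft u) ∧
      (∃ a : scalars (G.map (mapPerm Φ).toMonoidHom), ∀ y : K, (a : Equiv.Perm K) y = ω * y) ∧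
      ∃ w ∈ G.map (mapPerm Φ).toMonoidHom, w none = some 0 ∧ w (some 0) = none ∧ w ∈ (pglPerm (K := K)).range := by
  classical
  obtain ⟨k, hk⟩ := hq
  haveI := Finite.one_lt_card_iff_nontrivial.mp (show 1 < Nat.card V by omega)
  obtain ⟨v₀, hv₀⟩ := exists_ne (0 : V)
  have hirr : ∀ W : AddSubgroup V, (∀ a : scalars G, ∀ v ∈ W, (a : Equiv.Perm V) v ∈ W) → W = ⊥ ∨ W = ⊤ := by
    intro W hW
    refine or_iff_not_imp_left.mpr fun hne => ?_
    obtain ⟨v, hv, hv0⟩ : ∃ v ∈ W, v ≠ 0 := by
      by_contra hc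
      push Not at hc
      exact hne ((AddSubgroup.eq_bot_iff_forall _).mpr hc)
    have hcard : Nat.card (scalars G) < Nat.card W := by
      haveI := Fintype.ofFinite (scalars G)
      haveI := Fintype.ofFinite W
      rw [Nat.card_eq_fintype_card, Nat.card_eq_fintype_card]
      refine Fintype.card_lt_of_injective_of_notMem (fun a => (⟨(a : Equiv.Perm V) v, hW a v hv⟩ : W))
        (fun a b e => h.apply_injective hv0 (congrArg Subtype.val e)) (b := 0) ?_
      rintro ⟨a, ha⟩
      exact hv0 ((a : Equiv.Perm V).injective ((congrArg Subtype.val ha).trans (map_zero_scalar a).symm))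
    obtain ⟨m, hm⟩ := AddSubgroup.card_addSubgroup_dvd_card W
    refine AddSubgroup.eq_top_of_card_eq _ ?_
    rcases Nat.lt_or_ge m 2 with h2 | h2
    · interval_cases m
      · omega
      · omega
    · have := Nat.mul_le_mul_left (Nat.card W) h2
      rcases eq_or_lt_of_le h2 with h3 | h3
      · subst h3; omega
      · have := Nat.mul_le_mul_left (Nat.card W) h3
        omega
  haveI := isCyclic_scalars h (hS.comm h) hirr
  obtain ⟨g, hg⟩ := IsCyclic.exists_generator (α := scalars G)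
  obtain ⟨K, hK, hKfin, Φ, ω, hΦ1, hΦ, hgen⟩ := exists_field (toAdd g).toAddMonoidHom (fun W hW => hirr W fun a v hv => by
    obtain ⟨i, rfl⟩ := ((isOfFinOrder_of_finite g).mem_powers_iff_mem_zpowers.mpr (hg a))
    induction i generalizing v with
    | zero => simpa using hv
    | succ i ih =>
      simp only [pow_succ', Subgroup.coe_mul, Equiv.Perm.mul_apply]
      exact hW _ (ih v hv)) hv₀
  letI := hK
  letI := hKfin
  have hKV : Nat.card K = Nat.card V := Nat.card_congr Φ.symm.toEquiv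
  letI : DecidableEq K := Classical.decEq K
  set G' := G.map (mapPerm Φ).toMonoidHom
  have hlin : ∀ a : scalars G', ∃ u : Kˣ, (a : Equiv.Perm K) = Units.mulLeft u := by
    rintro ⟨a, ha⟩
    obtain ⟨a0, rfl⟩ := (mapVec Φ).surjective a
    have hs0 := (mem_scalars_map Φ a0).mp ha
    have hcomm : ∀ y : K, mapVec Φ a0 (ω * y) = ω * mapVec Φ a0 y := fun y => by
      have e := congrArg (fun z : scalars G => (z : Equiv.Perm V) (Φ.symm y)) (hS.comm h ⟨a0, hs0⟩ g)
      simp only [Subgroup.coe_mul, Equiv.Perm.mul_apply] at e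
      rw [mapVec_apply, mapVec_apply, show Φ.symm (ω * y) = (g : Equiv.Perm V) (Φ.symm y) from Φ.injective (by
        have := hΦ (Φ.symm y); simp at this ⊢; exact this.symm), e]
      exact hΦ _
    let S : K →+ K := (toAdd (⟨_, ha⟩ : scalars G')).toAddMonoidHom
    have hS1 : S 1 ≠ 0 := fun e => one_ne_zero ((toAdd (⟨_, ha⟩ : scalars G')).injective
      (e.trans (map_zero (toAdd (⟨_, ha⟩ : scalars G'))).symm))
    obtain ⟨φ, hφ, hSφ⟩ := exists_ringHom hgen S hS1 (ω' := ω) hcomm
    have hid : φ = RingHom.id K := RingHom.eq_of_eqOn_set_top (hgen ▸ RingHom.eqOn_set_closure (f := φ) (g := RingHom.id K)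
      (Set.eqOn_singleton.mpr hφ))
    refine ⟨Units.mk0 (S 1) hS1, Equiv.ext fun y => ?_⟩
    show S y = S 1 * y
    rw [hSφ y, hid]; rfl
  have hG' : Coord G' := h.mapCoord Φ
  obtain ⟨w, hw, w0, w1⟩ := hG'.exists_swap
  have hshape := shape_half hG' hlin (hKV ▸ hq5) (by rw [card_scalars_map, hKV, hd]) (hS.mapCoord Φ) hw w0 w1
  refine ⟨K, hK, hKfin, inferInstance, Φ, ω, fun hc => ?_, hgen, hlin,
    ⟨⟨mapVec Φ (g : Equiv.Perm V), (mem_scalars_map Φ _).mpr g.2⟩, fun y => ?_⟩, w, hw, w0, w1,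
    inversion_mem_range (swapFun_spec w0 w1 one_ne_zero).2 w0 w1 fun x hx => by
      rw [(swapFun_spec w0 w1 hx).1, hshape x hx]⟩
  · have h1 := FiniteField.even_card_iff_char_two.mp hc
    rw [← Nat.card_eq_fintype_card, hKV] at h1
    omega
  · rw [mapVec_apply]
    refine (hΦ _).trans ?_
    rw [AddEquiv.apply_symm_apply]

/-- Half of the scalars and all swaps involutions: the group is `PSL₂`. -/
theorem iso_psl_of_half (h : Coord G) (hS : SwapInvol G) (hq : Odd (Nat.card V)) (hq5 : 5 ≤ Nat.card V)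
    (hd : 2 * Nat.card (scalars G) = Nat.card V - 1) :
    ∃ (K : Type) (_ : Field K) (_ : Fintype K), ringChar K ≠ 2 ∧ Fintype.card K = Nat.card V ∧
      Nonempty (G ≃* Matrix.ProjectiveSpecialLinearGroup (Fin 2) K) := by
  obtain ⟨K, hK, hKfin, hdec, Φ, ω, hc, -, hlin, -, w, hw, w0, w1, hwr⟩ := exists_linear_of_half h hS hq hq5 hd
  letI := hK
  letI := hKfin
  letI := hdec
  have hKV : Nat.card K = Nat.card V := Nat.card_congr Φ.symm.toEquiv
  obtain ⟨iso⟩ := iso_psl hc (le_range (h.mapCoord Φ) hlin hw w0 w1 hwr)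
    (by rw [(h.mapCoord Φ).card_eq, card_scalars_map, hKV, ← hd]; ring)
  exact ⟨K, hK, hKfin, hc, by rw [← Nat.card_eq_fintype_card, hKV],
    ⟨(Subgroup.equivMapOfInjective G (mapPerm Φ).toMonoidHom (mapPerm Φ).injective).trans iso⟩⟩

end CfsgLib.Zas
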