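import Mathlib
import Cfsg.Agent.ZGrp.Basic
import Cfsg.Agent.Frob.Kernel

/-!
The regular normal subgroup of a point stabiliser in a Zassenhaus group.
-/

set_option autoImplicit false

namespace CfsgLib.Zas

open MulAction CfsgLib.ZGrp

variable {G Ω : Type*} [Group G] [MulAction G Ω]

/-- The Frobenius kernel of a point stabiliser. -/
theorem exists_kernel [Finite G] [Fintype Ω] (hZ : Cfsg.IsZassenhausGroup G Ω) {a b : Ω} (hab : a ≠ b) :
    ∃ F : Subgroup G, F ≤ stabilizer G a ∧ (F.subgroupOf (stabilizer G a)).Normal ∧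
      ∀ y z : Ω, y ≠ a → z ≠ a → ∃! u : F, (u : G) • y = z := by
  have hH := isFrobeniusComplement_pst hZ hab
  set M := stabilizer G a
  set K := CfsgLib.Frob.kernel hH
  set F := K.map M.subtype
  have hFsub : F.subgroupOf M = K := Subgroup.comap_map_eq_self_of_injective M.subtype_injective K
  have hcompl := CfsgLib.Frob.isComplement'_kernel hH
  have hbase : ∀ z : Ω, z ≠ a → ∃! u : F, (u : G) • b = z := by
    intro z hz
    obtain ⟨g, hga, hgb⟩ := exists_move hZ hab hz.symm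
    obtain ⟨⟨⟨k, hk⟩, ⟨h, hh⟩⟩, hkh, -⟩ := hcompl.existsUnique (⟨g, hga⟩ : M)
    have hkb : ((k : M) : G) • b = z := by
      rw [← hgb, show g = ((k : M) : G) * ((h : M) : G) from congrArg Subtype.val hkh.symm, mul_smul]
      exact congrArg _ (mem_pst.1 hh).2.symm
    refine ⟨⟨k, k, hk, rfl⟩, hkb, ?_⟩
    rintro ⟨_, k', hk', rfl⟩ (hk'b : (k' : G) • b = z)
    suffices e : k' = k by subst e; rfl
    refine (inv_mul_eq_one.mp ?_).symm
    refine Subgroup.mem_bot.mp (hcompl.disjoint.le_bot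
      ⟨K.mul_mem (K.inv_mem hk) hk', mem_pst.2 ⟨(k⁻¹ * k').2, ?_⟩⟩)
    show ((k : G)⁻¹ * (k' : G)) • b = b
    rw [mul_smul, inv_smul_eq_iff, hk'b, hkb]
  refine ⟨F, Subgroup.map_subtype_le K, hFsub.symm ▸ CfsgLib.Frob.kernel_normal hH, fun y z hy hz => ?_⟩
  obtain ⟨u₁, h1, -⟩ := hbase y hy
  obtain ⟨u₂, h2, huniq⟩ := hbase z hz
  refine ⟨u₂ * u₁⁻¹, ?_, fun u hu => ?_⟩
  · show ((u₂ : G) * (u₁ : G)⁻¹) • y = z
    rw [← h1, mul_smul, inv_smul_smul, h2]
  · rw [eq_mul_inv_iff_mul_eq]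
    refine huniq _ ?_
    show ((u : G) * (u₁ : G)) • b = z
    rw [mul_smul, h1, hu]

end CfsgLib.Zas
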