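import Mathlib
import Cfsg.Agent.Zas.Setup
import Cfsg.Agent.Zas.Count

/-!
Sharply three-transitive groups: the scalars have no binary tetrahedral configuration normalised by a swap.
-/

set_option autoImplicit false

namespace CfsgLib.Zas

universe u

variable {V : Type u} [AddCommGroup V] [Finite V] {G : Subgroup (Equiv.Perm (Option V))}

/-- A swap with a fixed point `e`, in a sharply three-transitive group of odd characteristic. -/
structure Swap (G : Subgroup (Equiv.Perm (Option V))) (w : Equiv.Perm (Option V)) (e : V) : Prop where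
  coord : Coord G
  full : Nat.card (scalars G) = Nat.card V - 1
  odd : Odd (Nat.card V)
  mem : w ∈ G
  w0 : w none = some 0
  w1 : w (some 0) = none
  fix : w (some e) = some e
  ne : e ≠ 0

variable {w : Equiv.Perm (Option V)} {e : V}

/-- An element fixing three points is trivial. -/
theorem Coord.eq_one_of_fix_three (h : Coord G) {g : Equiv.Perm (Option V)} (hg : g ∈ G) {a b c : Option V}
    (hab : a ≠ b) (hac : a ≠ c) (hbc : b ≠ c) (ha : g a = a) (hb : g b = b) (hc : g c = c) : g = 1 := by
  obtain ⟨t, ht, hta, htb⟩ := h.exists_mem a b hab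
  obtain ⟨s, hs⟩ := h.fix_two (G.mul_mem (G.mul_mem (G.inv_mem ht) hg) ht)
    (by simp [hta, ha]; rw [← hta]; simp) (by simp [htb, hb]; rw [← htb]; simp)
  have hne : t⁻¹ c ≠ none := fun e => hac (by rw [← hta, ← e]; simp)
  obtain ⟨v, hv⟩ := Option.ne_none_iff_exists'.mp hne
  have hv0 : v ≠ 0 := fun e => hbc (by rw [← htb, ← e, ← hv]; simp)
  have htv : t (some v) = c := by rw [← hv]; simp
  have hsv : (s : Equiv.Perm V) v = v := by
    have h1 := congrArg (fun p : Equiv.Perm (Option V) => p (some v)) hs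
    simp only [Equiv.Perm.mul_apply, sc_some, htv, hc, hv] at h1
    exact (Option.some_injective _ h1).symm
  rw [h.free s v hv0 hsv, Subgroup.coe_one, map_one, mul_assoc, inv_mul_eq_one] at hs
  exact mul_eq_right.mp hs.symm

theorem Coord.eq_of_three (h : Coord G) {g g' : Equiv.Perm (Option V)} (hg : g ∈ G) (hg' : g' ∈ G) {a b c : Option V}
    (hab : a ≠ b) (hac : a ≠ c) (hbc : b ≠ c) (ha : g a = g' a) (hb : g b = g' b) (hc : g c = g' c) : g = g' :=
  (inv_mul_eq_one.mp (h.eq_one_of_fix_three (G.mul_mem (G.inv_mem hg') hg) hab hac hbc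
    (by simp [ha]) (by simp [hb]) (by simp [hc]))).symm

theorem exists_apply_eq (h : Coord G) (hd : Nat.card (scalars G) = Nat.card V - 1) {v c : V} (hv : v ≠ 0) (hc : c ≠ 0) :
    ∃ a : scalars G, (a : Equiv.Perm V) v = c := by
  classical
  haveI := Fintype.ofFinite V
  haveI := Fintype.ofFinite (scalars G)
  let f : scalars G → {u : V // u ≠ 0} := fun a =>
    ⟨(a : Equiv.Perm V) v, fun e => hv ((a : Equiv.Perm V).injective (e.trans (map_zero_scalar a).symm))⟩
  have hbij : Function.Bijective f := (Fintype.bijective_iff_injective_and_card f).mpr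
    ⟨fun a b e => h.apply_injective hv (congrArg Subtype.val e), by
      rw [← Nat.card_eq_fintype_card, hd, Fintype.card_subtype_compl, Fintype.card_subtype_eq, Nat.card_eq_fintype_card]⟩
  obtain ⟨a, ha⟩ := hbij.2 ⟨c, hc⟩
  exact ⟨a, congrArg Subtype.val ha⟩

namespace Swap

theorem sq (h : Swap G w e) : w * w = 1 :=
  h.coord.eq_one_of_fix_three (G.mul_mem h.mem h.mem) (show (none : Option V) ≠ some 0 by simp)
    (show (none : Option V) ≠ some e by simp) (show some (0 : V) ≠ some e by simpa using h.ne.symm)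
    (by simp [h.w0, h.w1]) (by simp [h.w0, h.w1]) (by simp [h.fix])

theorem apply_apply (h : Swap G w e) (o : Option V) : w (w o) = o := by
  rw [← Equiv.Perm.mul_apply, h.sq, Equiv.Perm.one_apply]

/-- The automorphism of the scalars induced by the swap. -/
noncomputable def theta (h : Swap G w e) : scalars G →* scalars G := h.coord.conjHom h.mem h.w0 h.w1

theorem sc_theta (h : Swap G w e) (a : scalars G) :
    sc (h.theta a : Equiv.Perm V) = w * sc (a : Equiv.Perm V) * w := by
  rw [theta, h.coord.sc_conjHom h.mem h.w0 h.w1, inv_eq_of_mul_eq_one_right h.sq]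

theorem theta_theta (h : Swap G w e) (a : scalars G) : h.theta (h.theta a) = a := by
  refine Subtype.ext (sc_injective ?_)
  rw [h.sc_theta, h.sc_theta, ← mul_assoc, ← mul_assoc, h.sq, one_mul, mul_assoc, h.sq, mul_one]

theorem apply_scalar (h : Swap G w e) (a : scalars G) (o : Option V) :
    w (sc (a : Equiv.Perm V) o) = sc (h.theta a : Equiv.Perm V) (w o) := by
  rw [h.sc_theta, Equiv.Perm.mul_apply, Equiv.Perm.mul_apply, h.apply_apply]

theorem two_ne (h : Swap G w e) {v : V} (hv : v + v = 0) : v = 0 := by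
  have h1 : addOrderOf v ∣ 2 := addOrderOf_dvd_of_nsmul_eq_zero (by rw [two_nsmul, hv])
  exact AddMonoid.addOrderOf_eq_one_iff.mp
    (Nat.eq_one_of_dvd_coprimes (Nat.coprime_two_left.mpr h.odd) h1 (addOrderOf_dvd_natCard v))

theorem exists_neg (h : Swap G w e) : ∃ z : scalars G, z ≠ 1 ∧ ∀ v, (z : Equiv.Perm V) v = -v := by
  refine h.coord.neg_mem ?_
  obtain ⟨k, hk⟩ := h.odd
  rw [h.full]
  exact ⟨k, by omega⟩

theorem fix_neg (h : Swap G w e) {z : scalars G} (hz : ∀ v, (z : Equiv.Perm V) v = -v) :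
    h.theta z = z ∧ w (some (-e)) = some (-e) := by
  have hzz : z * z = 1 := Subtype.ext (Equiv.ext fun v => by simp [hz])
  have hz1 : z ≠ 1 := fun e1 => h.ne (h.two_ne (by
    have := hz e
    rw [e1, Subgroup.coe_one, Equiv.Perm.one_apply] at this
    nth_rewrite 1 [this]
    rw [neg_add_cancel]))
  have hz2 : h.theta z = z := by
    have hne : h.theta z ≠ 1 := fun e1 => hz1 (by rw [← h.theta_theta z, e1, map_one])
    have htt : h.theta z * h.theta z = 1 := by rw [← map_mul, hzz, map_one]
    refine Subtype.ext (Equiv.ext fun v => ?_)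
    rw [hz]
    by_contra hv
    refine hne (h.coord.free _ (v + (h.theta z : Equiv.Perm V) v) (fun e1 => hv (eq_neg_of_add_eq_zero_right e1)) ?_)
    rw [map_add_scalar, ← Equiv.Perm.mul_apply, ← Subgroup.coe_mul, htt, Subgroup.coe_one, Equiv.Perm.one_apply,
      add_comm]
  refine ⟨hz2, ?_⟩
  have := h.apply_scalar z (some e)
  rwa [hz2, h.fix, sc_some, hz] at this

/-- Only the centre commutes with the swap. -/
theorem fixed_theta (h : Swap G w e) {z : scalars G} (hz : ∀ v, (z : Equiv.Perm V) v = -v) {a : scalars G}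
    (ha : h.theta a = a) : a = 1 ∨ a = z := by
  have hae : w (some ((a : Equiv.Perm V) e)) = some ((a : Equiv.Perm V) e) := by
    have := h.apply_scalar a (some e)
    rwa [ha, h.fix, sc_some] at this
  by_contra hne
  push Not at hne
  have h1 : (a : Equiv.Perm V) e ≠ e := fun e1 => hne.1 (h.coord.free a e h.ne e1)
  have h2 : (a : Equiv.Perm V) e ≠ -e := fun e1 => hne.2 (h.coord.apply_injective h.ne (e1.trans (hz e).symm))
  have h3 : e ≠ -e := fun e1 => h.ne (h.two_ne (by nth_rewrite 1 [e1]; rw [neg_add_cancel]))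
  have hw1 : w = 1 := h.coord.eq_one_of_fix_three h.mem (show some e ≠ some (-e) by simpa using h3)
    (show some e ≠ some ((a : Equiv.Perm V) e) by simpa using Ne.symm h1)
    (show some (-e) ≠ some ((a : Equiv.Perm V) e) by simpa using Ne.symm h2) h.fix (h.fix_neg hz).2 hae
  have := h.w0
  rw [hw1, Equiv.Perm.one_apply] at this
  exact Option.some_ne_none _ this.symm

/-- The functional equation. -/
theorem equation (h : Swap G w e) {z : scalars G} (hz : ∀ v, (z : Equiv.Perm V) v = -v) (o : Option V) :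
    w (tr e (w o)) = tr e (sc (z : Equiv.Perm V) (w (tr e o))) := by
  have hh := h.coord
  have := hh.eq_of_three (g := w * tr e * w) (g' := tr e * sc (z : Equiv.Perm V) * w * tr e)
    (G.mul_mem (G.mul_mem h.mem (hh.tr_mem e)) h.mem)
    (G.mul_mem (G.mul_mem (G.mul_mem (hh.tr_mem e) (sc_mem z)) h.mem) (hh.tr_mem e))
    (show (none : Option V) ≠ some 0 by simp) (show (none : Option V) ≠ some (-e) by simp)
    (show some (0 : V) ≠ some (-e) by simpa using h.ne)
    (by simp [h.w0, h.fix, hz]) (by simp [h.w0, h.w1, h.fix, hz]) (by simp [h.w1, (h.fix_neg hz).2])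
  exact congrArg (fun p : Equiv.Perm (Option V) => p o) this

end Swap

/-- A scalar as an endomorphism. -/
def endOf : scalars G →* AddMonoid.End V where
  toFun a := (toAdd a).toAddMonoidHom
  map_one' := rfl
  map_mul' _ _ := rfl

theorem endOf_apply (a : scalars G) (v : V) : endOf a v = (a : Equiv.Perm V) v := rfl

/-- The element permuting the three axes is the unit `(1 + i - j - ij)/2`. -/
theorem unit_eq (h : Coord G) (h2 : ∀ v : V, v + v = 0 → v = 0) {z y r v : scalars G}
    (hz : ∀ x, (z : Equiv.Perm V) x = -x) (hy : y * y = z) (hr : r * r = z) (hry : r * y = z * (y * r))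
    (hv3 : v * v * v = z) (hvz : v ≠ z) (hvy : v * y = z * r * v) (hvr : v * r = y * r * v) (x : V) :
    (v : Equiv.Perm V) x + (v : Equiv.Perm V) x =
      x + (y : Equiv.Perm V) x - (r : Equiv.Perm V) x - (y : Equiv.Perm V) ((r : Equiv.Perm V) x) := by
  have hEz : endOf z = (-1 : AddMonoid.End V) := DFunLike.ext _ _ fun x => hz x
  set Y := endOf y with hY
  set R := endOf r with hR
  set T := endOf v with hT
  have eY : Y * Y = -1 := by rw [hY, ← map_mul, hy, hEz]
  have eR : R * R = -1 := by rw [hR, ← map_mul, hr, hEz]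
  have eRY : R * Y = -(Y * R) := by rw [hR, hY, ← map_mul, hry, map_mul, hEz, map_mul]; simp
  have eT : T * T * T = -1 := by rw [hT, ← map_mul, ← map_mul, hv3, hEz]
  have eTY : T * Y = -(R * T) := by
    rw [hT, hY, hR, ← map_mul, hvy, map_mul, map_mul, hEz, neg_one_mul, neg_mul]
  have eTR : T * R = Y * R * T := by rw [hT, hY, hR, ← map_mul, hvr, map_mul, map_mul]
  -- products of generators, in normal form
  have sY : ∀ X, Y * (Y * X) = -X := fun X => by rw [← mul_assoc, eY, neg_one_mul]
  have sR : ∀ X, R * (R * X) = -X := fun X => by rw [← mul_assoc, eR, neg_one_mul]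
  have sRY : ∀ X, R * (Y * X) = -(Y * (R * X)) := fun X => by rw [← mul_assoc, eRY, neg_mul, mul_assoc]
  have sTY : ∀ X, T * (Y * X) = -(R * (T * X)) := fun X => by rw [← mul_assoc, eTY, neg_mul, mul_assoc]
  have sTR : ∀ X, T * (R * X) = Y * (R * (T * X)) := fun X => by rw [← mul_assoc, eTR, mul_assoc, mul_assoc]
  have hcancel : ∀ A : AddMonoid.End V, A + A = 0 → A = 0 := fun A hA =>
    DFunLike.ext _ _ fun x => h2 _ (congrArg (fun B : AddMonoid.End V => B x) hA)
  have eT2 : T * T - T + 1 = 0 := by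
    have h1 : (T + 1) * (T * T - T + 1) = 0 := by
      have : (T + 1) * (T * T - T + 1) = T * T * T + 1 := by noncomm_ring
      rw [this, eT, neg_add_cancel]
    refine DFunLike.ext _ _ fun x => ?_
    set u := (T * T - T + 1) x
    have hu : T u + u = 0 := congrArg (fun B : AddMonoid.End V => B x) h1
    by_contra hu0
    refine hvz ?_
    refine h.apply_injective hu0 ?_
    show (v : Equiv.Perm V) u = (z : Equiv.Perm V) u
    rw [hz]
    exact eq_neg_of_add_eq_zero_left hu
  set S : AddMonoid.End V := 1 + Y - R - Y * R with hS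
  set S' : AddMonoid.End V := 1 - Y + R + Y * R with hS'
  have sYR : ∀ X, R * (Y * (R * X)) = Y * X := fun X => by rw [sRY, sR, mul_neg, neg_neg]
  have eYR : R * (Y * R) = Y := by simpa using sYR 1
  have eTS : T * S = S * T := by
    simp only [hS, mul_add, mul_sub, add_mul, sub_mul, mul_one, one_mul, mul_assoc, eTY, eTR, sTY, sTR, sR, sRY, sYR, mul_neg, neg_neg]
    abel
  have eTS' : T * S' = S' * T := by
    simp only [hS', mul_add, mul_sub, add_mul, sub_mul, mul_one, one_mul, mul_assoc, eTY, eTR, sTY, sTR, sR, sRY, sYR, mul_neg, neg_neg]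
    abel
  have eSS' : S * S' = 1 + 1 + 1 + 1 := by
    simp only [hS, hS', mul_add, mul_sub, add_mul, sub_mul, mul_one, one_mul, mul_assoc, eY, eR, eRY, sY, sR, sRY,
      sYR, eYR, mul_neg, neg_mul, neg_neg]
    abel
  have eS'S : S' * S = 1 + 1 + 1 + 1 := by
    simp only [hS, hS', mul_add, mul_sub, add_mul, sub_mul, mul_one, one_mul, mul_assoc, eY, eR, eRY, sY, sR, sRY,
      sYR, eYR, mul_neg, neg_mul, neg_neg]
    abel
  set C : AddMonoid.End V := T * S' with hC
  have eCY : C * Y = Y * C := by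
    simp only [hC, hS', mul_add, mul_sub, add_mul, sub_mul, mul_one, one_mul, mul_assoc, eY, eR, eRY, eTY, eTR, sY, sR,
      sRY, sTY, sTR, sYR, eYR, mul_neg, neg_mul, neg_neg]
    abel
  have eCS : C * S = S * C := by
    rw [hC, mul_assoc, eS'S, ← mul_assoc, ← eTS, mul_assoc, eSS']
  have hc2 : ∀ A : AddMonoid.End V, 2 * A = 0 → A = 0 := fun A hA => hcancel A (by rwa [← two_mul])
  have h4 : S * S = 2 * S - 4 := by
    have h5 : S' = 2 - S := by rw [hS, hS', ← one_add_one_eq_two]; abel
    have h6 : S * (2 - S) = 4 := by rw [← h5, eSS']; norm_num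
    calc S * S = 2 * S - S * (2 - S) := by noncomm_ring
      _ = 2 * S - 4 := by rw [h6]
  have hCS : C * S = 4 * T := by rw [hC, mul_assoc, eS'S]; noncomm_ring
  have hq : (C - 2) * (C * S - 2 * (C + 2)) = 0 := by
    refine hc2 _ ?_
    calc 2 * ((C - 2) * (C * S - 2 * (C + 2))) = C * C * (2 * S - 4) - 4 * (C * S) + 16 := by (noncomm_ring; try norm_num)
      _ = C * (C * S) * S - 4 * (C * S) + 16 := by rw [← h4]; noncomm_ring
      _ = 4 * (C * T * S) - 4 * (4 * T) + 16 := by rw [hCS]; noncomm_ring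
      _ = 4 * (T * S' * (T * S)) - 4 * (4 * T) + 16 := by rw [hC]; noncomm_ring
      _ = 4 * (T * (S' * S) * T) - 4 * (4 * T) + 16 := by rw [eTS]; noncomm_ring
      _ = 16 * (T * T - T + 1) := by rw [eS'S]; (noncomm_ring; try norm_num)
      _ = 0 := by rw [eT2, mul_zero]
  have hY2 : (C - 2) * C * (Y * S - S * Y) = 0 := by
    have e1 : Y * (C - 2) = (C - 2) * Y := by rw [mul_sub, sub_mul, eCY]; noncomm_ring
    have e2 : (C - 2) * C * (Y * S - S * Y) =
        Y * ((C - 2) * (C * S - 2 * (C + 2))) - (C - 2) * (C * S - 2 * (C + 2)) * Y := by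
      rw [← mul_assoc Y, e1]
      calc (C - 2) * C * (Y * S - S * Y) = (C - 2) * ((C * Y) * S - C * S * Y - 2 * (C * Y - C * Y)) := by noncomm_ring
        _ = (C - 2) * ((Y * C) * S - C * S * Y - 2 * (Y * C - C * Y)) := by rw [eCY]
        _ = _ := by noncomm_ring
    rw [e2, hq, mul_zero, zero_mul, sub_zero]
  have hYS : (Y * S - S * Y) * (R - Y * R) = -4 := by
    simp only [hS, mul_add, mul_sub, add_mul, sub_mul, mul_one, one_mul, mul_assoc, eY, eR, eRY, sY, sR, sRY,
      sYR, eYR, mul_neg, neg_mul, neg_neg]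
    abel_nf
    norm_num
  have hC2 : (C - 2) * C = 0 := by
    refine hc2 _ (hc2 _ ?_)
    calc 2 * (2 * ((C - 2) * C)) = -((C - 2) * C * (-4)) := by noncomm_ring
      _ = -((C - 2) * C * ((Y * S - S * Y) * (R - Y * R))) := by rw [hYS]
      _ = -(((C - 2) * C * (Y * S - S * Y)) * (R - Y * R)) := by noncomm_ring
      _ = 0 := by rw [hY2, zero_mul, neg_zero]
  have hCeq : C = 2 := by
    refine sub_eq_zero.mp (hc2 _ (hc2 _ ?_))
    have e1 : C * (S * (-(T * T))) = 4 := by
      calc C * (S * (-(T * T))) = -(T * (S' * S) * (T * T)) := by rw [hC]; noncomm_ring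
        _ = -(4 * (T * T * T)) := by rw [eS'S]; noncomm_ring
        _ = 4 := by rw [eT]; (noncomm_ring; try norm_num)
    calc 2 * (2 * (C - 2)) = (C - 2) * 4 := by noncomm_ring
      _ = (C - 2) * (C * (S * (-(T * T)))) := by rw [e1]
      _ = ((C - 2) * C) * (S * (-(T * T))) := by noncomm_ring
      _ = 0 := by rw [hC2, zero_mul]
  have hfin : T + T = S := by
    refine sub_eq_zero.mp (hc2 _ ?_)
    calc 2 * (T + T - S) = 4 * T - 2 * S := by noncomm_ring
      _ = 0 := by rw [← hCS, hCeq, sub_self]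
  exact congrArg (fun B : AddMonoid.End V => B x) hfin

/-- A swap does not normalise a binary tetrahedral configuration of scalars. -/
theorem Swap.no_tetra (h : Swap G w e) {z y r v : scalars G} (hz : ∀ x, (z : Equiv.Perm V) x = -x) (hy : y * y = z)
    (hr : r * r = z) (hry : r * y = z * (y * r)) (hv3 : v * v * v = z) (hvz : v ≠ z) (hvy : v * y = z * r * v)
    (hvr : v * r = y * r * v) (hty : h.theta y = z * y) (htr : h.theta r = r * y) : False := by
  have hzz : ∀ u : scalars G, ∀ x : V, ((z * u : scalars G) : Equiv.Perm V) x = -((u : Equiv.Perm V) x) :=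
    fun u x => hz _
  have hmul : ∀ u u' : scalars G, ∀ x : V,
      ((u * u' : scalars G) : Equiv.Perm V) x = (u : Equiv.Perm V) ((u' : Equiv.Perm V) x) := fun u u' x => rfl
  have hy2 : ∀ x, (y : Equiv.Perm V) ((y : Equiv.Perm V) x) = -x := fun x => by rw [← hmul, hy, hz]
  have hr2 : ∀ x, (r : Equiv.Perm V) ((r : Equiv.Perm V) x) = -x := fun x => by rw [← hmul, hr, hz]
  have hry' : ∀ x, (r : Equiv.Perm V) ((y : Equiv.Perm V) x) = -(y : Equiv.Perm V) ((r : Equiv.Perm V) x) :=
    fun x => by rw [← hmul, hry, hzz, hmul]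
  have hz2 : h.theta z = z := (h.fix_neg hz).1
  have hz1 : z ≠ 1 := fun e1 => h.ne (h.two_ne (by
    have := hz e
    rw [e1, Subgroup.coe_one, Equiv.Perm.one_apply] at this
    nth_rewrite 1 [this]
    rw [neg_add_cancel]))
  have hrz : r ≠ z := fun e1 => by
    rw [e1] at hr
    exact hz1 (mul_eq_left.mp hr)
  set r' := h.theta r with hr'
  have hne : e + (r : Equiv.Perm V) e ≠ 0 := fun e1 =>
    hrz (h.coord.apply_injective h.ne ((eq_neg_of_add_eq_zero_right e1).trans (hz e).symm))
  obtain ⟨a, ha⟩ : ∃ a, w (some (e + (r : Equiv.Perm V) e)) = some a := by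
    obtain ⟨a, ha⟩ := Option.ne_none_iff_exists'.mp fun e1 : w (some (e + (r : Equiv.Perm V) e)) = none =>
      hne (Option.some_injective _ (w.injective (e1.trans h.w1.symm)))
    exact ⟨a, ha⟩
  have hwu : ∀ u : scalars G, w (some ((u : Equiv.Perm V) e)) = some ((h.theta u : Equiv.Perm V) e) := fun u => by
    have := h.apply_scalar u (some e)
    rwa [h.fix, sc_some, sc_some] at this
  have hb : w (some ((r' : Equiv.Perm V) e + e)) = some (-a + e) := by
    have := h.equation hz (some ((r : Equiv.Perm V) e))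
    rwa [hwu, tr_some, tr_some, add_comm ((r : Equiv.Perm V) e) e, ha, sc_some, hz, tr_some] at this
  have hzr : ∀ u : scalars G, h.theta (z * u) = z * h.theta u := fun u => by rw [map_mul, hz2]
  have hlin : (r : Equiv.Perm V) a - (r' : Equiv.Perm V) a = e + (r : Equiv.Perm V) e := by
    have h1 := h.equation hz (some (((z * r : scalars G) : Equiv.Perm V) e))
    rw [hwu, hzr, tr_some, tr_some] at h1
    have e1 : ((z * r : scalars G) : Equiv.Perm V) e + e =
        ((z * r : scalars G) : Equiv.Perm V) (e + (r : Equiv.Perm V) e) := by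
      rw [map_add_scalar, hzz, hzz, hr2, neg_neg]
    have e2 : ((z * r' : scalars G) : Equiv.Perm V) e + e =
        ((z * r' : scalars G) : Equiv.Perm V) ((r' : Equiv.Perm V) e + e) := by
      have hr'2 : r' * r' = z := by rw [hr', ← map_mul, hr, hz2]
      rw [map_add_scalar, hzz, hzz, ← hmul, hr'2, hz, neg_neg, add_comm]
    rw [e1, e2] at h1
    have a1 := h.apply_scalar (z * r) (some (e + (r : Equiv.Perm V) e))
    rw [hzr, ha, sc_some, sc_some] at a1
    have a2 := h.apply_scalar (z * r') (some ((r' : Equiv.Perm V) e + e))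
    rw [hzr, hr', h.theta_theta, ← hr', hb, sc_some, sc_some] at a2
    rw [a1, a2, sc_some, hz, tr_some, Option.some_inj, hzz, hzz, map_add_scalar, map_neg_scalar, neg_neg] at h1
    rw [neg_add, neg_neg] at h1
    rw [sub_eq_iff_eq_add, ← sub_eq_zero]
    rw [← sub_eq_zero] at h1
    rw [← h1]; abel
  have htv := unit_eq h.coord (fun x hx => h.two_ne hx) hz hy hr hry hv3 hvz hvy hvr e
  have hlin2 : (a - (y : Equiv.Perm V) a) = e - (r : Equiv.Perm V) e := by
    have e1 := congrArg (fun x => (r : Equiv.Perm V) x) hlin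
    simp only [htr, hr', hmul, map_sub_scalar, map_add_scalar, hr2] at e1
    rw [← sub_eq_zero] at e1 ⊢
    calc _ = -((-a - -(y : Equiv.Perm V) a) - ((r : Equiv.Perm V) e + -e)) := by abel
      _ = 0 := by rw [e1, neg_zero]
  have hlin3 : a + (y : Equiv.Perm V) a = (y : Equiv.Perm V) e - (y : Equiv.Perm V) ((r : Equiv.Perm V) e) := by
    rw [← map_sub_scalar, ← hlin2, map_sub_scalar, hy2, sub_neg_eq_add, add_comm]
  have hav : a = (v : Equiv.Perm V) e := by
    refine sub_eq_zero.mp (h.two_ne ?_)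
    calc a - (v : Equiv.Perm V) e + (a - (v : Equiv.Perm V) e)
        = (a - (y : Equiv.Perm V) a) + (a + (y : Equiv.Perm V) a) -
          ((v : Equiv.Perm V) e + (v : Equiv.Perm V) e) := by abel
      _ = 0 := by rw [hlin2, hlin3, htv]; abel
  have hback : (h.theta v : Equiv.Perm V) e = e + (r : Equiv.Perm V) e := by
    have := congrArg w ha
    rw [h.apply_apply, hav, hwu] at this
    exact (Option.some_injective _ this).symm
  have htv' := unit_eq h.coord (fun x hx => h.two_ne hx) hz (y := h.theta y) (r := r') (v := h.theta v)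
    (by rw [← map_mul, hy, hz2]) (by rw [hr', ← map_mul, hr, hz2])
    (by rw [hr', ← map_mul, hry, map_mul, map_mul, hz2]) (by rw [← map_mul, ← map_mul, hv3, hz2])
    (fun e1 => hvz (by rw [← h.theta_theta v, e1, hz2]))
    (by rw [hr', ← map_mul, hvy, map_mul, map_mul, hz2]) (by rw [hr', ← map_mul, hvr, map_mul, map_mul]) e
  rw [hback] at htv'
  simp only [hty, htr, hr', hzz, hmul, hry', map_neg_scalar, hy2, neg_neg] at htv'
  set Ye := (y : Equiv.Perm V) e with hYe
  set Re := (r : Equiv.Perm V) e with hRe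
  set YRe := (y : Equiv.Perm V) Re with hYRe
  have k1 : e + Re + Ye - YRe = 0 := by
    rw [← sub_eq_zero] at htv'
    rw [← htv']; abel
  have k2 := congrArg (fun x => (y : Equiv.Perm V) x) k1
  simp only [map_sub_scalar, map_add_scalar, map_zero_scalar, ← hYe, ← hYRe] at k2
  simp only [hYe, hYRe, hy2] at k2
  rw [← hYe, ← hYRe] at k2
  have k3 : Ye + Re = 0 := h.two_ne (by
    calc Ye + Re + (Ye + Re) = (e + Re + Ye - YRe) + (Ye + YRe + -e - -Re) := by abel
      _ = 0 := by rw [k1, k2, add_zero])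
  have hyr : y = z * r := h.coord.apply_injective h.ne (by
    show Ye = ((z * r : scalars G) : Equiv.Perm V) e
    rw [hzz]; exact eq_neg_of_add_eq_zero_left k3)
  have hc : z * r = r * z := by rw [← hr, mul_assoc]
  rw [hyr, ← mul_assoc r, ← hc, mul_assoc z r r, hr] at hry
  have h1 : z * z = 1 := Subtype.ext (Equiv.ext fun x => by simp [hz])
  rw [h1, mul_one] at hry
  exact hz1 hry.symm

end CfsgLib.Zas
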