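import Mathlib
import Cfsg.Agent.Zas.Near

/-!
Eight scalars stable under a swap are not permuted non-trivially by a scalar of order three.
-/

set_option autoImplicit false

namespace CfsgLib.Zas

universe u

variable {V : Type u} [AddCommGroup V] [Finite V] {G : Subgroup (Equiv.Perm (Option V))}
  {w : Equiv.Perm (Option V)} {e : V}

theorem Swap.tetra_contra (h : Swap G w e) {P : Subgroup (scalars G)} (hP8 : Nat.card P = 8)
    (hPθ : ∀ p ∈ P, h.theta p ∈ P) {u : scalars G} (hu3 : u * u * u = 1) (hu : ∀ p ∈ P, u * p * u⁻¹ ∈ P)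
    (hnc : ∀ p ∈ P, orderOf p = 4 → ¬ Commute u p) : False := by
  classical
  haveI : Fact (Nat.Prime 2) := ⟨Nat.prime_two⟩
  obtain ⟨z, hz1, hz⟩ := h.exists_neg
  have hz2 : z * z = 1 := Subtype.ext (Equiv.ext fun x => by simp [hz])
  have hθz : h.theta z = z := (h.fix_neg hz).1
  have hinv : ∀ a : scalars G, a * a = 1 → a = 1 ∨ a = z := fun a ha => or_iff_not_imp_left.mpr fun ha1 =>
    Subtype.ext (Equiv.ext fun v => by
      rw [hz]
      by_contra hne
      refine ha1 (h.coord.free a (v + (a : Equiv.Perm V) v) (fun e => hne (eq_neg_of_add_eq_zero_right e)) ?_)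
      rw [map_add_scalar, ← Equiv.Perm.mul_apply, ← Subgroup.coe_mul, ha, Subgroup.coe_one, Equiv.Perm.one_apply,
        add_comm])
  have hzc : ∀ a : scalars G, z * a = a * z := fun a => Subtype.ext (Equiv.ext fun x => by
    simp [hz, map_neg_scalar])
  have hzin : ∀ a : scalars G, a * z * a⁻¹ = z := fun a => by rw [← hzc, mul_inv_cancel_right]
  have hzP : z ∈ P := by
    obtain ⟨q, hq⟩ := exists_prime_orderOf_dvd_card' (G := P) 2 (by rw [hP8]; norm_num)
    have hq1 : (q : scalars G) ≠ 1 := fun e => by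
      rw [show q = 1 from Subtype.ext e, orderOf_one] at hq
      omega
    have hqq : (q : scalars G) * q = 1 := by
      have := pow_orderOf_eq_one q
      rw [hq, pow_two] at this
      exact congrArg Subtype.val this
    exact (hinv _ hqq).resolve_left hq1 ▸ q.2
  have hord : ∀ p ∈ P, p ≠ 1 → p ≠ z → p * p = z := by
    intro p hp hp1 hpz
    have hpp : p * p ≠ 1 := fun e => (hinv p e).elim hp1 hpz
    refine (hinv _ ?_).resolve_left hpp
    by_contra h4
    -- otherwise the order is eight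
    have hd : orderOf p ∣ 8 := by rw [← hP8]; exact Subgroup.orderOf_dvd_natCard P hp
    have h8 : orderOf p = 8 := by
      obtain ⟨i, hi3, hi⟩ := (Nat.dvd_prime_pow Nat.prime_two).mp (show orderOf p ∣ 2 ^ 3 by simpa using hd)
      rcases Nat.lt_or_ge i 3 with hlt | hge
      · exfalso
        refine h4 ?_
        have hp4 : p ^ 4 = 1 := orderOf_dvd_iff_pow_eq_one.mp (hi ▸ (show 2 ^ i ∣ 2 ^ 2 from pow_dvd_pow 2 (by omega)))
        rw [← hp4]; simp [pow_succ, mul_assoc]
      · rw [hi, show i = 3 by omega]; norm_num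
    have hgen : Subgroup.zpowers p = P := Subgroup.eq_of_le_of_card_ge (Subgroup.zpowers_le.mpr hp)
      (by rw [Nat.card_zpowers, h8, hP8])
    obtain ⟨i, hi⟩ := Subgroup.mem_zpowers_iff.mp (hgen ▸ hu p hp : u * p * u⁻¹ ∈ Subgroup.zpowers p)
    set x := p * p with hx
    have hx4 : orderOf x = 4 := by rw [hx, ← pow_two, orderOf_pow, h8]; decide
    have hux : u * x * u⁻¹ = x ^ i := by
      rw [hx, (Commute.refl p).mul_zpow, hi]; group
    have hsq : u * u * x * (u * u)⁻¹ = x ^ (i * i) := by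
      rw [show u * u * x * (u * u)⁻¹ = u * (u * x * u⁻¹) * u⁻¹ by group, hux, ← conj_zpow, hux, zpow_mul]
    have hii : x ^ (i * i) = x := by
      have hp' : orderOf (p ^ i) = 8 := by rw [hi, ← MulAut.conj_apply, MulEquiv.orderOf_eq, h8]
      have hodd : Odd i := by
        by_contra he
        rw [Int.not_odd_iff_even] at he
        obtain ⟨t, rfl⟩ := he
        have e1 : (p ^ (t + t)) ^ 4 = 1 := by
          rw [← zpow_natCast, ← zpow_mul]
          refine orderOf_dvd_iff_zpow_eq_one.mp ?_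
          rw [h8]; exact ⟨t, by push_cast; ring⟩
        have h5 := orderOf_dvd_of_pow_eq_one e1
        rw [hp'] at h5
        exact absurd h5 (by norm_num)
      obtain ⟨t, ht⟩ := hodd
      conv_rhs => rw [← zpow_one x]
      rw [← orderOf_dvd_sub_iff_zpow_eq_zpow, hx4]
      exact ⟨t * t + t, by rw [ht]; push_cast; ring⟩
    rw [hii] at hsq
    refine hnc x (P.mul_mem hp hp) hx4 ?_
    have h3 : u = (u * u)⁻¹ := eq_inv_of_mul_eq_one_left (by rw [← mul_assoc]; exact hu3)
    rw [h3]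
    exact Commute.inv_left (a := u * u) (mul_inv_eq_iff_eq_mul.mp hsq)
  have hord4 : ∀ p ∈ P, p ≠ 1 → p ≠ z → orderOf p = 4 := fun p hp hp1 hpz => by
    refine orderOf_eq_prime_pow (p := 2) (n := 1) ?_ ?_
    · rw [pow_one, pow_two, hord p hp hp1 hpz]; exact hz1
    · rw [show (2 : ℕ) ^ (1 + 1) = 2 * 2 from rfl, pow_mul]; simp only [pow_two, hord p hp hp1 hpz, hz2]
  have hzm : ∀ a : scalars G, z * (z * a) = a := fun a => by rw [← mul_assoc, hz2, one_mul]
  have hne0 : ∀ p : scalars G, p * p = z → p ≠ 1 ∧ p ≠ z := fun p hp =>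
    ⟨fun e => hz1 (by rw [← hp, e, one_mul]), fun e => hz1 (by rw [← hp, e, hz2])⟩
  have hanti : ∀ p ∈ P, ∀ q ∈ P, p * p = z → q * q = z → q ≠ p → q ≠ z * p → q * p = z * (p * q) := by
    intro p hp q hq hpp hqq hne hne'
    have hqi : p * (z * p) = 1 := by rw [← mul_assoc, ← hzc, mul_assoc, hpp, hz2]
    have h1 : q * p ≠ 1 := fun e => hne' (by rw [← mul_one q, ← hqi, ← mul_assoc, e, one_mul])
    have h2 : q * p ≠ z := fun e => hne (by
      rw [← mul_one q, ← hqi, ← mul_assoc, e, ← mul_assoc, hz2, one_mul])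
    have h3 := hord (q * p) (P.mul_mem hq hp) h1 h2
    calc q * p = q * p * (q * p) * (p⁻¹ * q⁻¹) := by group
      _ = z * ((z * p) * (z * q)) := by
        rw [h3, inv_eq_of_mul_eq_one_right hqi, inv_eq_of_mul_eq_one_right (show q * (z * q) = 1 by
          rw [← mul_assoc, ← hzc, mul_assoc, hqq, hz2])]
      _ = z * (p * q) := by rw [mul_assoc, ← mul_assoc p, ← hzc p, mul_assoc, hzm]
  obtain ⟨p0, hp0, hp01, hp0z⟩ : ∃ p ∈ P, p ≠ 1 ∧ p ≠ z := by
    by_contra hc
    push Not at hc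
    have : Nat.card P ≤ 2 := by
      haveI := Fintype.ofFinite P
      rw [Nat.card_eq_fintype_card, ← Finset.card_univ]
      refine (Finset.card_le_card_of_injOn (t := ({1, z} : Finset (scalars G))) (fun p : P => (p : scalars G))
        (fun p _ => ?_) (fun a _ b _ e => Subtype.ext e)).trans Finset.card_le_two
      rcases eq_or_ne (p : scalars G) 1 with e1 | e1
      · simp [e1]
      · simp [hc p p.2 e1]
    omega
  -- the fixed axis
  obtain ⟨y, hy, hyy, hθy⟩ : ∃ y ∈ P, y * y = z ∧ h.theta y = z * y := by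
    by_cases hfix : h.theta p0 = z * p0
    · exact ⟨p0, hp0, hord p0 hp0 hp01 hp0z, hfix⟩
    · have hne : h.theta p0 ≠ p0 := fun e1 => (h.fixed_theta hz e1).elim hp01 hp0z
      have hpp := hord p0 hp0 hp01 hp0z
      have hqq : h.theta p0 * h.theta p0 = z := by rw [← map_mul, hpp, hθz]
      have hanti' := hanti p0 hp0 _ (hPθ p0 hp0) hpp hqq hne hfix
      have h1 : p0 * h.theta p0 ≠ 1 := fun e1 => hfix (by
        calc h.theta p0 = z * (z * h.theta p0) := (hzm _).symm
          _ = z * (p0 * p0 * h.theta p0) := by rw [hpp]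
          _ = z * p0 := by rw [mul_assoc p0, e1, mul_one])
      have h2 : p0 * h.theta p0 ≠ z := fun e1 => hne (by
        calc h.theta p0 = z * (z * h.theta p0) := (hzm _).symm
          _ = z * (p0 * p0 * h.theta p0) := by rw [hpp]
          _ = z * (p0 * z) := by rw [mul_assoc p0, e1]
          _ = p0 := by rw [← hzc, hzm])
      refine ⟨p0 * h.theta p0, P.mul_mem hp0 (hPθ _ hp0), hord _ (P.mul_mem hp0 (hPθ _ hp0)) h1 h2, ?_⟩
      rw [map_mul, h.theta_theta, hanti']
  obtain ⟨hy1, hyz⟩ := hne0 y hyy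
  obtain ⟨r, hr, hr1, hrz, hry, hryz⟩ : ∃ r ∈ P, r ≠ 1 ∧ r ≠ z ∧ r ≠ y ∧ r ≠ z * y := by
    by_contra hc
    push Not at hc
    have : Nat.card P ≤ 4 := by
      haveI := Fintype.ofFinite P
      rw [Nat.card_eq_fintype_card, ← Finset.card_univ]
      refine (Finset.card_le_card_of_injOn (t := ({1, z, y, z * y} : Finset (scalars G))) (fun p : P => (p : scalars G))
        (fun p _ => ?_) (fun a _ b _ e => Subtype.ext e)).trans Finset.card_le_four
      rcases eq_or_ne (p : scalars G) 1 with e1 | e1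
      · simp [e1]
      rcases eq_or_ne (p : scalars G) z with e2 | e2
      · simp [e2]
      rcases eq_or_ne (p : scalars G) y with e3 | e3
      · simp [e3]
      simp [hc p p.2 e1 e2 e3]
    omega
  have hrr := hord r hr hr1 hrz
  have hrel := hanti y hy r hr hyy hrr hry hryz
  have hzy : (z * y) * (z * y) = z := by rw [mul_assoc, ← mul_assoc y, ← hzc, mul_assoc z y y, hyy, hzm]
  -- the eight elements
  have hcover : ∀ p ∈ P, p = 1 ∨ p = z ∨ p = y ∨ p = z * y ∨ p = r ∨ p = z * r ∨ p = y * r ∨ p = z * (y * r) := by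
    intro p hp
    have hz0 : ∀ a : scalars G, a ≠ z * a := fun a e1 => hz1 (mul_eq_right.mp e1.symm)
    have hyr1 : y * r ≠ 1 := fun e1 => hryz (by
      calc r = z * (z * r) := (hzm _).symm
        _ = z * (y * (y * r)) := by rw [← mul_assoc y, hyy]
        _ = z * y := by rw [e1, mul_one])
    have hyrz : y * r ≠ z := fun e1 => hry (by
      calc r = z * (z * r) := (hzm _).symm
        _ = z * (y * (y * r)) := by rw [← mul_assoc y, hyy]
        _ = y := by rw [e1, ← hzc, hzm])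
    have hyry : y * r ≠ y := fun e1 => hr1 (mul_eq_left.mp e1)
    have hyrzy : y * r ≠ z * y := fun e1 => hrz (mul_left_cancel (e1.trans (hzc y)))
    have hyrr : y * r ≠ r := fun e1 => hy1 (mul_eq_right.mp e1)
    have hyrzr : y * r ≠ z * r := fun e1 => hyz (mul_right_cancel e1)
    have hS : ({1, z, y, z * y, r, z * r, y * r, z * (y * r)} : Finset (scalars G)).card = 8 := by
      have flip : ∀ a b : scalars G, a = z * b → z * a = b := fun a b e1 => by rw [e1, hzm]
      rw [Finset.card_insert_of_notMem, Finset.card_insert_of_notMem, Finset.card_insert_of_notMem,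
        Finset.card_insert_of_notMem, Finset.card_insert_of_notMem, Finset.card_insert_of_notMem,
        Finset.card_insert_of_notMem, Finset.card_singleton]
      all_goals simp only [Finset.mem_insert, Finset.mem_singleton, not_or]
      · exact hz0 _
      · exact ⟨fun e1 => hyrzr e1.symm, fun e1 => hyrr (mul_left_cancel e1).symm⟩
      · exact ⟨hz0 _, hyrr.symm, fun e1 => hyrzr (flip _ _ e1).symm⟩
      · exact ⟨fun e1 => hryz e1.symm, fun e1 => hry (mul_left_cancel e1).symm, fun e1 => hyrzy e1.symm,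
          fun e1 => hyry (mul_left_cancel e1).symm⟩
      · exact ⟨hz0 _, hry.symm, fun e1 => hryz (flip _ _ e1).symm, hyry.symm, fun e1 => hyrzy (flip _ _ e1).symm⟩
      · exact ⟨hyz.symm, fun e1 => hy1 (mul_eq_left.mp e1.symm), hrz.symm, fun e1 => hr1 (mul_eq_left.mp e1.symm),
          hyrz.symm, fun e1 => hyr1 (mul_eq_left.mp e1.symm)⟩
      · exact ⟨hz1.symm, hy1.symm, fun e1 => hyz (by rw [← hzm y, ← e1, mul_one]), hr1.symm,
          fun e1 => hrz (by rw [← hzm r, ← e1, mul_one]), hyr1.symm, fun e1 => hyrz (by rw [← hzm (y * r), ← e1, mul_one])⟩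
    have hsub : ∀ a ∈ ({1, z, y, z * y, r, z * r, y * r, z * (y * r)} : Finset (scalars G)), a ∈ P := by
      intro a ha
      simp only [Finset.mem_insert, Finset.mem_singleton] at ha
      rcases ha with rfl | rfl | rfl | rfl | rfl | rfl | rfl | rfl
      exacts [P.one_mem, hzP, hy, P.mul_mem hzP hy, hr, P.mul_mem hzP hr, P.mul_mem hy hr,
        P.mul_mem hzP (P.mul_mem hy hr)]
    haveI := Fintype.ofFinite (scalars G)
    have heq := Finset.eq_of_subset_of_card_le (t := Finset.univ.filter (· ∈ P))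
      (fun a ha => Finset.mem_filter.mpr ⟨Finset.mem_univ _, hsub a ha⟩)
      (by rw [hS, ← Fintype.card_subtype, ← Nat.card_eq_fintype_card]; exact hP8.le)
    have hm : p ∈ ({1, z, y, z * y, r, z * r, y * r, z * (y * r)} : Finset (scalars G)) :=
      heq ▸ Finset.mem_filter.mpr ⟨Finset.mem_univ _, hp⟩
    simpa only [Finset.mem_insert, Finset.mem_singleton] using hm
  -- the image of `r`
  have hθr : h.theta r = r * y ∨ h.theta r = r * (z * y) := by
    have hθz' : ∀ a, h.theta (z * a) = z * h.theta a := fun a => by rw [map_mul, hθz]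
    have hinj : ∀ a b, h.theta a = h.theta b → a = b := fun a b e1 => by
      rw [← h.theta_theta a, e1, h.theta_theta]
    rcases hcover _ (hPθ r hr) with e1 | e1 | e1 | e1 | e1 | e1 | e1 | e1
    · exact absurd (hinj r 1 (by rw [e1, map_one])) hr1
    · exact absurd (hinj r z (by rw [e1, hθz])) hrz
    · exact absurd (hinj r (z * y) (by rw [e1, hθz', hθy, hzm])) hryz
    · exact absurd (hinj r y (by rw [e1, hθy])) hry
    · exact ((h.fixed_theta hz e1).elim hr1 hrz).elim
    · exfalso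
      have hfix : h.theta (r * y) = r * y := by
        rw [map_mul, e1, hθy, mul_assoc, ← mul_assoc r, ← hzc r, mul_assoc z r y, hzm]
      rcases h.fixed_theta hz hfix with e2 | e2
      · exact hryz (by
          calc r = r * y * (z * y) := by rw [mul_assoc r, ← mul_assoc y, ← hzc, mul_assoc z y y, hyy, hz2, mul_one]
            _ = z * y := by rw [e2, one_mul])
      · exact hry (by
          calc r = r * y * (z * y) := by rw [mul_assoc r, ← mul_assoc y, ← hzc, mul_assoc z y y, hyy, hz2, mul_one]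
            _ = y := by rw [e2, hzm])
    · refine Or.inr ?_
      rw [e1, ← mul_assoc r z y, ← hzc, mul_assoc z r y, hrel, hzm]
    · exact Or.inl (e1.trans hrel.symm)
  have hzrel : r * (z * y) = z * ((z * y) * r) := by rw [← mul_assoc r, ← hzc, mul_assoc, hrel, mul_assoc z y r]
  obtain ⟨y', hy', hy'y, hθy', hr'y, hθr', hcover'⟩ : ∃ y' ∈ P, y' * y' = z ∧ h.theta y' = z * y' ∧
      r * y' = z * (y' * r) ∧ h.theta r = r * y' ∧ ∀ p ∈ P, p = 1 ∨ p = z ∨ p = y' ∨ p = z * y' ∨ p = r ∨ p = z * r ∨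
        p = y' * r ∨ p = z * (y' * r) := by
    rcases hθr with e1 | e1
    · exact ⟨y, hy, hyy, hθy, hrel, e1, hcover⟩
    · refine ⟨z * y, P.mul_mem hzP hy, hzy, by rw [map_mul, hθz, hθy], hzrel, e1, fun p hp => ?_⟩
      rw [hzm, mul_assoc z y r, hzm]
      rcases hcover p hp with e2 | e2 | e2 | e2 | e2 | e2 | e2 | e2 <;> simp [e2]
  clear hrel hzy hcover hθy hryz hry hy1 hyz hyy hy hzrel hθr y
  obtain ⟨hy'1, hy'z⟩ := hne0 y' hy'y
  -- normalising the element of order three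
  have hc : ∀ u' : scalars G, ∀ p, p * p = z → (u' * p * u'⁻¹) * (u' * p * u'⁻¹) = z := fun u' p hp => by
    rw [show u' * p * u'⁻¹ * (u' * p * u'⁻¹) = u' * (p * p) * u'⁻¹ by group, hp, hzin]
  have huz : ∀ a, u * (z * a) * u⁻¹ = z * (u * a * u⁻¹) := fun a => by
    rw [← mul_assoc u, ← hzc u]; group
  have hu4 : ∀ a, u * (u * (u * (u * a * u⁻¹) * u⁻¹) * u⁻¹) * u⁻¹ = u * a * u⁻¹ := fun a => by
    calc _ = u * ((u * u * u) * a * (u * u * u)⁻¹) * u⁻¹ := by group
      _ = _ := by rw [hu3]; group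
  have hnfix : ∀ p ∈ P, p * p = z → u * (u * p * u⁻¹) * u⁻¹ ≠ p ∧ u * (u * p * u⁻¹) * u⁻¹ ≠ z * p ∧
      u * p * u⁻¹ ≠ p ∧ u * p * u⁻¹ ≠ z * p := by
    intro p hp hpp
    have hnc' := hnc p hp (hord4 p hp (hne0 p hpp).1 (hne0 p hpp).2)
    have g1 : u * p * u⁻¹ ≠ p := fun e1 => hnc' (mul_inv_eq_iff_eq_mul.mp e1)
    have g2 : u * (u * p * u⁻¹) * u⁻¹ ≠ p := fun e1 => g1 (by
      have := hu4 p
      rwa [e1, e1, eq_comm] at this)
    have g4 : u * p * u⁻¹ ≠ z * p := fun e1 => g2 (by rw [e1, huz, e1, hzm])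
    refine ⟨g2, fun e1 => g1 ?_, g1, g4⟩
    have := hu4 p
    rw [e1, huz, huz, e1, hzm] at this
    exact this.symm
  obtain ⟨v₀, hv₀P, hv₀3, hv₀y⟩ : ∃ v : scalars G, (∀ p ∈ P, v * p * v⁻¹ ∈ P) ∧
      (∀ p ∈ P, p * p = z → v * p * v⁻¹ ≠ p ∧ v * p * v⁻¹ ≠ z * p ∧ v * (v * p * v⁻¹) * v⁻¹ ≠ p ∧
        v * (v * p * v⁻¹) * v⁻¹ ≠ z * p) ∧
      (v * v * v ∈ P ∧ (v * y' * v⁻¹ = r ∨ v * y' * v⁻¹ = z * r)) := by
    by_cases h0 : u * y' * u⁻¹ = r ∨ u * y' * u⁻¹ = z * r
    · exact ⟨u, hu, fun p hp hpp => ⟨(hnfix p hp hpp).2.2.1, (hnfix p hp hpp).2.2.2, (hnfix p hp hpp).1,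
        (hnfix p hp hpp).2.1⟩, by rw [hu3]; exact P.one_mem, h0⟩
    · have hsq : ∀ a, u * u * a * (u * u)⁻¹ = u * (u * a * u⁻¹) * u⁻¹ := fun a => by group
      refine ⟨u * u, fun p hp => by rw [hsq]; exact hu _ (hu p hp), fun p hp hpp => ?_, ?_, ?_⟩
      · obtain ⟨g1, g2, g3, g4⟩ := hnfix p hp hpp
        simp only [hsq]
        exact ⟨g1, g2, by rw [hu4]; exact g3, by rw [hu4]; exact g4⟩
      · rw [show u * u * (u * u) * (u * u) = u * u * u * (u * u * u) by group, hu3, one_mul]; exact P.one_mem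
      · rw [hsq]
        push Not at h0
        obtain ⟨g1, g2, g3, g4⟩ := hnfix y' hy' hy'y
        have hm := hu _ (hu y' hy')
        have h1z := hne0 _ (hc u _ (hc u y' hy'y))
        have hne1 : u * (u * y' * u⁻¹) * u⁻¹ ≠ u * y' * u⁻¹ := fun e1 => g3 (mul_left_cancel (mul_right_cancel e1))
        have hne2 : u * (u * y' * u⁻¹) * u⁻¹ ≠ z * (u * y' * u⁻¹) := fun e1 =>
          g4 (mul_left_cancel (mul_right_cancel (e1.trans (huz y').symm)))
        rcases hcover' _ (hu y' hy') with e1 | e1 | e1 | e1 | e1 | e1 | e1 | e1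
        · exact absurd e1 (hne0 _ (hc u y' hy'y)).1
        · exact absurd e1 (hne0 _ (hc u y' hy'y)).2
        · exact absurd e1 g3
        · exact absurd e1 g4
        · exact absurd e1 h0.1
        · exact absurd e1 h0.2
        all_goals
          rcases hcover' _ hm with e2 | e2 | e2 | e2 | e2 | e2 | e2 | e2
          · exact absurd e2 h1z.1
          · exact absurd e2 h1z.2
          · exact absurd e2 g1
          · exact absurd e2 g2
          · exact Or.inl e2
          · exact Or.inr e2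
          · first | exact absurd (e2.trans e1.symm) hne1 | exact absurd (e2.trans (by rw [e1, hzm])) hne2
          · first | exact absurd (e2.trans e1.symm) hne1 | exact absurd (e2.trans (by rw [e1])) hne2
  obtain ⟨hv₀cube, hv₀y⟩ := hv₀y
  -- fixing the signs
  have hri : r⁻¹ = z * r := inv_eq_of_mul_eq_one_right (by rw [← mul_assoc, ← hzc, mul_assoc, hrr, hz2])
  have hflip : r * y' * r⁻¹ = z * y' := by rw [hr'y]; group
  have hyi : y'⁻¹ = z * y' := inv_eq_of_mul_eq_one_right (by rw [← mul_assoc, ← hzc, mul_assoc, hy'y, hz2])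
  have hflip' : y' * r * y'⁻¹ = z * r := by
    have : y' * r = z * (r * y') := by rw [hr'y, hzm]
    rw [this]; group
  have hconjz : ∀ v a : scalars G, v * (z * a) * v⁻¹ = z * (v * a * v⁻¹) := fun v a => by
    rw [← mul_assoc v, ← hzc v]; group
  have hext : ∀ v : scalars G, (∀ p ∈ P, v * p * v⁻¹ ∈ P) → v * v * v ∈ P → ∀ p ∈ P,
      (∀ x ∈ P, v * p * x * (v * p)⁻¹ ∈ P) ∧ v * p * (v * p) * (v * p) ∈ P := by
    intro v hv hv3 p hp
    refine ⟨fun x hx => ?_, ?_⟩
    · rw [show v * p * x * (v * p)⁻¹ = v * (p * x * p⁻¹) * v⁻¹ by group]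
      exact hv _ (P.mul_mem (P.mul_mem hp hx) (P.inv_mem hp))
    · rw [show v * p * (v * p) * (v * p) = (v * p * v⁻¹) * (v * (v * p * v⁻¹) * v⁻¹) *
        (v * (v * (v * p * v⁻¹) * v⁻¹) * v⁻¹) * (v * v * v) by group]
      exact P.mul_mem (P.mul_mem (P.mul_mem (hv p hp) (hv _ (hv p hp))) (hv _ (hv _ (hv p hp)))) hv3
  obtain ⟨v₁, hv₁P, hv₁c, hv₁y, hv₁r⟩ : ∃ v : scalars G, (∀ p ∈ P, v * p * v⁻¹ ∈ P) ∧ v * v * v ∈ P ∧
      v * y' * v⁻¹ = z * r ∧ (v * r * v⁻¹ = y' * r ∨ v * r * v⁻¹ = z * (y' * r)) := by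
    have key : ∀ v : scalars G, (∀ p ∈ P, v * p * v⁻¹ ∈ P) → (v * y' * v⁻¹ = r ∨ v * y' * v⁻¹ = z * r) →
        (∀ p ∈ P, p * p = z → v * p * v⁻¹ ≠ p ∧ v * p * v⁻¹ ≠ z * p ∧ v * (v * p * v⁻¹) * v⁻¹ ≠ p ∧
          v * (v * p * v⁻¹) * v⁻¹ ≠ z * p) → (v * r * v⁻¹ = y' * r ∨ v * r * v⁻¹ = z * (y' * r)) := by
      intro v hv hvy hn
      obtain ⟨a1, a2, -, -⟩ := hn r hr hrr
      obtain ⟨-, -, b3, b4⟩ := hn y' hy' hy'y
      rcases hcover' _ (hv r hr) with e1 | e1 | e1 | e1 | e1 | e1 | e1 | e1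
      · exact absurd e1 (hne0 _ (hc v r hrr)).1
      · exact absurd e1 (hne0 _ (hc v r hrr)).2
      · rcases hvy with e2 | e2
        · exact absurd (by rw [e2, e1]) b3
        · exact absurd (by rw [e2, hconjz, e1]) b4
      · rcases hvy with e2 | e2
        · exact absurd (by rw [e2, e1]) b4
        · exact absurd (by rw [e2, hconjz, e1, hzm]) b3
      · exact absurd e1 a1
      · exact absurd e1 a2
      · exact Or.inl e1
      · exact Or.inr e1
    have hv₀r := key v₀ hv₀P hv₀y hv₀3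
    rcases hv₀y with e1 | e1
    · refine ⟨v₀ * r, (hext v₀ hv₀P hv₀cube r hr).1, (hext v₀ hv₀P hv₀cube r hr).2, ?_, ?_⟩
      · rw [show v₀ * r * y' * (v₀ * r)⁻¹ = v₀ * (r * y' * r⁻¹) * v₀⁻¹ by group, hflip, hconjz, e1]
      · rw [show v₀ * r * r * (v₀ * r)⁻¹ = v₀ * r * v₀⁻¹ by group]
        exact hv₀r
    · exact ⟨v₀, hv₀P, hv₀cube, e1, hv₀r⟩
  obtain ⟨v, hvc, hvy, hvr⟩ : ∃ v : scalars G, v * v * v ∈ P ∧ v * y' * v⁻¹ = z * r ∧
      v * r * v⁻¹ = y' * r := by
    rcases hv₁r with e1 | e1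
    · exact ⟨v₁, hv₁c, hv₁y, e1⟩
    · refine ⟨v₁ * y', (hext v₁ hv₁P hv₁c y' hy').2, ?_, ?_⟩
      · rw [show v₁ * y' * y' * (v₁ * y')⁻¹ = v₁ * y' * v₁⁻¹ by group, hv₁y]
      · rw [show v₁ * y' * r * (v₁ * y')⁻¹ = v₁ * (y' * r * y'⁻¹) * v₁⁻¹ by group, hflip', hconjz, e1, hzm]
  have hvyr : v * (y' * r) * v⁻¹ = z * y' := by
    rw [show v * (y' * r) * v⁻¹ = (v * y' * v⁻¹) * (v * r * v⁻¹) by group, hvy, hvr, mul_assoc z r, ← mul_assoc r,
      hr'y, mul_assoc, mul_assoc, hrr, hzm, hzc]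
  have hcy : v * v * v * y' * (v * v * v)⁻¹ = y' := by
    rw [show v * v * v * y' * (v * v * v)⁻¹ = v * (v * (v * y' * v⁻¹) * v⁻¹) * v⁻¹ by group, hvy, hconjz, hvr,
      hconjz, hvyr, hzm]
  have hcr : v * v * v * r * (v * v * v)⁻¹ = r := by
    rw [show v * v * v * r * (v * v * v)⁻¹ = v * (v * (v * r * v⁻¹) * v⁻¹) * v⁻¹ by group, hvr, hvyr,
      hconjz, hvy, hzm]
  have hcen : v * v * v = 1 ∨ v * v * v = z := by
    have hzconj : ∀ a b : scalars G, z * a * b * (z * a)⁻¹ = a * b * a⁻¹ := fun a b => by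
      rw [show z * a * b * (z * a)⁻¹ = z * (a * b * a⁻¹) * z⁻¹ by group, hzc, mul_inv_cancel_right]
    have hne : ∀ a : scalars G, z * a ≠ a := fun a e1 => hz1 (mul_eq_right.mp e1)
    have hyr' : y' * r * y' * (y' * r)⁻¹ = z * y' := by
      rw [show y' * r * y' * (y' * r)⁻¹ = y' * (r * y' * r⁻¹) * y'⁻¹ by group, hflip, hconjz, mul_inv_cancel_right]
    rcases hcover' _ hvc with e1 | e1 | e1 | e1 | e1 | e1 | e1 | e1
    · exact Or.inl e1
    · exact Or.inr e1
    all_goals exfalso; rw [e1] at hcy hcr; try rw [hzconj] at hcy hcr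
    · exact hne r (hflip'.symm.trans hcr)
    · exact hne r (hflip'.symm.trans hcr)
    · exact hne y' (hflip.symm.trans hcy)
    · exact hne y' (hflip.symm.trans hcy)
    · exact hne y' (hyr'.symm.trans hcy)
    · exact hne y' (hyr'.symm.trans hcy)
  rcases hcen with e1 | e1
  · refine h.no_tetra hz hy'y hrr hr'y (v := z * v) ?_ ?_ ?_ ?_ hθy' hθr'
    · have h3 : (z * v) ^ 3 = z ^ 3 * v ^ 3 := Commute.mul_pow (hzc v) 3
      simp only [pow_succ, pow_zero, one_mul] at h3
      rw [h3, hz2, e1, one_mul, mul_one]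
    · intro e2
      have hv1 : v = 1 := mul_eq_left.mp e2
      have e3 : y' = z * r := by rw [← hvy, hv1]; group
      have hc' : r * y' = y' * r := by rw [e3, ← mul_assoc, ← hzc r]
      rw [hc'] at hr'y
      exact hz1 (mul_eq_right.mp hr'y.symm)
    · rw [mul_assoc z v, mul_inv_eq_iff_eq_mul.mp hvy, ← mul_assoc z (z * r) v, hzc (z * r), mul_assoc]
    · rw [mul_assoc, mul_inv_eq_iff_eq_mul.mp hvr, ← mul_assoc z, hzc (y' * r)]; group
  · refine h.no_tetra hz hy'y hrr hr'y (v := v) e1 ?_ (mul_inv_eq_iff_eq_mul.mp hvy) (mul_inv_eq_iff_eq_mul.mp hvr)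
      hθy' hθr'
    intro e2
    have e3 : y' = z * r := by
      rw [← hvy, e2, hzc, mul_inv_cancel_right]
    have hc' : r * y' = y' * r := by rw [e3, ← mul_assoc, ← hzc r]
    rw [hc'] at hr'y
    exact hz1 (mul_eq_right.mp hr'y.symm)

end CfsgLib.Zas
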