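import Mathlib
import Cfsg.Agent.Zas.Tetra
import Cfsg.Agent.Zass.Split
import Cfsg.Agent.Zass.Str

/-!
In a sharply three-transitive group of odd characteristic the scalars have a subgroup of index two.
-/

set_option autoImplicit false

namespace CfsgLib.Zas

universe u

theorem exists_index_two_of_quot {D : Type*} [Group D] [Finite D] (N : Subgroup D) [N.Normal]
    (h2 : IsPGroup 2 (D ⧸ N)) (hN : N ≠ ⊤) : ∃ H : Subgroup D, H.index = 2 := by
  haveI : Fact (Nat.Prime 2) := ⟨Nat.prime_two⟩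
  obtain ⟨k, hk⟩ := IsPGroup.iff_card.mp h2
  have hk0 : k ≠ 0 := fun e => hN (by
    rw [← Subgroup.index_eq_one, Subgroup.index_eq_card, hk, e, pow_zero])
  obtain ⟨j, rfl⟩ : ∃ j, k = j + 1 := ⟨k - 1, by omega⟩
  obtain ⟨K, hK⟩ := Sylow.exists_subgroup_card_pow_prime 2 (n := j)
    (show 2 ^ j ∣ Nat.card (D ⧸ N) by rw [hk]; exact pow_dvd_pow 2 (Nat.le_succ j))
  refine ⟨K.comap (QuotientGroup.mk' N), ?_⟩
  rw [Subgroup.index_comap_of_surjective K (QuotientGroup.mk'_surjective N)]
  have h1 := K.card_mul_index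
  rw [hK, hk, pow_succ] at h1
  exact Nat.eq_of_mul_eq_mul_left (by positivity) h1

theorem normal_of_index_three {D : Type*} [Group D] [Finite D] (hno : ∀ H : Subgroup D, H.index ≠ 2)
    (M : Subgroup D) (hM : M.index = 3) : M.Normal := by
  classical
  haveI : Fintype (D ⧸ M) := Fintype.ofFinite _
  set f := MulAction.toPermHom D (D ⧸ M) with hf
  have hcore : M.normalCore = f.ker := M.normalCore_eq_ker
  have hperm : Nat.card (Equiv.Perm (D ⧸ M)) = 6 := by
    rw [Nat.card_perm, ← Subgroup.index_eq_card, hM]; rfl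
  have hdvd : Nat.card f.range ∣ 6 := hperm ▸ Subgroup.card_subgroup_dvd_card _
  have h3 : 3 ∣ Nat.card f.range := by
    rw [← Subgroup.index_ker, ← hcore, ← hM]
    exact Subgroup.index_dvd_of_le (Subgroup.normalCore_le M)
  have hcases : Nat.card f.range = 3 ∨ Nat.card f.range = 6 := by
    have := Nat.le_of_dvd (by norm_num) hdvd
    obtain ⟨c, hc⟩ := h3
    have h0 : 0 < Nat.card f.range := Nat.card_pos
    interval_cases (Nat.card f.range) <;> omega
  rcases hcases with h | h
  · have e : M.normalCore = M := Subgroup.eq_of_le_of_card_ge (Subgroup.normalCore_le M) (le_of_eq (by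
      have h1 := M.card_mul_index
      have h2 := M.normalCore.card_mul_index
      rw [hM] at h1
      rw [hcore, Subgroup.index_ker, h] at h2
      rw [hcore]
      omega))
    exact e ▸ M.normalCore_normal
  · exfalso
    have hsurj : Function.Surjective f := MonoidHom.range_eq_top.mp
      (Subgroup.eq_top_of_card_eq _ (h.trans hperm.symm))
    haveI : Nontrivial (D ⧸ M) := Finite.one_lt_card_iff_nontrivial.mp (by rw [← Subgroup.index_eq_card, hM]; norm_num)
    refine hno (Equiv.Perm.sign.comp f).ker ?_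
    rw [Subgroup.index_ker, MonoidHom.range_eq_top.mpr (show Function.Surjective (Equiv.Perm.sign.comp f) from
      (Equiv.Perm.sign_surjective _).comp hsurj), Subgroup.card_top]
    simp [Nat.card_eq_fintype_card]

theorem exists_sylow_fixed {D : Type*} [Group D] [Finite D] (θ : D →* D) (hθ : ∀ d, θ (θ d) = d) :
    ∃ P : Sylow 2 D, ∀ x ∈ (P : Subgroup D), θ x ∈ (P : Subgroup D) := by
  classical
  haveI : Fact (Nat.Prime 2) := ⟨Nat.prime_two⟩
  haveI := Fintype.ofFinite (Sylow 2 D)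
  have hsurj : Function.Surjective θ := fun d => ⟨θ d, hθ d⟩
  let σ : Equiv.Perm (Sylow 2 D) := Function.Involutive.toPerm (fun P => P.mapSurjective hsurj) fun P => Sylow.ext (by
    simp only [Sylow.coe_mapSurjective, Subgroup.map_map]
    rw [show θ.comp θ = MonoidHom.id D from MonoidHom.ext hθ, Subgroup.map_id])
  obtain ⟨P, hP⟩ := Equiv.Perm.exists_fixed_point_of_prime (p := 2) (n := 1) (by
    rw [← Nat.card_eq_fintype_card]
    exact not_dvd_card_sylow 2 D) (σ := σ) (by
    rw [pow_one, pow_two]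
    exact Equiv.ext fun P => Function.Involutive.toPerm_involutive _ P)
  refine ⟨P, fun x hx => ?_⟩
  have e : ((P.mapSurjective hsurj : Sylow 2 D) : Subgroup D) = P := congrArg (fun Q : Sylow 2 D => (Q : Subgroup D)) hP
  rw [Sylow.coe_mapSurjective] at e
  rw [← e]
  exact ⟨x, hx, rfl⟩

theorem commute_of_eight {D : Type*} [Group D] [Finite D] {P : Subgroup D} (hP8 : Nat.card P = 8) {u p : D}
    (hu : Odd (orderOf u)) (hnorm : ∀ q ∈ P, u * q * u⁻¹ ∈ P) (hp : p ∈ P) (h8 : orderOf p = 8) :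
    orderOf (p * p) = 4 ∧ Commute u (p * p) := by
  have hgen : Subgroup.zpowers p = P := Subgroup.eq_of_le_of_card_ge (Subgroup.zpowers_le.mpr hp)
    (by rw [Nat.card_zpowers, h8, hP8])
  obtain ⟨i, hi⟩ := Subgroup.mem_zpowers_iff.mp (hgen ▸ hnorm p hp : u * p * u⁻¹ ∈ Subgroup.zpowers p)
  set x := p * p with hx
  have hx4 : orderOf x = 4 := by rw [hx, ← pow_two, orderOf_pow, h8]; decide
  refine ⟨hx4, ?_⟩
  have hux : u * x * u⁻¹ = x ^ i := by rw [hx, (Commute.refl p).mul_zpow, hi]; group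
  have hp' : orderOf (p ^ i) = 8 := by rw [hi, ← MulAut.conj_apply, MulEquiv.orderOf_eq, h8]
  have hodd : Odd i := by
    by_contra he
    rw [Int.not_odd_iff_even] at he
    obtain ⟨t, rfl⟩ := he
    have e1 : (p ^ (t + t)) ^ 4 = 1 := by
      rw [← zpow_natCast, ← zpow_mul]
      refine orderOf_dvd_iff_zpow_eq_one.mp ?_
      rw [h8]; exact ⟨t, by push_cast; ring⟩
    have h5 := orderOf_dvd_of_pow_eq_one e1
    rw [hp'] at h5
    exact absurd h5 (by norm_num)
  have hii : x ^ (i * i) = x := by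
    obtain ⟨t, ht⟩ := hodd
    conv_rhs => rw [← zpow_one x]
    rw [← orderOf_dvd_sub_iff_zpow_eq_zpow, hx4]
    exact ⟨t * t + t, by rw [ht]; push_cast; ring⟩
  have hsq : u * u * x * (u * u)⁻¹ = x := by
    rw [show u * u * x * (u * u)⁻¹ = u * (u * x * u⁻¹) * u⁻¹ by group, hux, ← conj_zpow, hux, ← zpow_mul, hii]
  obtain ⟨k, hk⟩ := hu
  have : Commute ((u * u) ^ (k + 1)) x := Commute.pow_left (mul_inv_eq_iff_eq_mul.mp hsq) _
  rwa [← pow_two, ← pow_mul, show 2 * (k + 1) = orderOf u + 1 by omega, pow_succ, pow_orderOf_eq_one, one_mul] at this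

theorem commute_of_sq {D : Type*} [Group D] [Finite D] {u x : D} (hu : Odd (orderOf u)) (h : Commute (u * u) x) :
    Commute u x := by
  obtain ⟨k, hk⟩ := hu
  have := h.pow_left (k + 1)
  rwa [← pow_two, ← pow_mul, show 2 * (k + 1) = orderOf u + 1 by omega, pow_succ, pow_orderOf_eq_one, one_mul] at this

variable {V : Type u} [AddCommGroup V] [Finite V] {G : Subgroup (Equiv.Perm (Option V))}
  {w : Equiv.Perm (Option V)} {e : V}

theorem Swap.nontrivial_scalars (h : Swap G w e) : Nontrivial (scalars G) :=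
  let ⟨z, hz1, _⟩ := h.exists_neg
  ⟨⟨z, 1, hz1⟩⟩

theorem Swap.latFpf (h : Swap G w e) : CfsgLib.Frob.LatFpf (scalars G) := by
  haveI := h.nontrivial_scalars
  haveI : Nontrivial V := ⟨⟨e, 0, h.ne⟩⟩
  let φ : scalars G →* MulAut (Multiplicative V) := MonoidHom.mk' (fun a => AddEquiv.toMultiplicative (toAdd a))
    fun a b => MulEquiv.ext fun v => rfl
  refine CfsgLib.Zass.latFpf_of_aut φ fun a ha v hv => ?_
  by_contra hv1
  exact ha (h.coord.free a (Multiplicative.toAdd v) (fun e1 => hv1 (Multiplicative.toAdd.injective e1))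
    (congrArg Multiplicative.toAdd hv))

/-- Counting in the field generated by a central subgroup of index 24. -/
theorem Swap.not_three_dvd (h : Swap G w e) {N : Subgroup (scalars G)}
    (hN : ∀ d : scalars G, ∀ n ∈ N, d * n = n * d) (hodd : Odd (Nat.card N)) (h24 : N.index = 24)
    (hnc : ∃ a b : scalars G, a * b ≠ b * a) : ¬ 3 ∣ Nat.card N := by
  classical
  intro h3
  haveI : Nontrivial V := ⟨⟨e, 0, h.ne⟩⟩
  let A := Subring.closure (endOf '' (N : Set (scalars G)))
  letI : CommRing A := Subring.closureCommRingOfComm (by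
    rintro _ ⟨a, ha, rfl⟩ _ ⟨b, hb, rfl⟩
    rw [← map_mul, ← map_mul, hN a b hb])
  have hAd : ∀ a : A, ∀ d : scalars G, (a : AddMonoid.End V) * endOf d = endOf d * a := by
    intro a d
    have hle : A ≤ Subring.centralizer {endOf d} := Subring.closure_le.mpr (by
      rintro _ ⟨n, hn, rfl⟩
      refine Subring.mem_centralizer_iff.mpr fun g hg => ?_
      rw [Set.mem_singleton_iff] at hg
      rw [hg, ← map_mul, ← map_mul, hN d n hn])
    exact (Subring.mem_centralizer_iff.mp (hle a.2) _ rfl).symm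
  have hinj : ∀ a : A, a ≠ 0 → ∀ v, (a : AddMonoid.End V) v = 0 → v = 0 := by
    intro a ha v hv
    by_contra hv0
    refine ha (Subtype.ext (DFunLike.ext (F := AddMonoid.End V) _ _ fun x => ?_))
    show (a : AddMonoid.End V) x = 0
    rcases eq_or_ne x 0 with rfl | hx
    · exact map_zero (a : AddMonoid.End V)
    obtain ⟨d, hd⟩ := exists_apply_eq h.coord h.full hv0 hx
    rw [← hd]
    show ((a : AddMonoid.End V) * endOf d) v = 0
    rw [hAd]
    show endOf d ((a : AddMonoid.End V) v) = 0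
    rw [hv, map_zero]
  haveI : Nontrivial A := ⟨⟨0, 1, fun e1 => h.ne (congrArg (fun z : A => (z : AddMonoid.End V) e) e1).symm⟩⟩
  haveI : NoZeroDivisors A := ⟨fun {a b} hab => by
    rcases eq_or_ne a 0 with ha | ha
    · exact Or.inl ha
    · refine Or.inr (Subtype.ext (DFunLike.ext (F := AddMonoid.End V) _ _ fun v => hinj a ha _ ?_))
      show ((a * b : A) : AddMonoid.End V) v = 0
      rw [hab]; rfl⟩
  haveI : IsDomain A := NoZeroDivisors.to_isDomain A
  haveI : Finite A := Finite.of_injective (fun a : A => (a : AddMonoid.End V) e) fun a b hab => by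
    by_contra hne
    refine h.ne (hinj (a - b) (sub_ne_zero.mpr hne) e ?_)
    show (a : AddMonoid.End V) e - (b : AddMonoid.End V) e = 0
    exact sub_eq_zero.mpr hab
  haveI : Fintype A := Fintype.ofFinite A
  letI : Field A := Fintype.fieldOfDomain A
  letI : Module A V :=
    { smul := fun a v => (a : AddMonoid.End V) v
      one_smul := fun v => rfl
      mul_smul := fun a b v => rfl
      smul_zero := fun a => map_zero (a : AddMonoid.End V)
      smul_add := fun a v x => map_add (a : AddMonoid.End V) v x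
      add_smul := fun a b v => rfl
      zero_smul := fun v => rfl }
  haveI : Module.Finite A V := Module.Finite.of_finite
  have hs := Module.natCard_eq_pow_finrank (K := A) (V := V)
  set m := Module.finrank A V
  set s := Nat.card A
  -- the multiplicative group
  let ρ : N →* A :=
    { toFun := fun n => ⟨endOf (n : scalars G), Subring.subset_closure ⟨n, n.2, rfl⟩⟩
      map_one' := Subtype.ext (map_one (endOf (G := G)))
      map_mul' := fun a b => Subtype.ext (map_mul endOf (a : scalars G) b) }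
  have hρ : Function.Injective ρ.toHomUnits := fun a b hab => Subtype.ext (Subtype.ext (Equiv.ext fun x =>
    congrArg (fun z : Aˣ => ((z : A) : AddMonoid.End V) x) hab))
  have hn1 : Nat.card N ∣ s - 1 := by
    rw [show s - 1 = Nat.card Aˣ by rw [Nat.card_units]]
    exact Subgroup.card_dvd_of_injective _ hρ
  obtain ⟨k, hk⟩ := h.odd
  have hV3 : 3 ≤ Nat.card V := by
    have := Finite.one_lt_card_iff_nontrivial.mpr (inferInstance : Nontrivial V)
    omega
  have hm : 2 ≤ m := by
    by_contra hm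
    obtain ⟨a, b, hab⟩ := hnc
    rcases Nat.eq_zero_or_pos m with h0 | h0
    · rw [h0, pow_zero] at hs
      omega
    · have hm1 : m = 1 := by omega
      have hscal : ∀ d : scalars G, ∃ c : A, ∀ x : V, (d : Equiv.Perm V) x = (c : AddMonoid.End V) x := by
        intro d
        obtain ⟨c, hc⟩ := (finrank_eq_one_iff_of_nonzero' e h.ne).mp hm1 ((d : Equiv.Perm V) e)
        refine ⟨c, fun x => ?_⟩
        obtain ⟨t, rfl⟩ := (finrank_eq_one_iff_of_nonzero' e h.ne).mp hm1 x
        show endOf d ((t : AddMonoid.End V) e) = _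
        rw [← show ((t : AddMonoid.End V) * endOf d) e = endOf d ((t : AddMonoid.End V) e) from by rw [hAd]; rfl]
        show (t : AddMonoid.End V) ((d : Equiv.Perm V) e) = (c : AddMonoid.End V) ((t : AddMonoid.End V) e)
        rw [← hc]
        exact congrArg (fun z : A => (z : AddMonoid.End V) e) (mul_comm t c)
      obtain ⟨ca, hca⟩ := hscal a
      obtain ⟨cb, hcb⟩ := hscal b
      refine hab (Subtype.ext (Equiv.ext fun x => ?_))
      show (a : Equiv.Perm V) ((b : Equiv.Perm V) x) = (b : Equiv.Perm V) ((a : Equiv.Perm V) x)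
      rw [hca, hcb, hcb, hca]
      exact congrArg (fun z : A => (z : AddMonoid.End V) x) (mul_comm ca cb)
  have hsodd : Odd s := by
    have h1 : Odd (s ^ m) := hs ▸ h.odd
    exact (Nat.odd_pow_iff (by omega)).mp h1
  obtain ⟨l, hl⟩ := hsodd
  have h2n : 2 * Nat.card N ∣ s - 1 :=
    Nat.Coprime.mul_dvd_of_dvd_of_dvd (Nat.coprime_two_left.mpr hodd) ⟨l, by omega⟩ hn1
  have hcard : Nat.card N * 24 = s ^ m - 1 := by rw [← hs, ← h24, N.card_mul_index, h.full]
  obtain ⟨t, ht⟩ := h2n
  obtain ⟨c, hc⟩ := h3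
  have hs3 : 3 ≤ s := by
    rcases Nat.eq_zero_or_pos t with rfl | ht0
    · exfalso
      have : s = 1 := by omega
      rw [this, one_pow] at hs
      omega
    · have : 0 < Nat.card N := Nat.card_pos
      nlinarith [show s = 2 * Nat.card N * t + 1 by omega]
  rcases Nat.lt_or_ge m 3 with hm3 | hm3
  · have hm2 : m = 2 := by omega
    rw [hm2] at hcard
    have h4 : (s + 1) * (s - 1) = 12 * (2 * Nat.card N) := by
      rw [show (s + 1) * (s - 1) = s ^ 2 - 1 from (Nat.sq_sub_sq s 1).symm]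
      omega
    rw [ht] at h4
    have hst : (s + 1) * t = 12 := by
      refine Nat.eq_of_mul_eq_mul_right (show 0 < 2 * Nat.card N from Nat.mul_pos (by norm_num) Nat.card_pos) ?_
      rw [← h4]; ring
    have hs1 : s - 1 = 6 * (c * t) := by rw [ht, hc]; ring
    have hct : c * t ≠ 0 := fun e1 => by rw [e1] at hs1; omega
    have h11 : s + 1 ≤ 12 := Nat.le_of_dvd (by norm_num) ⟨t, hst.symm⟩
    have h8 : s = 7 := by
      have : c * t = 1 := by omega
      omega
    rw [h8] at hst
    omega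
  · have h5 : s ^ 3 ≤ s ^ m := Nat.pow_le_pow_right (by omega) hm3
    have h6 : 24 * Nat.card N ≤ 12 * (s - 1) := by
      have ht0 : t ≠ 0 := fun e1 => by rw [e1] at ht; omega
      have : 2 * Nat.card N ≤ 2 * Nat.card N * t := Nat.le_mul_of_pos_right _ (by omega)
      omega
    have h7 : 12 * (s - 1) + 1 < s ^ 3 := by
      have : 9 * s ≤ s * s * s := Nat.mul_le_mul_right s (Nat.mul_le_mul hs3 hs3)
      rw [show s ^ 3 = s * s * s by ring]
      have h12 : 12 * (s - 1) + 1 ≤ 12 * s := by omega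
      have h13 : 3 * 3 * s ≤ s * s * s := Nat.mul_le_mul_right s (Nat.mul_le_mul hs3 hs3)
      rcases Nat.lt_or_ge s 4 with h4 | h4
      · interval_cases s <;> omega
      · have : 16 * s ≤ s * s * s := Nat.mul_le_mul_right s (show 4 * 4 ≤ s * s from Nat.mul_le_mul h4 h4)
        omega
    omega

theorem Swap.inv_involutions (h : Swap G w e) {z : scalars G} (hz : ∀ v, (z : Equiv.Perm V) v = -v) {a : scalars G}
    (ha : a * a = 1) : a = 1 ∨ a = z :=
  or_iff_not_imp_left.mpr fun ha1 => Subtype.ext (Equiv.ext fun v => by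
    rw [hz]
    by_contra hne
    refine ha1 (h.coord.free a (v + (a : Equiv.Perm V) v) (fun e => hne (eq_neg_of_add_eq_zero_right e)) ?_)
    rw [map_add_scalar, ← Equiv.Perm.mul_apply, ← Subgroup.coe_mul, ha, Subgroup.coe_one, Equiv.Perm.one_apply,
      add_comm])

set_option maxHeartbeats 1600000 in
theorem Swap.false_of_solvable (h : Swap G w e) [Group.IsSolvable (scalars G)]
    (hno : ∀ H : Subgroup (scalars G), H.index ≠ 2) : False := by
  classical
  haveI : Fact (Nat.Prime 2) := ⟨Nat.prime_two⟩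
  obtain ⟨z, hz1, hz⟩ := h.exists_neg
  have hz2 : z * z = 1 := Subtype.ext (Equiv.ext fun x => by simp [hz])
  have heven : 2 ∣ Nat.card (scalars G) := by
    rw [h.full]; obtain ⟨k, hk⟩ := h.odd; exact ⟨k, by omega⟩
  obtain ⟨N, hNn, hNodd, hshape⟩ := CfsgLib.Zass.str24_of_solvable h.latFpf
  haveI := hNn
  have hNtop : N ≠ ⊤ := fun e1 => Nat.not_even_iff_odd.mpr hNodd (by
    rw [e1, Subgroup.card_top]; exact even_iff_two_dvd.mpr heven)
  rcases hshape with ⟨k, hk⟩ | ⟨H1, -, hle1, hi1, hrel, hprop⟩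
  · obtain ⟨H, hH⟩ := exists_index_two_of_quot N
      (IsPGroup.of_card (n := k) (by rw [← Subgroup.index_eq_card, hk])) hNtop
    exact hno H hH
  have hH1 : H1 = ⊤ := by
    rcases (Nat.dvd_prime Nat.prime_two).mp hi1 with e1 | e1
    · exact Subgroup.index_eq_one.mp e1
    · exact absurd e1 (hno H1)
  subst hH1
  rw [Subgroup.relIndex_top_right] at hrel
  have hprop' : ∀ x, orderOf x = 4 → ∀ y, Odd (orderOf y) → Commute x y → y ∈ N := fun x hx y hy hc =>
    hprop x (Subgroup.mem_top x) hx y (Subgroup.mem_top y) hy hc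
  set θ := h.theta with hθdef
  -- the subgroup is the odd core
  obtain ⟨hOn, hOcop⟩ := CfsgLib.SolvTwoCore.pPrimeCore_spec (G := scalars G) 2
  set O := Cfsg.pPrimeCore 2 (scalars G) with hOdef
  haveI := hOn
  have hOodd : Odd (Nat.card O) := Nat.coprime_two_right.mp hOcop
  have hmax : ∀ M : Subgroup (scalars G), M.Normal → Odd (Nat.card M) → M ≤ O := fun M h1 h2 =>
    le_sSup (show M ∈ {K : Subgroup (scalars G) | K.Normal ∧ (Nat.card K).Coprime 2} from
      ⟨h1, Nat.coprime_two_right.mpr h2⟩)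
  have hNO : N ≤ O := hmax N hNn hNodd
  have hON : O = N := by
    have h1 : O.index ∣ 24 := hrel ▸ Subgroup.index_dvd_of_le hNO
    have h2 : 8 ∣ O.index := by
      refine (Nat.Coprime.pow_left 3 (Nat.coprime_two_left.mpr hOodd)).dvd_of_dvd_mul_left ?_
      rw [O.card_mul_index, ← N.card_mul_index, hrel]
      exact Dvd.dvd.mul_left (by norm_num) _
    obtain ⟨c, hc⟩ := h2
    have hc3 : c ∣ 3 := by
      rw [hc] at h1
      exact Nat.dvd_of_mul_dvd_mul_left (by norm_num : 0 < 8) (by simpa using h1)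
    rcases (Nat.dvd_prime Nat.prime_three).mp hc3 with rfl | rfl
    · obtain ⟨H, hH⟩ := exists_index_two_of_quot O
        (IsPGroup.of_card (n := 3) (by rw [← Subgroup.index_eq_card, hc]; rfl)) (fun e1 => by
          rw [e1, Subgroup.index_top] at hc; omega)
      exact absurd hH (hno H)
    · refine (Subgroup.eq_of_le_of_card_ge hNO (le_of_eq ?_)).symm
      have h3 := O.card_mul_index
      have h4 := N.card_mul_index
      rw [hc] at h3
      rw [hrel] at h4
      omega
  have hθinj : Function.Injective θ := fun a b e1 => by rw [← h.theta_theta a, ← hθdef, e1, hθdef, h.theta_theta]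
  have hθN : ∀ x ∈ N, θ x ∈ N := fun x hx => by
    have hle : N.map θ ≤ O := hmax _ (Subgroup.Normal.map hNn θ fun d => ⟨θ d, h.theta_theta d⟩)
      (by rw [Subgroup.card_map_of_injective hθinj]; exact hNodd)
    exact hON ▸ hle ⟨x, hx, rfl⟩
  -- the swap inverts it
  let θN : N →* N := (θ.comp N.subtype).codRestrict N fun x => hθN x x.2
  have hfpf : MonoidHom.FixedPointFree θN := fun x hx => by
    rcases h.fixed_theta hz (a := (x : scalars G)) (congrArg Subtype.val hx) with e1 | e1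
    · exact Subtype.ext e1
    · exfalso
      have h2 : orderOf (x : scalars G) = 2 := by
        rw [e1]; exact orderOf_eq_prime (by rw [pow_two, hz2]) hz1
      exact Nat.not_even_iff_odd.mpr hNodd (even_iff_two_dvd.mpr (h2 ▸ Subgroup.orderOf_dvd_natCard N x.2))
  have hinvol : Function.Involutive θN := fun x => Subtype.ext (h.theta_theta _)
  have hθinv : ∀ x ∈ N, θ x = x⁻¹ := fun x hx =>
    congrArg Subtype.val (congrFun (hfpf.coe_eq_inv_of_involutive hinvol) ⟨x, hx⟩)
  have hNcomm : ∀ x ∈ N, ∀ y ∈ N, x * y = y * x := fun x hx y hy =>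
    congrArg Subtype.val (hfpf.commute_all_of_involutive hinvol ⟨x, hx⟩ ⟨y, hy⟩).eq
  set C := Subgroup.centralizer (N : Set (scalars G)) with hCdef
  haveI : C.Normal := inferInstance
  have hCmem : ∀ d, θ d * d⁻¹ ∈ C := by
    intro d
    refine Subgroup.mem_centralizer_iff.mpr fun x hx => ?_
    have hx' : θ (d⁻¹ * x⁻¹ * d) = (d⁻¹ * x⁻¹ * d)⁻¹ := hθinv _ (by simpa using hNn.conj_mem _ (N.inv_mem hx) d⁻¹)
    rw [map_mul, map_mul, map_inv, map_inv, hθinv x hx, inv_inv, mul_inv_rev, mul_inv_rev, inv_inv, inv_inv] at hx'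
    calc x * (θ d * d⁻¹) = θ d * ((θ d)⁻¹ * x * θ d) * d⁻¹ := by group
      _ = θ d * (d⁻¹ * (x * d)) * d⁻¹ := by rw [hx']
      _ = θ d * d⁻¹ * x := by group
  -- a stable Sylow subgroup
  obtain ⟨P, hPθ⟩ := exists_sylow_fixed θ h.theta_theta
  set P0 : Subgroup (scalars G) := (P : Subgroup (scalars G)) with hP0
  have hP8 : Nat.card P0 = 8 := by
    obtain ⟨k, hk⟩ := IsPGroup.iff_card.mp P.isPGroup'
    rw [← hP0] at hk
    have h2i : ¬ 2 ∣ P0.index := P.not_dvd_index
    have hPodd := Nat.coprime_two_left.mpr (Nat.not_even_iff_odd.mp fun e1 => h2i (even_iff_two_dvd.mp e1))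
    have h1 : 8 ∣ Nat.card P0 := by
      refine (hPodd.pow_left 3).dvd_of_dvd_mul_right ?_
      rw [P0.card_mul_index, ← N.card_mul_index, hrel]
      exact Dvd.dvd.mul_left (by norm_num) _
    have h2 : Nat.card P0 ∣ 8 := by
      refine (Nat.Coprime.dvd_of_dvd_mul_right (n := 3 * Nat.card N) ?_ ?_)
      · rw [hk]
        exact Nat.Coprime.pow_left k (Nat.coprime_two_left.mpr (Odd.mul (by decide) hNodd))
      · refine dvd_trans (Subgroup.card_subgroup_dvd_card P0) ?_
        rw [← N.card_mul_index, hrel]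
        exact ⟨1, by ring⟩
    exact Nat.dvd_antisymm h2 h1
  have hdis : ∀ x ∈ P0, x ∈ N → x = 1 := fun x hx hxN =>
    orderOf_eq_one_iff.mp (Nat.eq_one_of_dvd_coprimes
      (show Nat.Coprime 8 (Nat.card N) from (Nat.coprime_two_left.mpr hNodd).pow_left 3)
      (hP8 ▸ Subgroup.orderOf_dvd_natCard P0 hx) (Subgroup.orderOf_dvd_natCard N hxN))
  set M := N ⊔ P0 with hM
  have hMdec : ∀ x ∈ M, ∃ n ∈ N, ∃ p ∈ P0, n * p = x := fun x hx => Subgroup.mem_sup_of_normal_left.mp hx
  have hMcard : Nat.card M = Nat.card N * 8 := by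
    have hbij : Function.Bijective fun x : N × P0 => (⟨(x.1 : scalars G) * x.2,
        M.mul_mem (Subgroup.mem_sup_left x.1.2) (Subgroup.mem_sup_right x.2.2)⟩ : M) := by
      refine ⟨fun a b e1 => ?_, fun x => ?_⟩
      · have e2 : (a.1 : scalars G) * a.2 = b.1 * b.2 := congrArg Subtype.val e1
        have e3 : (b.1 : scalars G)⁻¹ * a.1 = b.2 * (a.2 : scalars G)⁻¹ := by
          rw [inv_mul_eq_iff_eq_mul, ← mul_assoc, ← e2, mul_inv_cancel_right]
        have e4 := hdis _ (e3 ▸ P0.mul_mem b.2.2 (P0.inv_mem a.2.2)) (N.mul_mem (N.inv_mem b.1.2) a.1.2)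
        have e5 : (a.1 : scalars G) = b.1 := (inv_mul_eq_one.mp e4).symm
        rw [e5] at e2
        exact Prod.ext (Subtype.ext e5) (Subtype.ext (mul_left_cancel e2))
      · obtain ⟨n, hn, p, hp, hnp⟩ := hMdec x x.2
        exact ⟨(⟨n, hn⟩, ⟨p, hp⟩), Subtype.ext hnp⟩
    rw [← Nat.card_eq_of_bijective _ hbij, Nat.card_prod, hP8]
  have hMidx : M.index = 3 := by
    have h1 := M.card_mul_index
    rw [hMcard, ← N.card_mul_index, hrel, mul_assoc] at h1
    have := Nat.eq_of_mul_eq_mul_left Nat.card_pos h1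
    omega
  haveI hMn : M.Normal := normal_of_index_three hno M hMidx
  obtain ⟨g, hgP, hgM⟩ : ∃ g ∈ Subgroup.normalizer (P0 : Set (scalars G)), g ∉ M := by
    by_contra hc
    push Not at hc
    have h1 := Sylow.normalizer_sup_eq_top (P.subtype (N := M) le_sup_right)
    rw [Sylow.coe_subtype, Subgroup.map_subgroupOf_eq_of_le le_sup_right] at h1
    have : M = ⊤ := eq_top_iff.mpr (h1 ▸ sup_le hc le_rfl)
    rw [this, Subgroup.index_top] at hMidx
    omega
  have hpow3 : ∀ d, d ^ 3 ∈ M := fun d => hMidx ▸ Subgroup.pow_index_mem M d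
  set v := (orderOf g).factorization 2 with hv
  set y := g ^ 2 ^ v with hy
  have hyodd : Odd (orderOf y) := by
    rw [hy, orderOf_pow, Nat.gcd_eq_right (Nat.ordProj_dvd _ _)]
    exact Nat.not_even_iff_odd.mp fun e1 =>
      Nat.not_dvd_ordCompl Nat.prime_two (orderOf_pos g).ne' (even_iff_two_dvd.mp e1)
  have hyM : y ∉ M := fun e1 => hgM (by
    have h1 : Int.gcd ((2 ^ v : ℕ) : ℤ) 3 = 1 := Nat.Coprime.pow_left v (by norm_num)
    have h2 := Int.gcd_eq_gcd_ab ((2 ^ v : ℕ) : ℤ) 3
    rw [h1, Nat.cast_one] at h2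
    rw [← zpow_one g, h2, zpow_add, zpow_mul, zpow_mul, zpow_natCast]
    exact M.mul_mem (M.zpow_mem e1 _) (M.zpow_mem (show g ^ (3 : ℤ) ∈ M by exact_mod_cast hpow3 g) _))
  have hyP : ∀ q ∈ P0, y * q * y⁻¹ ∈ P0 := fun q hq =>
    (Subgroup.mem_normalizer_iff.mp (Subgroup.pow_mem _ hgP _) q).mp hq
  have hync : ∀ x, orderOf x = 4 → ¬ Commute y x := fun x hx hc =>
    hyM (Subgroup.mem_sup_left (hprop' x hx y hyodd hc.symm))
  have hord : ∀ p ∈ P0, p ≠ 1 → p ≠ z → orderOf p = 4 := by
    intro p hp hp1 hpz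
    obtain ⟨i, hi3, hi⟩ := (Nat.dvd_prime_pow Nat.prime_two).mp
      (show orderOf p ∣ 2 ^ 3 by rw [show (2 : ℕ) ^ 3 = 8 from rfl, ← hP8]; exact Subgroup.orderOf_dvd_natCard P0 hp)
    interval_cases i
    · exact absurd (orderOf_eq_one_iff.mp hi) hp1
    · have hpp : p * p = 1 := by
        have := pow_orderOf_eq_one p
        rwa [hi, pow_one, pow_two] at this
      exact absurd hpp fun e1 => (h.inv_involutions hz e1).elim hp1 hpz
    · exact hi
    · obtain ⟨h4, hc⟩ := commute_of_eight hP8 hyodd hyP hp hi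
      exact absurd hc (hync _ h4)
  have hord' : ∀ p ∈ P0, orderOf p = 4 → p * p = z ∧ p ≠ 1 ∧ p ≠ z := by
    intro p _ h4
    refine ⟨(h.inv_involutions hz ?_).resolve_left ?_, fun e1 => ?_, fun e1 => ?_⟩
    · rw [← pow_orderOf_eq_one p, h4]; simp [pow_succ, mul_assoc]
    · intro e1
      have := orderOf_dvd_of_pow_eq_one (show p ^ 2 = 1 by rw [pow_two, e1])
      rw [h4] at this
      exact absurd this (by norm_num)
    · rw [e1, orderOf_one] at h4; omega
    · rw [e1, orderOf_eq_prime (show z ^ 2 = 1 by rw [pow_two, hz2]) hz1] at h4; omega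
  have hzc : ∀ a : scalars G, z * a = a * z := fun a => Subtype.ext (Equiv.ext fun x => by
    simp [hz, map_neg_scalar])
  have hθz : θ z = z := (h.fix_neg hz).1
  -- an element of order four inverted by the swap
  obtain ⟨c, hcP, hc4, hcC, hθc⟩ : ∃ c ∈ P0, orderOf c = 4 ∧ c ∈ C ∧ θ c = c⁻¹ := by
    by_contra hall
    push Not at hall
    have hall' : ∀ p ∈ P0, p ≠ 1 → p ≠ z → θ p = z * p := by
      intro p hp hp1 hpz
      have h1 : θ p * p⁻¹ = 1 ∨ θ p * p⁻¹ = z := by
        by_contra hc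
        push Not at hc
        have hm := P0.mul_mem (hPθ p hp) (P0.inv_mem hp)
        refine hall _ hm (hord _ hm hc.1 hc.2) (hCmem p) ?_
        rw [map_mul, map_inv, h.theta_theta, mul_inv_rev, inv_inv]
      rcases h1 with e1 | e1
      · exact ((h.fixed_theta hz (mul_inv_eq_one.mp e1)).elim hp1 hpz).elim
      · exact mul_inv_eq_iff_eq_mul.mp e1
    obtain ⟨p, hp, hp1, hpz⟩ : ∃ p ∈ P0, p ≠ 1 ∧ p ≠ z := by
      by_contra hc
      push Not at hc
      haveI := Fintype.ofFinite P0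
      have : Nat.card P0 ≤ 2 := by
        rw [Nat.card_eq_fintype_card, ← Finset.card_univ]
        refine (Finset.card_le_card_of_injOn (t := ({1, z} : Finset (scalars G))) (fun p : P0 => (p : scalars G))
          (fun p _ => ?_) (fun a _ b _ e => Subtype.ext e)).trans Finset.card_le_two
        rcases eq_or_ne (p : scalars G) 1 with e1 | e1
        · simp [e1]
        · simp [hc p p.2 e1]
      omega
    obtain ⟨q, hq, hq1, hqz, hqp, hqzp⟩ : ∃ q ∈ P0, q ≠ 1 ∧ q ≠ z ∧ q ≠ p ∧ q ≠ z * p := by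
      by_contra hc
      push Not at hc
      haveI := Fintype.ofFinite P0
      have : Nat.card P0 ≤ 4 := by
        rw [Nat.card_eq_fintype_card, ← Finset.card_univ]
        refine (Finset.card_le_card_of_injOn (t := ({1, z, p, z * p} : Finset (scalars G)))
          (fun p : P0 => (p : scalars G)) (fun r _ => ?_) (fun a _ b _ e => Subtype.ext e)).trans Finset.card_le_four
        rcases eq_or_ne (r : scalars G) 1 with e1 | e1
        · simp [e1]
        rcases eq_or_ne (r : scalars G) z with e2 | e2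
        · simp [e2]
        rcases eq_or_ne (r : scalars G) p with e3 | e3
        · simp [e3]
        simp [hc r r.2 e1 e2 e3]
      omega
    have hpp := (hord' p hp (hord p hp hp1 hpz)).1
    have hfix : θ (p * q) = p * q := by
      rw [map_mul, hall' p hp hp1 hpz, hall' q hq hq1 hqz, mul_assoc, ← mul_assoc p, ← hzc p, mul_assoc z p q,
        ← mul_assoc, hz2, one_mul]
    rcases h.fixed_theta hz hfix with e1 | e1
    · refine hqzp ?_
      calc q = z * (z * q) := by rw [← mul_assoc, hz2, one_mul]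
        _ = z * (p * p * q) := by rw [hpp]
        _ = z * p := by rw [mul_assoc p, e1, mul_one]
    · refine hqp ?_
      calc q = z * (z * q) := by rw [← mul_assoc, hz2, one_mul]
        _ = z * (p * p * q) := by rw [hpp]
        _ = p := by rw [mul_assoc p, e1, ← hzc p, ← mul_assoc z, hz2, one_mul]
  obtain ⟨hcc, hc1, hcz⟩ := hord' c hcP hc4
  have hcc' : c⁻¹ = z * c := inv_eq_of_mul_eq_one_right (by rw [← mul_assoc, ← hzc, mul_assoc, hcc, hz2])
  have hc' : y * c * y⁻¹ ∈ P0 := hyP c hcP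
  have hyc1 : y * c * y⁻¹ ≠ c := fun e1 => hync c hc4 (mul_inv_eq_iff_eq_mul.mp e1)
  have hyc2 : y * c * y⁻¹ ≠ z * c := fun e1 => hync c hc4 (commute_of_sq hyodd (mul_inv_eq_iff_eq_mul.mp (by
    rw [show y * y * c * (y * y)⁻¹ = y * (y * c * y⁻¹) * y⁻¹ by group, e1, ← mul_assoc y, ← hzc y]
    calc z * y * c * y⁻¹ = z * (y * c * y⁻¹) := by group
      _ = c := by rw [e1, ← mul_assoc, hz2, one_mul])))
  -- the Sylow subgroup centralises
  have hPC : P0 ≤ C := by
    have hK : Subgroup.zpowers c < C ⊓ P0 := by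
      refine lt_of_le_of_ne (le_inf (Subgroup.zpowers_le.mpr hcC) (Subgroup.zpowers_le.mpr hcP)) fun e1 => ?_
      have hm : y * c * y⁻¹ ∈ Subgroup.zpowers c := e1 ▸ ⟨(inferInstance : C.Normal).conj_mem c hcC y, hc'⟩
      obtain ⟨i, hi⟩ := Subgroup.mem_zpowers_iff.mp hm
      have h14 : orderOf (y * c * y⁻¹) = 4 := by rw [← MulAut.conj_apply, MulEquiv.orderOf_eq, hc4]
      obtain ⟨-, hm1, hmz⟩ := hord' _ hc' h14
      rw [← zpow_mod_orderOf, hc4] at hi
      have h1 := Int.emod_nonneg i (show ((4 : ℕ) : ℤ) ≠ 0 by norm_num)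
      have h2 := Int.emod_lt_of_pos i (show (0 : ℤ) < ((4 : ℕ) : ℤ) by norm_num)
      obtain ⟨j, hj, hj'⟩ : ∃ j : ℕ, (j : ℤ) = i % ((4 : ℕ) : ℤ) ∧ j < 4 := ⟨(i % ((4 : ℕ) : ℤ)).toNat, by omega, by omega⟩
      rw [← hj, zpow_natCast] at hi
      interval_cases j
      · exact hm1 (by simpa using hi.symm)
      · exact hyc1 (by simpa using hi.symm)
      · exact hmz (by rw [← hi, pow_two, hcc])
      · exact hyc2 (by rw [← hi, pow_succ, pow_two, hcc])
    have hcard : Nat.card (C ⊓ P0 : Subgroup (scalars G)) = 8 := by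
      obtain ⟨i, hi, hi'⟩ := (Nat.dvd_prime_pow Nat.prime_two).mp
        (show Nat.card (C ⊓ P0 : Subgroup (scalars G)) ∣ 2 ^ 3 by
          rw [show (2 : ℕ) ^ 3 = 8 from rfl, ← hP8]; exact Subgroup.card_dvd_of_le inf_le_right)
      have h4lt : 4 < Nat.card (C ⊓ P0 : Subgroup (scalars G)) := by
        by_contra hle
        refine hK.ne (Subgroup.eq_of_le_of_card_ge hK.le ?_)
        rw [Nat.card_zpowers, hc4]; omega
      rw [hi'] at h4lt ⊢
      have hi3 : i = 3 := by
        by_contra hne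
        have := Nat.pow_le_pow_right (show 1 ≤ 2 by norm_num) (show i ≤ 2 by omega)
        omega
      rw [hi3]; rfl
    exact (Subgroup.eq_of_le_of_card_ge inf_le_right (by rw [hP8, hcard])) ▸ inf_le_left
  have hNC : N ≤ C := fun x hx => Subgroup.mem_centralizer_iff.mpr fun y hy => hNcomm y hy x hx
  have hMC : M ≤ C := sup_le hNC hPC
  have hCtop : C = ⊤ := by
    by_contra hne
    have hCM : C = M := by
      refine (Subgroup.eq_of_le_of_card_ge hMC ?_).symm
      have h1 := M.card_mul_index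
      have h2 := C.card_mul_index
      rcases (Nat.dvd_prime Nat.prime_three).mp (hMidx ▸ Subgroup.index_dvd_of_le hMC) with e1 | e1
      · exact absurd (Subgroup.index_eq_one.mp e1) hne
      · rw [hMidx] at h1; rw [e1] at h2; omega
    obtain ⟨n, hn, p, hp, hnp⟩ := hMdec _ (hCM ▸ hCmem y)
    have hθy : θ y = n * p * y := (eq_mul_inv_iff_mul_eq.mp hnp).symm
    set b := y * c * y⁻¹ with hb
    have hb4 : orderOf b = 4 := by rw [hb, ← MulAut.conj_apply, MulEquiv.orderOf_eq, hc4]
    obtain ⟨hbb, hb1, hbz⟩ := hord' b hc' hb4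
    have hpb : p * b * p⁻¹ ∈ P0 := P0.mul_mem (P0.mul_mem hp hc') (P0.inv_mem hp)
    have hzc' : ∀ a b : scalars G, a * (z * b) = z * (a * b) := fun a b => by
      rw [← mul_assoc, ← hzc, mul_assoc]
    have hθb : θ b = z * (n * (p * b * p⁻¹) * n⁻¹) := by
      rw [hb, map_mul, map_mul, map_inv, hθc, hθy, hcc', hzc']
      group
    have hn2 : n * (p * b * p⁻¹) * n⁻¹ = p * b * p⁻¹ := by
      have e2 := hdis (n * (p * b * p⁻¹) * n⁻¹ * (p * b * p⁻¹)⁻¹) (by
        refine P0.mul_mem ?_ (P0.inv_mem hpb)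
        have : z * θ b ∈ P0 := by
          refine P0.mul_mem ?_ (hPθ b hc')
          rw [← hcc]; exact P0.mul_mem hcP hcP
        rwa [hθb, ← mul_assoc, hz2, one_mul] at this) (by
        rw [show n * (p * b * p⁻¹) * n⁻¹ * (p * b * p⁻¹)⁻¹ =
          n * ((p * b * p⁻¹) * n⁻¹ * (p * b * p⁻¹)⁻¹) by group]
        exact N.mul_mem hn (hNn.conj_mem _ (N.inv_mem hn) _))
      exact mul_inv_eq_one.mp e2
    rw [hn2] at hθb
    have hb' : θ b = b ∨ θ b = z * b := by
      rcases eq_or_ne (p * b * p⁻¹) b with e1 | e1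
      · exact Or.inr (by rw [hθb, e1])
      refine Or.inl ?_
      -- the conjugate is the inverse
      have hq : p ≠ 1 ∧ p ≠ z := ⟨fun e2 => e1 (by rw [e2]; group), fun e2 => e1 (by rw [e2, hzc, mul_inv_cancel_right])⟩
      obtain ⟨hpp, -, -⟩ := hord' p hp (hord p hp hq.1 hq.2)
      have h1 : p * b ≠ 1 := fun e2 => e1 (by rw [eq_inv_of_mul_eq_one_left e2]; group)
      have h2 : p * b ≠ z := fun e2 => e1 (by
        rw [show p = z * b⁻¹ by rw [← e2, mul_inv_cancel_right]]
        calc z * b⁻¹ * b * (z * b⁻¹)⁻¹ = z * b * z⁻¹ := by group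
          _ = b := by rw [hzc, mul_inv_cancel_right])
      obtain ⟨hpb2, -, -⟩ := hord' _ (P0.mul_mem hp hc') (hord _ (P0.mul_mem hp hc') h1 h2)
      rw [hθb]
      calc z * (p * b * p⁻¹) = z * (p * b * (p * b)) * b⁻¹ * (p * p)⁻¹ := by group
        _ = b := by
          rw [hpb2, hpp, hz2, one_mul, inv_eq_of_mul_eq_one_right (show z * z = 1 from hz2),
            inv_eq_of_mul_eq_one_right (show b * (z * b) = 1 by rw [hzc', hbb, hz2]), ← hzc, ← mul_assoc, hz2, one_mul]
    rcases hb' with e1 | e1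
    · exact (h.fixed_theta hz e1).elim hb1 hbz
    · have hfix : θ (c * b) = c * b := by
        rw [map_mul, hθc, e1, hcc', mul_assoc, hzc' c, ← mul_assoc z z, hz2, one_mul]
      rcases h.fixed_theta hz hfix with e2 | e2
      · exact hyc2 (by rw [← hcc', ← eq_inv_of_mul_eq_one_right e2])
      · exact hyc1 (by
          have h5 : b = c⁻¹ * z := by rw [← e2, inv_mul_cancel_left]
          rw [h5, hcc', mul_assoc, ← hzc c, ← mul_assoc, hz2, one_mul])
  have hcent : ∀ d : scalars G, ∀ n ∈ N, d * n = n * d := fun d n hn =>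
    (Subgroup.mem_centralizer_iff.mp (hCtop ▸ Subgroup.mem_top d : d ∈ C) n hn).symm
  have hn3 : ¬ 3 ∣ Nat.card N := h.not_three_dvd hcent hNodd hrel ⟨y, c, fun e1 => hync c hc4 e1⟩
  haveI : Fact (Nat.Prime 3) := ⟨Nat.prime_three⟩
  obtain ⟨u, hu⟩ := exists_prime_orderOf_dvd_card' (G := scalars G) 3
    (by rw [← N.card_mul_index, hrel]; exact Dvd.dvd.mul_left (by norm_num) _)
  have huN : u ∉ N := fun e1 => hn3 (hu ▸ Subgroup.orderOf_dvd_natCard N e1)
  refine h.tetra_contra hP8 hPθ (u := u) ?_ ?_ ?_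
  · rw [← pow_orderOf_eq_one u, hu]; simp [pow_succ]
  · intro p hp
    obtain ⟨n, hn, p', hp', e1⟩ := hMdec _ (hMn.conj_mem p (Subgroup.mem_sup_right hp) u)
    have hc : Commute n p' := (hcent p' n hn).symm
    have h8 : (u * p * u⁻¹) ^ 8 = 1 := by
      rw [conj_pow, orderOf_dvd_iff_pow_eq_one.mp (hP8 ▸ Subgroup.orderOf_dvd_natCard P0 hp), mul_one, mul_inv_cancel]
    rw [← e1, hc.mul_pow, show p' ^ 8 = 1 from orderOf_dvd_iff_pow_eq_one.mp (hP8 ▸ Subgroup.orderOf_dvd_natCard P0 hp'),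
      mul_one] at h8
    have hn1 : n = 1 := orderOf_eq_one_iff.mp (Nat.eq_one_of_dvd_coprimes
      (show Nat.Coprime 8 (Nat.card N) from (Nat.coprime_two_left.mpr hNodd).pow_left 3)
      (orderOf_dvd_of_pow_eq_one h8) (Subgroup.orderOf_dvd_natCard N hn))
    rw [hn1, one_mul] at e1
    exact e1 ▸ hp'
  · exact fun p _ hp4 hc => huN (hprop' p hp4 u (by rw [hu]; decide) hc.symm)

/-- Elements of `SL(2,5)` generating a quaternion group, and one of order three normalising it. -/
theorem sl25_quat : ∃ R : Subgroup (Matrix.SpecialLinearGroup (Fin 2) (ZMod 5)), ∃ u,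
    Nat.card R = 8 ∧ u * u * u = 1 ∧ (∀ p ∈ R, u * p * u⁻¹ ∈ R) ∧ ∀ p ∈ R, u * p = p * u → p * p = 1 := by
  let a : Matrix.SpecialLinearGroup (Fin 2) (ZMod 5) := ⟨!![2, 0; 0, 3], by decide⟩
  let d : Matrix.SpecialLinearGroup (Fin 2) (ZMod 5) := ⟨!![0, 1; 4, 0], by decide⟩
  let t : Matrix.SpecialLinearGroup (Fin 2) (ZMod 5) := ⟨!![1, 1; 2, 3], by decide⟩
  let L : Finset (Matrix.SpecialLinearGroup (Fin 2) (ZMod 5)) := {1, a, a * a, a * a * a, d, a * d, a * a * d, a * a * a * d}
  refine ⟨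
    { carrier := ↑L
      one_mem' := by show (1 : Matrix.SpecialLinearGroup (Fin 2) (ZMod 5)) ∈ L; decide +kernel
      mul_mem' := fun {x y} hx hy => (show ∀ x ∈ L, ∀ y ∈ L, x * y ∈ L by decide +kernel) x hx y hy
      inv_mem' := fun {x} hx => (show ∀ x ∈ L, x⁻¹ ∈ L by decide +kernel) x hx }, t, ?_, ?_, ?_, ?_⟩
  · show Nat.card (↑L : Set (Matrix.SpecialLinearGroup (Fin 2) (ZMod 5))) = 8
    rw [Nat.card_coe_set_eq, Set.ncard_coe_finset]
    decide +kernel
  · decide +kernel
  · exact (show ∀ p ∈ L, t * p * t⁻¹ ∈ L by decide +kernel)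
  · exact (show ∀ p ∈ L, t * p = p * t → p * p = 1 by decide +kernel)

/-- A swap forces a subgroup of index two among the scalars. -/
theorem Swap.exists_index_two (h : Swap G w e) : ∃ H : Subgroup (scalars G), H.index = 2 := by
  classical
  by_contra hno
  push Not at hno
  by_cases hsol : Group.IsSolvable (scalars G)
  · exact h.false_of_solvable hno
  haveI : Fact (Nat.Prime 2) := ⟨Nat.prime_two⟩
  obtain ⟨T, N, hTn, hNn, -, ⟨iso⟩, hperf, hdis, hTN, hNZ, hcop, hidx⟩ := CfsgLib.Zass.exists_split h.latFpf hsol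
  haveI := hTn
  haveI := hNZ
  have htop : T ⊔ N = ⊤ := Subgroup.index_eq_one.mp (hidx.resolve_right (hno _))
  haveI : Group.IsSolvable (scalars G ⧸ T) := by
    refine Group.isSolvable_of_surjective (f := (QuotientGroup.mk' T).comp N.subtype) fun q => ?_
    obtain ⟨g, rfl⟩ := QuotientGroup.mk'_surjective T q
    obtain ⟨t, ht, n, hn, rfl⟩ := Subgroup.mem_sup_of_normal_left.mp (htop ▸ Subgroup.mem_top g : g ∈ T ⊔ N)
    refine ⟨⟨n, hn⟩, ?_⟩
    show QuotientGroup.mk' T n = _
    rw [map_mul, (show QuotientGroup.mk' T t = 1 from (QuotientGroup.eq_one_iff t).mpr ht), one_mul]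
  have hθT : ∀ x ∈ T, h.theta x ∈ T := by
    intro x hx
    have hbot : ((T.map h.theta).map (QuotientGroup.mk' T)) = ⊥ := by
      by_contra hne
      have := Group.IsSolvable.commutator_lt_of_ne_bot hne
      rw [← Subgroup.map_commutator, ← Subgroup.map_commutator, hperf] at this
      exact lt_irrefl _ this
    exact (QuotientGroup.eq_one_iff _).mp (Subgroup.mem_bot.mp (hbot ▸ ⟨_, ⟨x, hx, rfl⟩, rfl⟩ :
      QuotientGroup.mk' T (h.theta x) ∈ (⊥ : Subgroup (scalars G ⧸ T))))
  let θT : T →* T := (h.theta.comp T.subtype).codRestrict T fun x => hθT x x.2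
  obtain ⟨P, hPθ⟩ := exists_sylow_fixed θT fun x => Subtype.ext (h.theta_theta _)
  obtain ⟨R, u, hR8, hu3, huR, hnc⟩ := sl25_quat
  set R' := R.comap iso.toMonoidHom with hR'
  have hR'8 : Nat.card R' = 8 := by
    rw [← hR8]
    exact Nat.card_congr (iso.toEquiv.subtypeEquiv fun _ => Iff.rfl)
  have hTcard : (Nat.card T).factorization 2 = 3 := by
    rw [Nat.card_congr iso.toEquiv, show Nat.card (Matrix.SpecialLinearGroup (Fin 2) (ZMod 5)) = 2 ^ 3 * 15 by
      rw [Nat.card_eq_fintype_card]; decide +kernel,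
      Nat.factorization_mul (by norm_num) (by norm_num), Finsupp.add_apply, Nat.Prime.factorization_pow Nat.prime_two]
    simp [Nat.factorization_eq_zero_of_not_dvd (show ¬ 2 ∣ 15 by norm_num)]
  let Q : Sylow 2 T := Sylow.ofCard R' (by rw [hR'8, hTcard]; rfl)
  obtain ⟨g, hg⟩ := MulAction.exists_smul_eq T Q P
  have hPmem : ∀ x : T, x ∈ (P : Subgroup T) ↔ g⁻¹ * x * g ∈ R' := fun x => by
    rw [← hg, Sylow.coe_subgroup_smul, Subgroup.mem_pointwise_smul_iff_inv_smul_mem]
    show (MulAut.conj g)⁻¹ x ∈ R' ↔ _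
    simp [MulAut.conj_symm_apply]
  set u₁ : T := g * iso.symm u * g⁻¹ with hu₁
  refine h.tetra_contra (P := (P : Subgroup T).map T.subtype) ?_ ?_ (u := (u₁ : scalars G)) ?_ ?_ ?_
  · rw [Subgroup.card_map_of_injective T.subtype_injective, P.card_eq_multiplicity, hTcard]; rfl
  · rintro _ ⟨p, hp, rfl⟩
    exact ⟨θT p, hPθ p hp, rfl⟩
  · rw [← Subgroup.coe_mul, ← Subgroup.coe_mul, show u₁ * u₁ * u₁ = g * (iso.symm u * iso.symm u * iso.symm u) * g⁻¹ by
      rw [hu₁]; group, ← map_mul, ← map_mul, hu3, map_one, mul_one, mul_inv_cancel]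
    rfl
  · rintro _ ⟨p, hp, rfl⟩
    refine ⟨u₁ * p * u₁⁻¹, (hPmem _).mpr ?_, rfl⟩
    rw [show g⁻¹ * (u₁ * p * u₁⁻¹) * g = iso.symm u * (g⁻¹ * p * g) * (iso.symm u)⁻¹ by rw [hu₁]; group]
    show iso (iso.symm u * (g⁻¹ * p * g) * (iso.symm u)⁻¹) ∈ R
    rw [map_mul, map_mul, map_inv, MulEquiv.apply_symm_apply]
    exact huR _ ((hPmem p).mp hp)
  · rintro _ ⟨p, hp, rfl⟩ hp4 hc
    have hc' : u₁ * p = p * u₁ := Subtype.ext hc
    have h1 := hnc (iso (g⁻¹ * p * g)) ((hPmem p).mp hp) (by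
      conv_lhs => rw [← iso.apply_symm_apply u]
      rw [← map_mul]
      conv_rhs => rw [← iso.apply_symm_apply u, ← map_mul]
      refine congrArg iso ?_
      calc iso.symm u * (g⁻¹ * p * g) = g⁻¹ * (u₁ * p) * g := by rw [hu₁]; group
        _ = g⁻¹ * (p * u₁) * g := by rw [hc']
        _ = g⁻¹ * p * g * iso.symm u := by rw [hu₁]; group)
    rw [← map_mul, map_eq_one_iff _ iso.injective, show g⁻¹ * p * g * (g⁻¹ * p * g) = g⁻¹ * (p * p) * g by group] at h1
    have h2 : p * p = 1 := by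
      calc p * p = g * (g⁻¹ * (p * p) * g) * g⁻¹ := by group
        _ = 1 := by rw [h1]; group
    have := orderOf_dvd_of_pow_eq_one (show p ^ 2 = 1 by rw [pow_two, h2])
    rw [← Subgroup.orderOf_coe, show (p : scalars G) = T.subtype p from rfl, hp4] at this
    exact absurd this (by norm_num)

end CfsgLib.Zas
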