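import Mathlib
import Cfsg.Agent.Zas.Near
import Cfsg.Agent.Zas.IndexTwo

/-!
A sharply three-transitive group of odd characteristic has a subgroup of index two.
-/

set_option autoImplicit false

namespace CfsgLib.Zas

universe u

variable {V : Type u} [AddCommGroup V] [Finite V] {G : Subgroup (Equiv.Perm (Option V))}
  {w : Equiv.Perm (Option V)} {e : V}

/-- A nontrivial sign of the scalars invariant under the swap. -/
theorem Swap.exists_sign (h : Swap G w e) :
    ∃ χ : scalars G →* ℤˣ, (∃ a, χ a = -1) ∧ ∀ a, χ (h.theta a) = χ a := by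
  classical
  obtain ⟨H, hH⟩ := h.exists_index_two
  let χ : scalars G →* ℤˣ := MonoidHom.mk' (fun a => if a ∈ H then 1 else -1) fun a b => by
    have hab := Subgroup.mul_mem_iff_of_index_two hH (a := a) (b := b)
    by_cases ha : a ∈ H <;> by_cases hb : b ∈ H <;> simp [ha, hb, hab]
  obtain ⟨a₀, ha₀⟩ : ∃ a, a ∉ H := by
    by_contra hc
    push Not at hc
    rw [show H = ⊤ from eq_top_iff.mpr fun a _ => hc a, Subgroup.index_top] at hH
    omega
  by_cases hinv : ∀ a, χ (h.theta a) = χ a
  · exact ⟨χ, ⟨a₀, by simp [χ, ha₀]⟩, hinv⟩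
  · refine ⟨χ * χ.comp h.theta, ?_, fun a => ?_⟩
    · push Not at hinv
      obtain ⟨a, ha⟩ := hinv
      refine ⟨a, ?_⟩
      show χ a * χ (h.theta a) = -1
      rcases Int.units_eq_one_or (χ a) with e1 | e1 <;> rcases Int.units_eq_one_or (χ (h.theta a)) with e2 | e2 <;>
        simp_all
    · show χ (h.theta a) * χ (h.theta (h.theta a)) = χ a * χ (h.theta a)
      rw [h.theta_theta, mul_comm]

/-- The transfer of an invariant sign gives a homomorphism onto a group of order two. -/
theorem Swap.exists_hom (h : Swap G w e) : ∃ f : G →* ℤˣ, ∃ g, f g = -1 := by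
  classical
  obtain ⟨χ, ⟨a₀, ha₀⟩, hχθ⟩ := h.exists_sign
  obtain ⟨z, hz1, hz⟩ := h.exists_neg
  -- the stabiliser of the pair
  let K : Subgroup G :=
    { carrier := {g | ∃ s : scalars G, (g : Equiv.Perm (Option V)) = sc (s : Equiv.Perm V) ∨
        (g : Equiv.Perm (Option V)) = w * sc (s : Equiv.Perm V)}
      one_mem' := ⟨1, Or.inl (by simp)⟩
      mul_mem' := by
        rintro g g' ⟨s, hs⟩ ⟨s', hs'⟩
        have hsw : ∀ s : scalars G, sc (s : Equiv.Perm V) * w = w * sc (h.theta s : Equiv.Perm V) := fun s => by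
          rw [h.sc_theta, ← mul_assoc, ← mul_assoc, h.sq, one_mul]
        rcases hs with hs | hs <;> rcases hs' with hs' | hs'
        · exact ⟨s * s', Or.inl (by simp [hs, hs'])⟩
        · exact ⟨h.theta s * s', Or.inr (by rw [Subgroup.coe_mul, hs, hs', ← mul_assoc, hsw]; simp [mul_assoc])⟩
        · exact ⟨s * s', Or.inr (by simp [hs, hs', mul_assoc])⟩
        · refine ⟨h.theta s * s', Or.inl ?_⟩
          rw [Subgroup.coe_mul, hs, hs', mul_assoc, ← mul_assoc (sc (s : Equiv.Perm V)), hsw, ← mul_assoc, ← mul_assoc,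
            h.sq, one_mul]
          simp
      inv_mem' := by
        rintro g ⟨s, hs⟩
        rcases hs with hs | hs
        · exact ⟨s⁻¹, Or.inl (by rw [Subgroup.coe_inv, hs, Subgroup.coe_inv, map_inv])⟩
        · refine ⟨h.theta s⁻¹, Or.inr ?_⟩
          rw [Subgroup.coe_inv, hs, mul_inv_rev, h.sc_theta, Subgroup.coe_inv, map_inv,
            inv_eq_of_mul_eq_one_right h.sq, ← mul_assoc, ← mul_assoc, h.sq, one_mul] }
  have hexcl : ∀ s s' : scalars G, sc (s : Equiv.Perm V) ≠ w * sc (s' : Equiv.Perm V) := fun s s' e1 => by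
    have := congrArg (fun p : Equiv.Perm (Option V) => p none) e1
    simp [h.w0] at this
  have hval : ∀ g : K, ∃ c : ℤˣ, ∀ s : scalars G, ((g : G) : Equiv.Perm (Option V)) = sc (s : Equiv.Perm V) ∨
      ((g : G) : Equiv.Perm (Option V)) = w * sc (s : Equiv.Perm V) → χ s = c := by
    rintro ⟨g, s₀, hs₀⟩
    refine ⟨χ s₀, fun s hs => ?_⟩
    rcases hs₀ with h0 | h0 <;> rcases hs with h1 | h1
    · rw [Subtype.ext (sc_injective (h1.symm.trans h0))]
    · exact absurd (h0.symm.trans h1) (hexcl _ _)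
    · exact absurd (h1.symm.trans h0) (hexcl _ _)
    · rw [Subtype.ext (sc_injective (mul_left_cancel (h1.symm.trans h0)))]
  choose c hc using hval
  have hsw : ∀ s : scalars G, sc (s : Equiv.Perm V) * w = w * sc (h.theta s : Equiv.Perm V) := fun s => by
    rw [h.sc_theta, ← mul_assoc, ← mul_assoc, h.sq, one_mul]
  let χ' : K →* ℤˣ := MonoidHom.mk' c (fun g g' => by
    obtain ⟨s, hs⟩ := g.2
    obtain ⟨s', hs'⟩ := g'.2
    rw [← hc g s hs, ← hc g' s' hs']
    rcases hs with hs | hs <;> rcases hs' with hs' | hs'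
    · rw [← map_mul]
      exact (hc (g * g') _ (Or.inl (by simp [hs, hs']))).symm
    · rw [← hχθ s, ← map_mul]
      exact (hc (g * g') _ (Or.inr (by simp [hs, hs']; rw [← mul_assoc, hsw]; simp [mul_assoc]))).symm
    · rw [← map_mul]
      exact (hc (g * g') _ (Or.inr (by simp [hs, hs', mul_assoc]))).symm
    · rw [← hχθ s, ← map_mul]
      refine (hc (g * g') _ (Or.inl ?_)).symm
      simp only [Subgroup.coe_mul, hs, hs', map_mul]
      rw [mul_assoc, ← mul_assoc (sc (s : Equiv.Perm V)), hsw, ← mul_assoc, ← mul_assoc, h.sq, one_mul])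
  let d : G := ⟨sc (a₀ : Equiv.Perm V), sc_mem a₀⟩
  haveI : Fintype (Quotient (MulAction.orbitRel (Subgroup.zpowers d) (G ⧸ K))) := Fintype.ofFinite _
  refine ⟨MonoidHom.transfer χ', d, ?_⟩
  rw [MonoidHom.transfer_eq_prod_quotient_orbitRel_zpowers_quot]
  set q₀ : Quotient (MulAction.orbitRel (Subgroup.zpowers d) (G ⧸ K)) := Quotient.mk'' ((1 : G) : G ⧸ K)
  have hdK : d ∈ K := ⟨a₀, Or.inl rfl⟩
  have hdfix : ∀ i : ℤ, (d ^ i) • ((1 : G) : G ⧸ K) = ((1 : G) : G ⧸ K) := fun i => by
    rw [← MulAction.mem_stabilizer_iff]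
    refine Subgroup.zpow_mem _ (MulAction.mem_stabilizer_iff.mpr ?_) i
    exact QuotientGroup.eq.mpr (by simpa using hdK)
  have hbase : ∀ q : Quotient (MulAction.orbitRel (Subgroup.zpowers d) (G ⧸ K)), q.out.out ∈ K → q = q₀ := by
    intro q hq
    rw [← q.out_eq]
    refine congrArg Quotient.mk'' ?_
    rw [← q.out.out_eq]
    exact QuotientGroup.eq.mpr (by simpa using hq)
  have hq₀ : q₀.out = ((1 : G) : G ⧸ K) := by
    obtain ⟨⟨x, hx⟩, e1⟩ : q₀.out ∈ MulAction.orbit (Subgroup.zpowers d) ((1 : G) : G ⧸ K) :=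
      MulAction.orbitRel_apply.mp (Quotient.exact' q₀.out_eq')
    obtain ⟨i, rfl⟩ := Subgroup.mem_zpowers_iff.mp hx
    rw [← e1]
    exact hdfix i
  rw [Finset.prod_eq_single q₀]
  · have hper : Function.minimalPeriod (d • ·) q₀.out = 1 := by
      rw [Function.minimalPeriod_eq_one_iff_isFixedPt, hq₀]
      show d • _ = _
      simpa using hdfix 1
    have hg : q₀.out.out ∈ K := by
      have e1 : ((q₀.out.out : G) : G ⧸ K) = ((1 : G) : G ⧸ K) := by rw [QuotientGroup.out_eq', hq₀]
      simpa using QuotientGroup.eq.mp e1.symm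
    refine Eq.trans ?_ ((hc ⟨d, hdK⟩ a₀ (Or.inl rfl)).symm.trans ha₀)
    rw [show (⟨q₀.out.out⁻¹ * d ^ Function.minimalPeriod (d • ·) q₀.out * q₀.out.out,
      QuotientGroup.out_conj_pow_minimalPeriod_mem K d q₀.out⟩ : K) =
        (⟨q₀.out.out, hg⟩ : K)⁻¹ * ⟨d, hdK⟩ * ⟨q₀.out.out, hg⟩ from Subtype.ext (by simp only [hper, pow_one]; rfl),
      map_mul, map_mul, map_inv, mul_comm (χ' _)⁻¹, inv_mul_cancel_right]
    rfl
  · intro q _ hq
    set g := q.out.out with hgdef
    set n := Function.minimalPeriod (d • ·) q.out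
    have hgK : g ∉ K := fun e1 => hq (hbase q e1)
    have hmem : g⁻¹ * d ^ n * g ∈ K := QuotientGroup.out_conj_pow_minimalPeriod_mem K d q.out
    obtain ⟨s, hs⟩ := hmem
    show c ⟨_, _⟩ = 1
    rw [← hc ⟨g⁻¹ * d ^ n * g, ⟨s, hs⟩⟩ s hs]
    by_cases hdn : d ^ n = 1
    · have e1 : ((g⁻¹ * d ^ n * g : G) : Equiv.Perm (Option V)) = 1 := by simp [hdn]
      rcases hs with hs | hs
      · rw [e1] at hs
        rw [show s = 1 from Subtype.ext (sc_injective (hs.symm.trans (map_one sc).symm)), map_one]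
      · rw [e1, ← map_one sc] at hs
        exact absurd hs (hexcl 1 s)
    have hdnsc : ((d ^ n : G) : Equiv.Perm (Option V)) = sc ((a₀ ^ n : scalars G) : Equiv.Perm V) := by
      simp [d]
    set x := ((g⁻¹ * d ^ n * g : G) : Equiv.Perm (Option V)) with hx
    have hxfix : ∀ o, ((d ^ n : G) : Equiv.Perm (Option V)) o = o →
        x ((g : Equiv.Perm (Option V))⁻¹ o) = (g : Equiv.Perm (Option V))⁻¹ o := fun o ho => by
      simp only [hx, Subgroup.coe_mul, Subgroup.coe_inv, Equiv.Perm.mul_apply, Equiv.Perm.inv_def,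
        Equiv.apply_symm_apply, ho]
    have hp : x ((g : Equiv.Perm (Option V))⁻¹ none) = (g : Equiv.Perm (Option V))⁻¹ none :=
      hxfix _ (by rw [hdnsc, sc_none])
    have hq' : x ((g : Equiv.Perm (Option V))⁻¹ (some 0)) = (g : Equiv.Perm (Option V))⁻¹ (some 0) :=
      hxfix _ (by rw [hdnsc, sc_some, map_zero_scalar])
    have hx1 : x ≠ 1 := fun e1 => hdn (by
      have e2 : g⁻¹ * d ^ n * g = 1 := Subtype.ext e1
      calc d ^ n = g * (g⁻¹ * d ^ n * g) * g⁻¹ := by group
        _ = 1 := by rw [e2]; group)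
    rcases hs with hs | hs
    · -- then the pair is preserved
      exfalso
      rw [hs] at hp hq' hx1
      have hs1 : s ≠ 1 := fun e1 => hx1 (by rw [e1, Subgroup.coe_one, map_one])
      have hfixpts : ∀ o, sc (s : Equiv.Perm V) o = o → o = none ∨ o = some 0 := by
        intro o ho
        cases o with
        | none => exact Or.inl rfl
        | some v =>
          rcases eq_or_ne v 0 with rfl | hv
          · exact Or.inr rfl
          · rw [sc_some, Option.some_inj] at ho
            exact absurd (h.coord.free s v hv ho) hs1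
      refine hgK ?_
      have hne : (g : Equiv.Perm (Option V))⁻¹ none ≠ (g : Equiv.Perm (Option V))⁻¹ (some 0) :=
        fun e1 => Option.some_ne_none _ ((g : Equiv.Perm (Option V))⁻¹.injective e1).symm
      have hinv : g⁻¹ ∈ K := by
        rcases hfixpts _ hp with e1 | e1 <;> rcases hfixpts _ hq' with e2 | e2
        · exact absurd (e1.trans e2.symm) hne
        · obtain ⟨t, ht⟩ := h.coord.fix_two (G.inv_mem g.2) e1 e2
          exact ⟨t, Or.inl ht⟩
        · obtain ⟨t, ht⟩ := h.coord.eq_mul_sc h.mem h.w0 h.w1 (G.inv_mem g.2) e1 e2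
          exact ⟨t, Or.inr ht⟩
        · exact absurd (e1.trans e2.symm) hne
      simpa using K.inv_mem hinv
    · -- a swap with a fixed point
      rw [hs] at hp
      obtain ⟨v, hv⟩ : ∃ v, (g : Equiv.Perm (Option V))⁻¹ none = some v := by
        refine Option.ne_none_iff_exists'.mp fun e1 => ?_
        rw [e1] at hp
        simp [h.w0] at hp
      rw [hv] at hp
      have hv0 : v ≠ 0 := by
        rintro rfl
        simp [h.w1, map_zero_scalar] at hp
      obtain ⟨a, ha⟩ := exists_apply_eq h.coord h.full h.ne hv0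
      rw [← ha, Equiv.Perm.mul_apply, sc_some, ← Equiv.Perm.mul_apply, ← Subgroup.coe_mul] at hp
      have h2 := h.apply_scalar (s * a) (some e)
      rw [h.fix, sc_some, sc_some, hp] at h2
      have h3 := h.coord.apply_injective h.ne (Option.some_injective _ h2)
      have h4 := congrArg χ h3
      rw [hχθ, map_mul] at h4
      exact mul_eq_right.mp h4.symm
  · intro hq
    exact absurd (Finset.mem_univ q₀) hq

end CfsgLib.Zas
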