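import Mathlib
import Cfsg.Agent.Zas.Setup
import Cfsg.Agent.Zas.Near

/-!
Coordinates adapted to a pair of points.
-/

set_option autoImplicit false

namespace CfsgLib.Zas

universe u v

variable {V : Type u} [AddCommGroup V] [Finite V] {G' : Subgroup (Equiv.Perm (Option V))}

/-- Coordinates may be adapted to any pair of points. -/
theorem Coord.adapt {G : Type u} {Ω : Type v} [Group G] [MulAction G Ω] (hC : Coord G') (e : Ω ≃ Option V)
    (φ : G ≃* G') (hφ : ∀ (g : G) (y : Ω), e (g • y) = ((φ g : G') : Equiv.Perm (Option V)) (e y)) {a b : Ω}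
    (hab : a ≠ b) : ∃ (e' : Ω ≃ Option V) (φ' : G ≃* G'),
      (∀ (g : G) (y : Ω), e' (g • y) = ((φ' g : G') : Equiv.Perm (Option V)) (e' y)) ∧ e' a = none ∧ e' b = some 0 := by
  obtain ⟨t, ht, hta, htb⟩ := hC.exists_mem (e a) (e b) (e.injective.ne hab)
  refine ⟨e.trans t⁻¹, φ.trans (MulAut.conj (⟨t, ht⟩ : G')⁻¹), fun g y => ?_, ?_, ?_⟩
  · show t⁻¹ (e (g • y)) = _
    simp [hφ, MulAut.conj_apply]
  · show t⁻¹ (e a) = none
    rw [← hta]; simp
  · show t⁻¹ (e b) = some 0
    rw [← htb]; simp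

/-- The scalars as the stabiliser of the adapted pair. -/
theorem Coord.exists_pst {G : Type u} {Ω : Type v} [Group G] [MulAction G Ω] (hC : Coord G') (e : Ω ≃ Option V)
    (φ : G ≃* G') (hφ : ∀ (g : G) (y : Ω), e (g • y) = ((φ g : G') : Equiv.Perm (Option V)) (e y)) {a b : Ω}
    (ha : e a = none) (hb : e b = some 0) : ∃ ι : scalars G' →* G, Function.Injective ι ∧
      ι.range = MulAction.stabilizer G a ⊓ MulAction.stabilizer G b ∧
      ∀ s, ((φ (ι s) : G') : Equiv.Perm (Option V)) = sc (s : Equiv.Perm V) := by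
  let j : scalars G' →* G' :=
    { toFun := fun s => ⟨sc (s : Equiv.Perm V), sc_mem s⟩
      map_one' := Subtype.ext (map_one sc)
      map_mul' := fun s t => Subtype.ext (map_mul sc (s : Equiv.Perm V) t) }
  refine ⟨φ.symm.toMonoidHom.comp j, φ.symm.injective.comp fun s t e1 =>
    Subtype.ext (sc_injective (congrArg Subtype.val e1)), ?_, fun s => by simp [j]⟩
  ext g
  rw [MonoidHom.mem_range, Subgroup.mem_inf, MulAction.mem_stabilizer_iff, MulAction.mem_stabilizer_iff]
  constructor
  · rintro ⟨s, rfl⟩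
    constructor <;> refine e.injective ?_ <;> simp [hφ, ha, hb, j, map_zero_scalar]
  · rintro ⟨g1, g2⟩
    obtain ⟨s, hs⟩ := hC.fix_two (φ g).2
      (by have := hφ g a; rw [g1, ha] at this; exact this.symm)
      (by have := hφ g b; rw [g2, hb] at this; exact this.symm)
    exact ⟨s, φ.injective (by simp [j]; exact Subtype.ext hs.symm)⟩

/-- All scalars in odd characteristic: some swap fixes a point. -/
theorem Coord.exists_swap_fix (hC : Coord G') (hd : Nat.card (scalars G') = Nat.card V - 1) (hodd : Odd (Nat.card V))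
    {e : V} (he : e ≠ 0) : ∃ w, Swap G' w e := by
  obtain ⟨t, ht, ht0, ht1⟩ := hC.exists_mem (some 0) none (by simp)
  have hne0 : t (some e) ≠ none := fun e1 => he (Option.some_injective _ (t.injective (e1.trans ht1.symm)))
  obtain ⟨c, hc⟩ := Option.ne_none_iff_exists'.mp hne0
  have hc0 : c ≠ 0 := fun e1 => Option.some_ne_none _ (t.injective (hc.trans (e1 ▸ ht0.symm)))
  obtain ⟨s, hs⟩ := exists_apply_eq hC hd hc0 he
  exact ⟨sc (s : Equiv.Perm V) * t, hC, hd, hodd, G'.mul_mem (sc_mem s) ht, by simp [ht0, map_zero_scalar],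
    by simp [ht1], by simp [hc, hs], he⟩

end CfsgLib.Zas
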