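import Mathlib
import Cfsg.Agent.Zas.Setup

/-!
Coordinates for an action whose point stabiliser has an abelian regular normal subgroup.
-/

set_option autoImplicit false

namespace CfsgLib.Zas

open scoped IsMulCommutative

universe u v

/-- An action with an abelian subgroup regular and normal in a point stabiliser has coordinates. -/
theorem exists_coord {G : Type u} {Ω : Type v} [Group G] [Finite G] [MulAction G Ω] [FaithfulSMul G Ω]
    [MulAction.IsPretransitive G Ω] (x y₀ : Ω) (hy₀ : y₀ ≠ x) (F : Subgroup G) [IsMulCommutative F]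
    (hFle : F ≤ MulAction.stabilizer G x) (hFn : (F.subgroupOf (MulAction.stabilizer G x)).Normal)
    (hreg : ∀ y z : Ω, y ≠ x → z ≠ x → ∃! u : F, (u : G) • y = z)
    (hfree : ∀ g : G, ∀ a b c : Ω, a ≠ b → b ≠ c → a ≠ c → g • a = a → g • b = b → g • c = c → g = 1) :
    ∃ (V : Type u) (_ : AddCommGroup V) (_ : Finite V) (e : Ω ≃ Option V) (G' : Subgroup (Equiv.Perm (Option V)))
      (φ : G ≃* G'), Coord G' ∧ ∀ (g : G) (y : Ω), e (g • y) = ((φ g : G') : Equiv.Perm (Option V)) (e y) := by
  classical
  have hfix : ∀ u : F, (u : G) • x = x := fun u => hFle u.2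
  have hne : ∀ u : F, (u : G) • y₀ ≠ x := fun u e => hy₀ (MulAction.injective (u : G) (e.trans (hfix u).symm))
  let f : Option (Additive F) → Ω := fun o => o.elim x fun u => ((Additive.toMul u : F) : G) • y₀
  have hf : Function.Bijective f := by
    refine ⟨?_, fun z => ?_⟩
    · rintro (_ | a) (_ | b) e
      · rfl
      · exact absurd e.symm (hne _)
      · exact absurd e (hne _)
      · exact congrArg some (Additive.toMul.injective ((hreg y₀ _ hy₀ (hne _)).unique e rfl))
    · rcases eq_or_ne z x with rfl | hz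
      · exact ⟨none, rfl⟩
      · obtain ⟨u, hu, -⟩ := hreg y₀ z hy₀ hz
        exact ⟨some (Additive.ofMul u), hu⟩
  let e : Ω ≃ Option (Additive F) := (Equiv.ofBijective f hf).symm
  let ψ : G →* Equiv.Perm (Option (Additive F)) := e.permCongrHom.toMonoidHom.comp (MulAction.toPermHom G Ω)
  have hψ : ∀ g y, ψ g (e y) = e (g • y) := fun g y => by simp [ψ]
  have hψs : ∀ g o, f (ψ g o) = g • f o := fun g o => by
    have h1 := hψ g (f o)
    rw [show e (f o) = o from Equiv.ofBijective_symm_apply_apply f hf o] at h1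
    rw [h1]
    exact Equiv.ofBijective_apply_symm_apply f hf _
  have hψinj : Function.Injective ψ := e.permCongrHom.injective.comp MulAction.toPerm_injective
  have hconj : ∀ h : G, h • x = x → ∀ u : F, h * (u : G) * h⁻¹ ∈ F := fun h hh u =>
    hFn.conj_mem ⟨(u : G), hfix u⟩ u.2 ⟨h, hh⟩
  refine ⟨Additive F, inferInstance, inferInstance, e, ψ.range, MonoidHom.ofInjective hψinj, ⟨fun b => ?_, ?_, ?_, ?_⟩,
    fun g y => (hψ g y).symm⟩
  · refine ⟨((Additive.toMul b : F) : G), Equiv.ext fun o => hf.1 ?_⟩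
    rw [hψs]
    cases o with
    | none => exact hfix _
    | some w =>
      show _ • ((Additive.toMul w : F) : G) • y₀ = ((Additive.toMul (w + b) : F) : G) • y₀
      rw [← mul_smul, ← Subgroup.coe_mul, toMul_add, mul_comm]
  · intro a b
    obtain ⟨g, hg⟩ := MulAction.exists_smul_eq G (f a) (f b)
    exact ⟨ψ g, ⟨g, rfl⟩, hf.1 ((hψs g a).trans hg)⟩
  · rintro _ ⟨g, rfl⟩ h0
    have hgx : g • x = x := by
      have := hψs g none
      rw [h0] at this
      exact this.symm
    have hgy : g • y₀ ≠ x := fun e => hy₀ (MulAction.injective g (e.trans hgx.symm))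
    obtain ⟨b, hb, -⟩ := hreg y₀ (g • y₀) hy₀ hgy
    set h := (b : G)⁻¹ * g with hh
    have hhx : h • x = x := by rw [hh, mul_smul, hgx, inv_smul_eq_iff, hfix]
    have hhy : h • y₀ = y₀ := by rw [hh, mul_smul, inv_smul_eq_iff, hb]
    have hhx' : h⁻¹ • x = x := inv_smul_eq_iff.mpr hhx.symm
    let a : Equiv.Perm (Additive F) :=
      { toFun := fun u => Additive.ofMul ⟨h * ((Additive.toMul u : F) : G) * h⁻¹, hconj h hhx _⟩
        invFun := fun u => Additive.ofMul ⟨h⁻¹ * ((Additive.toMul u : F) : G) * h⁻¹⁻¹, hconj h⁻¹ hhx' _⟩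
        left_inv := fun u => Additive.toMul.injective (Subtype.ext (by simp [mul_assoc]))
        right_inv := fun u => Additive.toMul.injective (Subtype.ext (by simp [mul_assoc])) }
    refine ⟨a, fun u w => Additive.toMul.injective (Subtype.ext (by simp [a, mul_assoc])), Additive.ofMul b,
      Equiv.ext fun o => hf.1 ?_⟩
    rw [hψs]
    cases o with
    | none => exact hgx
    | some w =>
      show g • ((Additive.toMul w : F) : G) • y₀ = ((Additive.toMul (a w + Additive.ofMul b) : F) : G) • y₀
      rw [toMul_add, toMul_ofMul, mul_comm, Subgroup.coe_mul]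
      show _ = ((b : G) * (h * ((Additive.toMul w : F) : G) * h⁻¹)) • y₀
      rw [mul_smul (b : G), mul_smul, inv_smul_eq_iff.mpr hhy.symm, mul_smul, ← mul_smul (b : G), hh, mul_inv_cancel_left]
  · intro a w hw haw
    obtain ⟨g, hg⟩ := a.2.1
    refine Subtype.ext (sc_injective ?_)
    rw [Subgroup.coe_one, map_one]
    refine hg.symm.trans ?_
    have h0 : g • x = x := by
      have := hψs g none
      rw [hg] at this
      exact this.symm
    have h1 : g • y₀ = y₀ := by
      have := hψs g (some 0)
      rw [hg] at this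
      simp [map_zero_scalar, f] at this
      exact this.symm
    have h2 : g • f (some w) = f (some w) := by
      have := hψs g (some w)
      rw [hg, sc_some, haw] at this
      exact this.symm
    rw [hfree g x y₀ (f (some w)) hy₀.symm (fun e => hw ?_) (hne _).symm h0 h1 h2, map_one]
    have : f (some (0 : Additive F)) = f (some w) := by rw [← e]; simp [f]
    exact (Option.some_injective _ (hf.1 this)).symm

theorem Coord.hasNoRegular {V : Type u} [AddCommGroup V] [Finite V] {G : Type u} {Ω : Type v} [Group G] [MulAction G Ω]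
    (e : Ω ≃ Option V) {G' : Subgroup (Equiv.Perm (Option V))} (φ : G ≃* G')
    (hφ : ∀ (g : G) (y : Ω), e (g • y) = ((φ g : G') : Equiv.Perm (Option V)) (e y))
    (hlast : ∀ N : Subgroup G, N.Normal → MulAction.IsPretransitive N Ω → ∃ a : Ω, MulAction.stabilizer N a ≠ ⊥) :
    ¬ HasRegular G' := by
  rintro ⟨N, hNle, hNn, hcard, htr⟩
  let M : Subgroup G := (N.subgroupOf G').comap φ.toMonoidHom
  haveI : (N.subgroupOf G').Normal := ⟨fun n hn g => hNn g g.2 n hn⟩
  haveI : MulAction.IsPretransitive M Ω := ⟨fun y z => by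
    obtain ⟨n, hn, hnyz⟩ := htr (e y) (e z)
    refine ⟨⟨φ.symm ⟨n, hNle hn⟩, ?_⟩, e.injective ?_⟩
    · show φ (φ.symm ⟨n, hNle hn⟩) ∈ N.subgroupOf G'
      simpa [Subgroup.mem_subgroupOf] using hn
    · show e (φ.symm ⟨n, hNle hn⟩ • y) = e z
      rw [hφ, φ.apply_symm_apply]
      exact hnyz⟩
  obtain ⟨a, ha⟩ := hlast M inferInstance inferInstance
  refine ha (Subgroup.eq_bot_of_card_eq _ ?_)
  have hM : Nat.card M = Nat.card V + 1 := by
    rw [← hcard, ← Nat.card_congr (Subgroup.subgroupOfEquivOfLe hNle).toEquiv]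
    exact Nat.card_congr (φ.toEquiv.subtypeEquiv fun g => Iff.rfl)
  have h1 := (MulAction.stabilizer M a).card_mul_index
  rw [MulAction.index_stabilizer_of_transitive, Nat.card_congr e, Finite.card_option, hM] at h1
  exact Nat.eq_of_mul_eq_mul_right (Nat.succ_pos _) (h1.trans (one_mul _).symm)

end CfsgLib.Zas
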