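import Mathlib
import Cfsg.Agent.Zas.Transport
import Cfsg.Agent.Zas.Kernel
import Cfsg.Agent.Zas.Classify
import Cfsg.Agent.Zas.Half
import Cfsg.Agent.Zas.Pair
import Cfsg.Agent.Zas.NotSimple
import Cfsg.Agent.S0738
import Cfsg.Agent.S0741

/-!
Simple Zassenhaus groups with two-point stabilisers of even order.
-/

set_option autoImplicit false

namespace CfsgLib.Zas

universe u v

/-- Coordinates with half of the scalars for a simple Zassenhaus group with even two-point stabilisers. -/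
theorem exists_half_of_simple {G : Type u} {Ω : Type v} [Group G] [Finite G] [MulAction G Ω] [Fintype Ω]
    (hZ : Cfsg.IsZassenhausGroup G Ω) [IsSimpleGroup G] {a b : Ω} (hab : a ≠ b)
    (heven : Even (Nat.card ↥(MulAction.stabilizer G a ⊓ MulAction.stabilizer G b))) :
    ∃ (V : Type u) (_ : AddCommGroup V) (_ : Finite V) (G' : Subgroup (Equiv.Perm (Option V))) (φ : G ≃* G')
      (e : Ω ≃ Option V), (∀ (g : G) (y : Ω), e (g • y) = ((φ g : G') : Equiv.Perm (Option V)) (e y)) ∧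
      e a = none ∧ e b = some 0 ∧ Coord G' ∧ SwapInvol G' ∧ Odd (Nat.card V) ∧ 5 ≤ Nat.card V ∧
      2 * Nat.card (scalars G') = Nat.card V - 1 := by
  classical
  have hlow := Cfsg.Agent.S0741.result hZ hab heven
  obtain ⟨F, hFle, hFn, hreg⟩ := exists_kernel hZ hab
  obtain ⟨hFab, -⟩ := Cfsg.Agent.S0738.result hZ hab hlow F hFle hFn hreg
  obtain ⟨hfaith, h2, hfree, -, hlast⟩ := id hZ
  haveI := hfaith
  haveI := hFab
  haveI := h2
  haveI : MulAction.IsPretransitive G Ω := MulAction.isPretransitive_of_is_two_pretransitive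
  obtain ⟨V, hV, hVfin, e₀, G', φ₀, hC, hφ₀⟩ := exists_coord a b hab.symm F hFle hFn hreg hfree
  have hR := Coord.hasNoRegular e₀ φ₀ hφ₀ hlast
  obtain ⟨e, φ, hφ, hea, heb⟩ := hC.adapt e₀ φ₀ hφ₀ hab
  obtain ⟨ι, hι, hrange, -⟩ := hC.exists_pst e φ hφ hea heb
  have hd' : Nat.card ↥(MulAction.stabilizer G a ⊓ MulAction.stabilizer G b) = Nat.card (scalars G') := by
    rw [← hrange]
    exact (Nat.card_congr (MonoidHom.ofInjective hι).toEquiv).symm
  rw [hd'] at heven
  rcases hC.classify (hd' ▸ CfsgLib.ZGrp.one_lt_card_pst hZ hab) hR with hc | ⟨hodd, h5, hc, hS⟩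
  swap
  · exact ⟨V, hV, hVfin, G', φ, e, hφ, hea, heb, hC, hS, hodd, h5, hc⟩
  exfalso
  have hd1 : 1 < Nat.card (scalars G') := hd' ▸ CfsgLib.ZGrp.one_lt_card_pst hZ hab
  have hodd : Odd (Nat.card V) := by
    obtain ⟨k, hk⟩ := heven
    exact ⟨k, by omega⟩
  obtain ⟨v, hv⟩ : ∃ v : V, v ≠ 0 := by
    haveI := Finite.one_lt_card_iff_nontrivial.mp (show 1 < Nat.card V by omega)
    exact exists_ne 0
  obtain ⟨w, hw⟩ := hC.exists_swap_fix hc hodd hv
  obtain ⟨f, g, hg⟩ := hw.exists_hom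
  have hGcard : Nat.card G = Nat.card G' := Nat.card_congr φ.toEquiv
  set F' : G →* ℤˣ := f.comp φ.toMonoidHom with hF'
  rcases (inferInstance : F'.ker.Normal).eq_bot_or_eq_top with h | h
  · have h1 := F'.ker.card_mul_index
    rw [Subgroup.index_ker, h, Subgroup.card_bot, one_mul] at h1
    have h2 := Subgroup.card_le_card_group F'.range
    rw [h1, hGcard, hC.card_eq, hc, show Nat.card ℤˣ = 2 by simp [Nat.card_eq_fintype_card]] at h2
    have : (2 + 1) * 2 * 1 ≤ (Nat.card V + 1) * Nat.card V * (Nat.card V - 1) :=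
      Nat.mul_le_mul (Nat.mul_le_mul (by omega) (by omega)) (by omega)
    omega
  · have h1 : φ.symm g ∈ F'.ker := h ▸ Subgroup.mem_top _
    rw [MonoidHom.mem_ker, hF', MonoidHom.comp_apply, MulEquiv.coe_toMonoidHom, φ.apply_symm_apply, hg] at h1
    exact absurd h1 (by decide)

end CfsgLib.Zas
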