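import Mathlib
import Cfsg.Agent.Zas.Setup
import Cfsg.Agent.Zas.Count
import Cfsg.Agent.Zas.OddCase
import Cfsg.Agent.Zas.Classify
import Cfsg.Agent.Zas.Half
import Cfsg.Agent.Zas.Transport
import Cfsg.Agent.SharpTwo.Basic

/-!
Sharply three-transitive groups whose degree is one more than an odd power of an odd prime.
-/

set_option autoImplicit false

namespace CfsgLib.Zas

universe u

/-- A sharply three-transitive action has coordinates with all scalars. -/
theorem exists_coord_of_sharp {G : Type u} {Ω : Type u} [Group G] [Finite G] [MulAction G Ω] [FaithfulSMul G Ω]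
    [Finite Ω] (h3 : MulAction.IsMultiplyPretransitive G Ω 3) (hΩ : 3 ≤ Nat.card Ω)
    (hfree : ∀ g : G, ∀ a b c : Ω, a ≠ b → b ≠ c → a ≠ c → g • a = a → g • b = b → g • c = c → g = 1) :
    ∃ (V : Type u) (_ : AddCommGroup V) (_ : Finite V) (G' : Subgroup (Equiv.Perm (Option V))) (φ : G ≃* G')
      (e : Ω ≃ Option V), (∀ (g : G) (y : Ω), e (g • y) = ((φ g : G') : Equiv.Perm (Option V)) (e y)) ∧
      Nat.card V + 1 = Nat.card Ω ∧ Coord G' ∧
      Nat.card (scalars G') = Nat.card V - 1 := by
  classical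
  haveI := h3
  haveI : MulAction.IsMultiplyPretransitive G Ω 2 := MulAction.isMultiplyPretransitive_of_le (n := 3) (by omega)
    (by first | exact hΩ | (rw [ENat.card_eq_coe_natCard]; exact_mod_cast hΩ))
  haveI : MulAction.IsPretransitive G Ω := MulAction.isPretransitive_of_is_two_pretransitive
  haveI := Finite.one_lt_card_iff_nontrivial.mp (show 1 < Nat.card Ω by omega)
  obtain ⟨y₀, x, hy₀⟩ := exists_pair_ne Ω
  let H := MulAction.stabilizer G x
  let β := SubMulAction.ofStabilizer G x
  haveI : MulAction.IsMultiplyPretransitive H β 2 :=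
    (SubMulAction.ofStabilizer.isMultiplyPretransitive (n := 2)).mp h3
  have hsharp : ∀ t : Fin 2 ↪ β, MulAction.stabilizer H t = ⊥ := fun t =>
    (Subgroup.eq_bot_iff_forall _).mpr fun g hg => by
      have hfix : ∀ i, g • t i = t i := fun i =>
        (Function.Embedding.smul_apply g t i).symm.trans (congrArg (fun u : Fin 2 ↪ β => u i) hg)
      have h0 : (g : G) • (t 0 : Ω) = (t 0 : Ω) := congrArg Subtype.val (hfix 0)
      have h1 : (g : G) • (t 1 : Ω) = (t 1 : Ω) := congrArg Subtype.val (hfix 1)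
      exact Subtype.ext (hfree g x (t 0) (t 1) (Ne.symm (t 0).2) (fun e => by simpa using t.injective (Subtype.ext e))
        (Ne.symm (t 1).2) g.2 h0 h1)
  have hcardβ : Nat.card β + 1 = Nat.card Ω := by
    rw [← Finite.card_option]
    exact (Nat.card_congr (Equiv.optionSubtypeNe x))
  obtain ⟨r, j, N, hr, hj, hβ, hN, hNn, -, habel, hexp, hfreeN, htransN⟩ :=
    CfsgLib.SharpTwo.exists_regular_normal (G := H) hsharp (by omega)
  set F := N.map H.subtype with hF
  have hFle : F ≤ H := Subgroup.map_subtype_le N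
  have hFsub : F.subgroupOf H = N := Subgroup.comap_map_eq_self_of_injective H.subtype_injective N
  haveI : IsMulCommutative F := ⟨⟨by
    rintro ⟨_, a, ha, rfl⟩ ⟨_, b, hb, rfl⟩
    exact Subtype.ext (show (a : G) * b = b * a from congrArg Subtype.val (habel a ha b hb))⟩⟩
  have hreg : ∀ y z : Ω, y ≠ x → z ≠ x → ∃! u : F, (u : G) • y = z := by
    intro y z hy hz
    obtain ⟨g, hg, hgy⟩ := htransN ⟨y, hy⟩ ⟨z, hz⟩
    refine ⟨⟨g, g, hg, rfl⟩, congrArg Subtype.val hgy, ?_⟩
    rintro ⟨_, a, ha, rfl⟩ (hay : (a : G) • y = z)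
    suffices e : a = g by subst e; rfl
    refine (inv_mul_eq_one.mp (hfreeN _ (N.mul_mem (N.inv_mem hg) ha) ⟨y, hy⟩ ?_)).symm
    rw [mul_smul, inv_smul_eq_iff, hgy]
    exact Subtype.ext hay
  obtain ⟨V, hV, hVfin, e, G', φ, hC, hφ⟩ := exists_coord x y₀ hy₀ F hFle (hFsub.symm ▸ hNn) hreg hfree
  have hcardV : Nat.card V + 1 = Nat.card Ω := by rw [← Finite.card_option, Nat.card_congr e]
  have hV0 : 2 ≤ Nat.card V := by omega
  haveI := Finite.one_lt_card_iff_nontrivial.mp (show 1 < Nat.card V by omega)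
  obtain ⟨v, hv⟩ := exists_ne (0 : V)
  -- scalars move `v` everywhere
  have hmove : ∀ c : V, c ≠ 0 → ∃ a : scalars G', (a : Equiv.Perm V) v = c := by
    intro c hc
    let f₁ : Fin 3 ↪ Ω := ⟨fun i => e.symm (![none, some 0, some v] i), by
      intro i k hik
      have := e.symm.injective hik
      fin_cases i <;> fin_cases k <;> simp [hv, hv.symm] at this ⊢⟩
    let f₂ : Fin 3 ↪ Ω := ⟨fun i => e.symm (![none, some 0, some c] i), by
      intro i k hik
      have := e.symm.injective hik
      fin_cases i <;> fin_cases k <;> simp [hc, hc.symm] at this ⊢⟩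
    obtain ⟨g, hg⟩ := MulAction.exists_smul_eq G f₁ f₂
    have hg' : ∀ i, ((φ g : G') : Equiv.Perm (Option V)) (![none, some 0, some v] i) = ![none, some 0, some c] i := by
      intro i
      have := congrArg (fun u : Fin 3 ↪ Ω => e (u i)) hg
      simp only [Function.Embedding.smul_apply, hφ, f₁, f₂, Function.Embedding.coeFn_mk, Equiv.apply_symm_apply] at this
      exact (e.apply_symm_apply _ ▸ e.apply_symm_apply _ ▸ this :)
    obtain ⟨a, ha⟩ := hC.fix_two (φ g).2 (hg' 0) (hg' 1)
    refine ⟨a, ?_⟩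
    have := hg' 2
    rw [ha] at this
    simpa using this
  refine ⟨V, hV, hVfin, G', φ, e, hφ, hcardV, hC, ?_⟩
  refine le_antisymm ?_ ?_
  · exact Nat.le_of_dvd (by omega) hC.dvd_card_sub_one
  · haveI := Fintype.ofFinite V
    rw [show Nat.card V - 1 = Nat.card {c : V // ¬c = 0} by
      rw [Nat.card_eq_fintype_card, Nat.card_eq_fintype_card, Fintype.card_subtype_compl, Fintype.card_subtype_eq]]
    choose f hf using hmove
    refine Nat.card_le_card_of_injective (fun c : {c : V // ¬c = 0} => f c.1 c.2) fun c c' h => Subtype.ext ?_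
    rw [← hf c.1 c.2, ← hf c'.1 c'.2]
    exact congrArg (fun a : scalars G' => (a : Equiv.Perm V) v) h

/-- All scalars: the kernel has prime exponent. -/
theorem Coord.exponent_of_full {V : Type u} [AddCommGroup V] [Finite V] {G : Subgroup (Equiv.Perm (Option V))}
    (h : Coord G) (hd : Nat.card (scalars G) = Nat.card V - 1) {p : ℕ} (hp : p.Prime) (hdvd : p ∣ Nat.card V) (c : V) :
    p • c = 0 := by
  classical
  haveI := Fact.mk hp
  obtain ⟨v, hv⟩ := exists_prime_addOrderOf_dvd_card' (G := V) p hdvd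
  have hv0 : v ≠ 0 := fun e => by rw [e, addOrderOf_zero] at hv; exact hp.one_lt.ne hv
  rcases eq_or_ne c 0 with rfl | hc
  · simp
  haveI := Fintype.ofFinite V
  haveI := Fintype.ofFinite (scalars G)
  let f : scalars G → {u : V // u ≠ 0} := fun a =>
    ⟨(a : Equiv.Perm V) v, fun e => hv0 ((a : Equiv.Perm V).injective (e.trans (map_zero_scalar a).symm))⟩
  have hbij : Function.Bijective f := (Fintype.bijective_iff_injective_and_card f).mpr
    ⟨fun a b e => h.apply_injective hv0 (congrArg Subtype.val e), by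
      rw [← Nat.card_eq_fintype_card, hd, Fintype.card_subtype_compl, Fintype.card_subtype_eq, Nat.card_eq_fintype_card]⟩
  obtain ⟨a, ha⟩ := hbij.2 ⟨c, hc⟩
  rw [← show (a : Equiv.Perm V) v = c from congrArg Subtype.val ha, ← toAdd_apply, ← map_nsmul,
    show p • v = 0 from hv ▸ addOrderOf_nsmul_eq_zero v, map_zero]

end CfsgLib.Zas
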