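import Mathlib
import Cfsg.Agent.Zas.Setup
import Cfsg.Agent.Zas.Count
import Cfsg.Agent.Zas.OddCase
import Cfsg.Agent.Zas.Classify
import Cfsg.Agent.Zas.Half
import Cfsg.Agent.Zas.SharpThree

/-!
Recognition of `PGL(2, p^f)`, `f` odd, among the sharply three-transitive groups.
-/

set_option autoImplicit false

namespace CfsgLib.Zas

universe u

variable {V : Type u} [AddCommGroup V] [Finite V] {G : Subgroup (Equiv.Perm (Option V))}

/-- The determinant of the scalars over the prime field. -/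
theorem exists_det {p f : ℕ} [Fact p.Prime] [Module (ZMod p) V] (hV : Nat.card V = p ^ f) :
    ∃ Δ : scalars G →* (ZMod p)ˣ, ∀ z : scalars G, (∀ v, (z : Equiv.Perm V) v = -v) → (Δ z : ZMod p) = (-1) ^ f := by
  haveI : Module.Finite (ZMod p) V := Module.Finite.of_finite
  have hrank : Module.finrank (ZMod p) V = f := by
    have h1 := Module.natCard_eq_pow_finrank (K := ZMod p) (V := V)
    rw [hV, Nat.card_zmod] at h1
    exact (Nat.pow_right_injective (Fact.out : p.Prime).two_le h1).symm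
  let Lin : scalars G →* Module.End (ZMod p) V :=
    { toFun := fun a => (toAdd a).toAddMonoidHom.toZModLinearMap p
      map_one' := LinearMap.ext fun v => rfl
      map_mul' := fun a b => LinearMap.ext fun v => rfl }
  refine ⟨(LinearMap.det.comp Lin).toHomUnits, fun z hz => ?_⟩
  show LinearMap.det (Lin z) = (-1) ^ f
  rw [show Lin z = (-1 : ZMod p) • LinearMap.id from LinearMap.ext fun v => by simp [Lin, hz],
    LinearMap.det_smul, LinearMap.det_id, hrank, mul_one]

/-- For odd exponent some scalar is an odd permutation. -/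
theorem exists_odd_scalar [Fintype V] [DecidableEq V] (h : Coord G) (hd : Nat.card (scalars G) = Nat.card V - 1)
    {p f : ℕ} (hp : p.Prime) (hp2 : p ≠ 2) (hV : Nat.card V = p ^ f) (hf : Odd f) :
    ∃ s : scalars G, Equiv.Perm.sign (sc (s : Equiv.Perm V)) = -1 := by
  haveI := Fact.mk hp
  haveI : Fact (Nat.Prime 2) := ⟨Nat.prime_two⟩
  have hodd : Odd (Nat.card V) := hV ▸ (hp.odd_of_ne_two hp2).pow
  have hq2 : 2 ≤ Nat.card V := by
    rw [hV]
    exact hp.two_le.trans (Nat.le_self_pow (by obtain ⟨k, hk⟩ := hf; omega) p)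
  have h2d : 2 ∣ Nat.card (scalars G) := by
    rw [hd]; obtain ⟨k, hk⟩ := hodd; exact ⟨k, by omega⟩
  obtain ⟨z, hz1, hz⟩ := h.neg_mem h2d
  have hinv : ∀ a : scalars G, a * a = 1 → a ≠ 1 → a = z := fun a ha ha1 => Subtype.ext (Equiv.ext fun v => by
    rw [hz]
    by_contra hne
    refine ha1 (h.free a (v + (a : Equiv.Perm V) v) (fun e => hne (eq_neg_of_add_eq_zero_right e)) ?_)
    rw [map_add_scalar, ← Equiv.Perm.mul_apply, ← Subgroup.coe_mul, ha, Subgroup.coe_one, Equiv.Perm.one_apply,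
      add_comm])
  letI : Module (ZMod p) V :=
    AddCommGroup.zmodModule (fun c => h.exponent_of_full hd hp (hV ▸ dvd_pow_self p (by obtain ⟨k, hk⟩ := hf; omega)) c)
  obtain ⟨Δ, hΔ⟩ := exists_det (G := G) (p := p) hV
  have hΔz : (Δ z : ZMod p) = -1 := by rw [hΔ z hz, hf.neg_one_pow]
  obtain ⟨P⟩ : Nonempty (Sylow 2 (scalars G)) := inferInstance
  have hker : Function.Injective (Δ.comp (P : Subgroup (scalars G)).subtype) := by
    rw [← MonoidHom.ker_eq_bot_iff]
    by_contra hne
    obtain ⟨a, ha, ha1⟩ := (Subgroup.bot_or_exists_ne_one _).resolve_left hne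
    obtain ⟨k, hk⟩ := P.2 a
    obtain ⟨m, -, hm⟩ := (Nat.dvd_prime_pow Nat.prime_two).mp (orderOf_dvd_of_pow_eq_one hk)
    rcases Nat.eq_zero_or_pos m with rfl | hm0
    · exact ha1 (orderOf_eq_one_iff.mp hm)
    obtain ⟨n, rfl⟩ : ∃ n, m = n + 1 := ⟨m - 1, by omega⟩
    have e : orderOf (a ^ 2 ^ n) = 2 := by
      rw [orderOf_pow' a (by positivity), hm, Nat.gcd_eq_right (pow_dvd_pow 2 (Nat.le_succ n)), pow_succ,
        Nat.mul_div_cancel_left _ (by positivity)]
    have hb : ((a ^ 2 ^ n : P) : scalars G) = z := by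
      refine hinv _ ?_ fun e1 => ?_
      · have h5 := pow_orderOf_eq_one (a ^ 2 ^ n)
        rw [e, pow_two] at h5
        rw [← Subgroup.coe_mul, h5]; rfl
      · rw [show a ^ 2 ^ n = 1 from Subtype.ext e1, orderOf_one] at e
        omega
    have h1 : Δ z = 1 := by
      rw [← hb]
      exact MonoidHom.mem_ker.mp (Subgroup.pow_mem (Δ.comp (P : Subgroup (scalars G)).subtype).ker ha _)
    rw [h1, Units.val_one] at hΔz
    have h3 : ((2 : ℕ) : ZMod p) = 0 := by push_cast; linear_combination hΔz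
    exact hp2 ((Nat.prime_dvd_prime_iff_eq hp Nat.prime_two).mp ((ZMod.natCast_eq_zero_iff 2 p).mp h3))
  haveI : IsCyclic P := isCyclic_of_injective _ hker
  obtain ⟨g, hg⟩ := IsCyclic.exists_generator (α := P)
  set s : scalars G := g.1
  set v := (Nat.card (scalars G)).factorization 2 with hvdef
  have hord : orderOf s = 2 ^ v := by
    rw [show orderOf s = orderOf g from Subgroup.orderOf_coe g, orderOf_eq_card_of_forall_mem_zpowers hg,
      P.card_eq_multiplicity]
  have hv0 : 0 < v := Nat.prime_two.factorization_pos_of_dvd Nat.card_pos.ne' h2d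
  obtain ⟨n, hn⟩ : ∃ n, v = n + 1 := ⟨v - 1, by omega⟩
  have hzs : s ^ 2 ^ n = z := by
    refine hinv _ ?_ fun e => ?_
    · rw [← pow_add, ← two_mul, ← pow_succ', ← hn, ← hord, pow_orderOf_eq_one]
    · have h1 := Nat.le_of_dvd (by positivity) (orderOf_dvd_of_pow_eq_one e)
      rw [hord, hn, pow_succ] at h1
      have : 0 < 2 ^ n := by positivity
      omega
  refine ⟨s, ?_⟩
  set σ := sc (s : Equiv.Perm V) with hσ
  have hs1 : s ≠ 1 := fun e => hz1 (by rw [← hzs, e, one_pow])
  have hsupp : σ.support = Finset.univ.filter fun o => o ≠ none ∧ o ≠ some 0 := by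
    ext o
    rw [Equiv.Perm.mem_support, Finset.mem_filter]
    cases o with
    | none => simp [hσ]
    | some c =>
      simp only [hσ, sc_some, ne_eq, Option.some.injEq, Finset.mem_univ, true_and, reduceCtorEq, not_false_eq_true]
      exact ⟨fun hne e => hne (by rw [e, map_zero_scalar]), fun hc e => hs1 (h.free s c hc e)⟩
  have hcard : σ.support.card = Nat.card V - 1 := by
    have h0 : (Finset.univ.filter fun o : Option V => o ≠ none ∧ o ≠ some 0) = Finset.univ \ {none, some 0} := by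
      ext o; simp
    rw [hsupp, h0, Finset.card_sdiff_of_subset (Finset.subset_univ _), Finset.card_univ, Finset.card_pair (by simp),
      Fintype.card_option, Nat.card_eq_fintype_card]
    omega
  have hall : ∀ m ∈ σ.cycleType, m = 2 ^ v := by
    intro m hm
    have hdvd : m ∣ 2 ^ v := by
      rw [← hord]
      refine (Equiv.Perm.dvd_of_mem_cycleType hm).trans (orderOf_dvd_of_pow_eq_one ?_)
      rw [hσ, ← map_pow, ← Subgroup.coe_pow, pow_orderOf_eq_one, Subgroup.coe_one, map_one]
    obtain ⟨i, hiv, rfl⟩ := (Nat.dvd_prime_pow Nat.prime_two).mp hdvd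
    rcases eq_or_lt_of_le hiv with rfl | hlt
    · rfl
    exfalso
    rw [Equiv.Perm.cycleType_def, Multiset.mem_map] at hm
    obtain ⟨c, hc, hcard'⟩ := hm
    obtain ⟨hcyc, hagree⟩ := Equiv.Perm.mem_cycleFactorsFinset_iff.mp hc
    obtain ⟨o, ho⟩ := hcyc.nonempty_support
    have hc1 : c ^ 2 ^ i = 1 := by
      rw [← show orderOf c = 2 ^ i from hcyc.orderOf.trans hcard', pow_orderOf_eq_one]
    have hpow : ∀ k : ℕ, (c ^ k) o = (σ ^ k) o := by
      intro k
      induction k with
      | zero => rfl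
      | succ k ih =>
        rw [pow_succ', pow_succ', Equiv.Perm.mul_apply, Equiv.Perm.mul_apply, ← ih]
        exact hagree _ (Equiv.Perm.pow_apply_mem_support.mpr ho)
    have hfix : (σ ^ 2 ^ n) o = o := by
      rw [← hpow]
      have : c ^ 2 ^ n = 1 := by
        obtain ⟨t, ht⟩ := pow_dvd_pow 2 (show i ≤ n by omega)
        rw [ht, pow_mul, hc1, one_pow]
      rw [this]; rfl
    rw [hσ, ← map_pow, ← Subgroup.coe_pow, hzs] at hfix
    have hmem : o ∈ σ.support := Equiv.Perm.mem_cycleFactorsFinset_support_le hc ho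
    rw [hsupp, Finset.mem_filter] at hmem
    cases o with
    | none => exact hmem.2.1 rfl
    | some x =>
      rw [sc_some, Option.some_inj] at hfix
      exact hz1 (h.free z x (fun e => hmem.2.2 (by rw [e])) hfix)
  have hrep := Multiset.eq_replicate_card.mpr hall
  have hsum : Multiset.card σ.cycleType * 2 ^ v = Nat.card (scalars G) := by
    rw [hd, ← hcard, ← Equiv.Perm.sum_cycleType, hrep, Multiset.sum_replicate, Multiset.card_replicate, smul_eq_mul]
  have hcodd : Odd (Multiset.card σ.cycleType) := by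
    refine Nat.not_even_iff_odd.mp fun he => ?_
    obtain ⟨t, ht⟩ := he
    refine Nat.pow_succ_factorization_not_dvd Nat.card_pos.ne' Nat.prime_two (n := Nat.card (scalars G)) ⟨t, ?_⟩
    rw [← hvdef, ← hsum, ht, pow_succ]; ring
  rw [Equiv.Perm.sign_of_cycleType, hrep, Multiset.sum_replicate, Multiset.card_replicate, smul_eq_mul]
  refine Odd.neg_one_pow ?_
  obtain ⟨t, ht⟩ := hcodd
  refine ⟨Multiset.card σ.cycleType * 2 ^ n + t, ?_⟩
  rw [hn, pow_succ, ht]; ring

/-- An involution with just two fixed points bounds an elementary abelian regular normal subgroup by four. -/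
theorem regular_small (h : Coord G) {z : scalars G} (hz1 : z ≠ 1) (hzz : z * z = 1)
    {N : Subgroup (Equiv.Perm (Option V))} (hcard : Nat.card N = Nat.card V + 1) (htr : ∀ x y, ∃ n ∈ N, n x = y)
    (h2 : ∀ n : N, n * n = 1)
    (hnorm : ∀ n ∈ N, sc (z : Equiv.Perm V) * n * (sc (z : Equiv.Perm V))⁻¹ ∈ N) : Nat.card V + 1 ≤ 4 := by
  classical
  set Z := sc (z : Equiv.Perm V) with hZ
  have hZZ : Z * Z = 1 := by rw [hZ, ← map_mul, ← Subgroup.coe_mul, hzz, Subgroup.coe_one, map_one]
  have hev := ev_bijective hcard htr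
  have hcomm : ∀ a b : N, a * b = b * a := fun a b => by
    have e := h2 (a * b)
    calc a * b = (a * b)⁻¹ := eq_inv_of_mul_eq_one_left e
      _ = b⁻¹ * a⁻¹ := mul_inv_rev a b
      _ = b * a := by rw [← eq_inv_of_mul_eq_one_left (h2 a), ← eq_inv_of_mul_eq_one_left (h2 b)]
  let τ : N →* N := MonoidHom.mk' (fun n => ⟨Z * n * Z⁻¹, hnorm n n.2⟩) fun a b => Subtype.ext (by simp [mul_assoc])
  have hττ : ∀ n, τ (τ n) = n := fun n => Subtype.ext (by
    show Z * (Z * n * Z⁻¹) * Z⁻¹ = n
    rw [← eq_inv_of_mul_eq_one_left hZZ, ← mul_assoc, ← mul_assoc, hZZ, one_mul, mul_assoc, hZZ, mul_one])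
  let ψ : N →* N := MonoidHom.mk' (fun n => n * τ n) fun a b => by
    rw [map_mul, mul_assoc, mul_assoc, ← mul_assoc b, hcomm b (τ a), mul_assoc]
  have hfix : ∀ n : N, τ n = n → (n : Equiv.Perm (Option V)) none = none ∨ (n : Equiv.Perm (Option V)) none = some 0 := by
    intro n hn
    have e : Z ((n : Equiv.Perm (Option V)) (Z⁻¹ none)) = (n : Equiv.Perm (Option V)) none :=
      congrArg (fun m : N => (m : Equiv.Perm (Option V)) none) hn
    have e' : Z ((n : Equiv.Perm (Option V)) none) = (n : Equiv.Perm (Option V)) none := by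
      rwa [show Z⁻¹ none = none from Equiv.Perm.inv_eq_iff_eq.mpr (by simp [hZ])] at e
    rcases hc : (n : Equiv.Perm (Option V)) none with _ | c
    · exact Or.inl rfl
    · rw [hc, hZ, sc_some, Option.some_inj] at e'
      rcases eq_or_ne c 0 with rfl | hc0
      · exact Or.inr rfl
      · exact absurd (h.free z c hc0 e') hz1
  have hsmall : ∀ S : Subgroup N, (∀ n ∈ S, τ n = n) → Nat.card S ≤ 2 := by
    intro S hS
    haveI := Fintype.ofFinite S
    rw [Nat.card_eq_fintype_card, ← Finset.card_univ]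
    refine (Finset.card_le_card_of_injOn (t := ({none, some 0} : Finset (Option V)))
      (fun n : S => ((n : N) : Equiv.Perm (Option V)) none) (fun n _ => ?_) ?_).trans Finset.card_le_two
    · rcases hfix n (hS n n.2) with e | e <;> simp [e]
    · intro a _ b _ e
      exact Subtype.ext (hev.1 e)
  have hk := hsmall ψ.ker fun n hn => by
    have e : n * τ n = 1 := hn
    rw [← mul_one (τ n), ← h2 n, ← mul_assoc, hcomm (τ n) n, e, one_mul]
  have hr := hsmall ψ.range fun m hm => by
    obtain ⟨n, rfl⟩ := hm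
    show τ (n * τ n) = n * τ n
    rw [map_mul, hττ, hcomm]
  have := ψ.ker.card_mul_index
  rw [Subgroup.index_ker, hcard] at this
  rw [← this]
  exact Nat.mul_le_mul hk hr

theorem sc_sq_sign [Fintype V] [DecidableEq V] (a : Equiv.Perm (Option V)) : Equiv.Perm.sign (a * a) = 1 := by
  rw [map_mul, Int.units_mul_self]

set_option maxHeartbeats 800000 in
/-- All scalars, odd exponent: the group is `PGL₂`. -/
theorem iso_pgl_of_full (h : Coord G) (hd : Nat.card (scalars G) = Nat.card V - 1)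
    {p f : ℕ} (hp : p.Prime) (hp2 : p ≠ 2) (hV : Nat.card V = p ^ f) (hf : Odd f) :
    ∃ (K : Type) (_ : Field K) (_ : Fintype K), Fintype.card K = p ^ f ∧
      Nonempty (G ≃* Matrix.ProjGenLinGroup (Fin 2) K) := by
  classical
  haveI := Fintype.ofFinite V
  have hodd : Odd (Nat.card V) := hV ▸ (hp.odd_of_ne_two hp2).pow
  obtain ⟨k, hk⟩ := hodd
  have hf0 : f ≠ 0 := by obtain ⟨t, ht⟩ := hf; omega
  have hq3 : 3 ≤ Nat.card V := by
    have := hp.two_le
    have h3 : p ≤ Nat.card V := hV ▸ Nat.le_self_pow hf0 p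
    omega
  have hcardG := h.card_eq
  rw [hd] at hcardG
  rcases Nat.lt_or_ge (Nat.card V) 5 with hq5 | hq5
  · -- three points
    have hq : Nat.card V = 3 := by omega
    haveI : Fact (Nat.Prime 3) := ⟨Nat.prime_three⟩
    have eV : Option V ≃ Option (ZMod 3) := (Finite.equivFinOfCardEq hq).optionCongr.trans
      (Finite.equivFinOfCardEq (Nat.card_zmod 3)).symm.optionCongr
    have hGtop : G = ⊤ := Subgroup.eq_top_of_card_eq _ (by
      rw [hcardG, Nat.card_perm, Finite.card_option, hq]; rfl)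
    have htop : (pglPerm (K := ZMod 3)).range = ⊤ := Subgroup.eq_top_of_card_eq _ (by
      rw [← Nat.card_congr (MonoidHom.ofInjective pglPerm_injective).toEquiv, card_pgl, Nat.card_perm,
        Finite.card_option, Nat.card_zmod]
      rfl)
    refine ⟨ZMod 3, inferInstance, inferInstance, by rw [ZMod.card, ← hV, hq], ⟨?_⟩⟩
    exact ((MulEquiv.subgroupCongr hGtop).trans Subgroup.topEquiv).trans
      (eV.permCongrHom.trans (Subgroup.topEquiv.symm.trans ((MulEquiv.subgroupCongr htop.symm).trans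
        (MonoidHom.ofInjective pglPerm_injective).symm)))
  obtain ⟨s, hs⟩ := exists_odd_scalar h hd hp hp2 hV hf
  set sg := (Equiv.Perm.sign : Equiv.Perm (Option V) →* ℤˣ)
  set G1 := G ⊓ sg.ker with hG1
  have hG1le : G1 ≤ G := inf_le_left
  have hG1n : ∀ g ∈ G, ∀ n ∈ G1, g * n * g⁻¹ ∈ G1 := fun g hg n hn =>
    ⟨G.mul_mem (G.mul_mem hg hn.1) (G.inv_mem hg), (inferInstance : sg.ker.Normal).conj_mem n hn.2 g⟩
  have hsq : ∀ g ∈ G, g * g ∈ G1 := fun g hg => ⟨G.mul_mem hg hg, sc_sq_sign g⟩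
  have htr1 : ∀ b, tr b ∈ G1 := fun b => by
    refine ⟨h.tr_mem b, ?_⟩
    have h1 : tr b ^ Nat.card V = 1 := by rw [tr_pow, card_nsmul_eq_zero', tr_zero]
    have h2 : sg (tr b) ^ Nat.card V = 1 := by rw [← map_pow, h1, map_one]
    rcases Int.units_eq_one_or (sg (tr b)) with e | e
    · exact e
    · rw [e, Odd.neg_one_pow ⟨k, hk⟩] at h2
      exact absurd h2 (by decide)
  have htrans1 : ∀ x y, ∃ g ∈ G1, g x = y := by
    have hto : ∀ x, ∃ g ∈ G1, g none = x := by
      intro x
      obtain ⟨g, hg, hgx⟩ := h.transitive none x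
      rcases Int.units_eq_one_or (sg g) with e | e
      · exact ⟨g, ⟨hg, e⟩, hgx⟩
      · refine ⟨g * sc (s : Equiv.Perm V), ⟨G.mul_mem hg (sc_mem s), ?_⟩, by simpa using hgx⟩
        show sg (g * sc (s : Equiv.Perm V)) = 1
        rw [map_mul, e, show sg (sc (s : Equiv.Perm V)) = -1 from hs]
        rfl
    intro x y
    obtain ⟨g, hg, hgx⟩ := hto x
    obtain ⟨g', hg', hgy⟩ := hto y
    exact ⟨g' * g⁻¹, G1.mul_mem hg' (G1.inv_mem hg), by rw [← hgx]; simp [hgy]⟩
  have h1 : Coord G1 := h.mono hG1le htr1 htrans1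
  have hcard1 : 2 * Nat.card G1 = Nat.card G := by
    let θ : G →* ℤˣ := sg.comp G.subtype
    have hθ : Function.Surjective θ := fun u => by
      rcases Int.units_eq_one_or u with rfl | rfl
      · exact ⟨1, map_one _⟩
      · exact ⟨⟨_, sc_mem s⟩, hs⟩
    have e : θ.ker.map G.subtype = G1 := by
      ext g
      constructor
      · rintro ⟨g, hg, rfl⟩
        exact ⟨g.2, hg⟩
      · rintro ⟨hg, hg'⟩
        exact ⟨⟨g, hg⟩, hg', rfl⟩
    rw [← e, Subgroup.card_map_of_injective G.subtype_injective, ← θ.ker.card_mul_index, Subgroup.index_ker,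
      MonoidHom.range_eq_top.mpr hθ, Subgroup.card_top, mul_comm]
    simp [Nat.card_eq_fintype_card]
  have hd1 : 2 * Nat.card (scalars G1) = Nat.card V - 1 := by
    rw [h1.card_eq, hcardG] at hcard1
    refine Nat.eq_of_mul_eq_mul_left (show 0 < (Nat.card V + 1) * Nat.card V by positivity) ?_
    rw [← hcard1]; ring
  have hR : ¬ HasRegular G1 := by
    rintro ⟨N, hNle, hNn, hNcard, hNtr⟩
    have hel := elementary h1 ⟨k, hk⟩ hNn hNcard hNtr
    haveI : Fact (Nat.Prime 2) := ⟨Nat.prime_two⟩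
    obtain ⟨e, he⟩ := IsPGroup.iff_card.mp (show IsPGroup 2 N from fun n => ⟨1, by rw [pow_one, pow_two, hel]⟩)
    rw [hNcard] at he
    have he3 : 3 ≤ e := by
      rcases Nat.lt_or_ge e 3 with hlt | hge
      · have := Nat.pow_le_pow_right (show 1 ≤ 2 by norm_num) (show e ≤ 2 by omega)
        omega
      · exact hge
    obtain ⟨c, hc⟩ : 4 ∣ Nat.card V + 1 := he ▸ pow_dvd_pow 2 (show 2 ≤ e by omega)
    have hidx : Odd ((N.subgroupOf G1).index) := by
      have hm := (N.subgroupOf G1).card_mul_index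
      rw [Nat.card_congr (Subgroup.subgroupOfEquivOfLe hNle).toEquiv, hNcard, h1.card_eq, mul_assoc] at hm
      rw [Nat.eq_of_mul_eq_mul_left (Nat.succ_pos _) hm]
      refine Odd.mul ⟨k, hk⟩ ⟨c - 1, by omega⟩
    haveI : (N.subgroupOf G1).Normal := ⟨fun n hn g => hNn g g.2 n hn⟩
    obtain ⟨z, hz1, hz⟩ := h.neg_mem (by rw [hd, hk]; exact ⟨k, by omega⟩)
    have hzz : z * z = 1 := Subtype.ext (Equiv.ext fun v => by simp [hz])
    have := regular_small h hz1 hzz hNcard hNtr hel fun n hn => by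
      have hmem := hG1n _ (sc_mem z) n (hNle hn)
      refine CfsgLib.PiClasses.mem_of_coprime_index (N.subgroupOf G1) (x := ⟨_, hmem⟩) ?_
      refine Nat.Coprime.coprime_dvd_left (orderOf_dvd_of_pow_eq_one (n := 2) (Subtype.ext ?_))
        (Nat.coprime_two_left.mpr hidx)
      show (sc (z : Equiv.Perm V) * n * (sc (z : Equiv.Perm V))⁻¹) ^ 2 = 1
      rw [conj_pow, pow_two, show n * n = 1 from congrArg Subtype.val (hel ⟨n, hn⟩)]
      simp
    omega
  rcases h1.classify (by omega) hR with hc | ⟨hq', -, hhalf, hS⟩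
  · omega
  obtain ⟨K, hK, hKfin, hdec, Φ, ω, hchar, hgen, hlin1, ⟨a1, ha1⟩, w, hw, w0, w1, hwr⟩ :=
    exists_linear_of_half h1 hS hq' hq5 hhalf
  letI := hK
  letI := hKfin
  letI := hdec
  have hKV : Nat.card K = Nat.card V := Nat.card_congr Φ.symm.toEquiv
  set G' := G.map (mapPerm Φ).toMonoidHom
  have hle' : G1.map (mapPerm Φ).toMonoidHom ≤ G' := Subgroup.map_mono hG1le
  have hG' : Coord G' := h.mapCoord Φ
  have hlin : ∀ a : scalars G', ∃ u : Kˣ, (a : Equiv.Perm K) = Units.mulLeft u := by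
    intro a
    obtain ⟨g, hg, hga⟩ := a.2.1
    change mapPerm Φ g = sc (a : Equiv.Perm K) at hga
    have hb : (a : Equiv.Perm K) * a1 * (a : Equiv.Perm K)⁻¹ ∈ scalars (G1.map (mapPerm Φ).toMonoidHom) := by
      refine ⟨?_, (addPerm K).mul_mem ((addPerm K).mul_mem a.2.2 a1.2.2) ((addPerm K).inv_mem a.2.2)⟩
      obtain ⟨g1, hg1, hg1a⟩ := a1.2.1
      change mapPerm Φ g1 = sc (a1 : Equiv.Perm K) at hg1a
      refine ⟨g * g1 * g⁻¹, hG1n g hg g1 hg1, ?_⟩
      show mapPerm Φ _ = sc _
      simp only [map_mul, map_inv, hga, hg1a]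
    have haa : (a : Equiv.Perm K) * a ∈ scalars (G1.map (mapPerm Φ).toMonoidHom) := by
      refine ⟨⟨g * g, hsq g hg, ?_⟩, (addPerm K).mul_mem a.2.2 a.2.2⟩
      show mapPerm Φ _ = sc _
      simp only [map_mul, hga]
    obtain ⟨u, hu⟩ := hlin1 ⟨_, hb⟩
    obtain ⟨u2, hu2⟩ := hlin1 ⟨_, haa⟩
    let S : K →+ K := (toAdd a).toAddMonoidHom
    have hS1 : S 1 ≠ 0 := fun e => one_ne_zero ((toAdd a).injective (e.trans (map_zero (toAdd a)).symm))
    obtain ⟨φ, -, hSφ⟩ := exists_ringHom hgen S hS1 (ω' := (u : K)) fun y => by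
      have e := congrArg (fun g : Equiv.Perm K => g ((a : Equiv.Perm K) y)) hu
      simp only [Equiv.Perm.mul_apply, Equiv.Perm.inv_def, Equiv.symm_apply_apply, ha1, Units.mulLeft_apply] at e
      exact e
    have h2 : ∀ y : K, S 1 * φ (S 1) * φ (φ y) = u2 * y := fun y => by
      have e := congrArg (fun g : Equiv.Perm K => g y) hu2
      simp only [Equiv.Perm.mul_apply, Units.mulLeft_apply] at e
      rw [← e]
      show _ = S (S y)
      rw [hSφ y, hSφ (S 1 * φ y), map_mul]
      ring
    have hu21 : S 1 * φ (S 1) = u2 := by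
      have := h2 1
      simpa using this
    have hφ2 : ∀ y, φ (φ y) = y := fun y => by
      have := h2 y
      rw [hu21] at this
      exact mul_left_cancel₀ (Units.ne_zero u2) this
    have hid : ∀ y, φ y = y := by
      by_contra hne
      push Not at hne
      obtain ⟨y0, hy0⟩ := hne
      set c := y0 - φ y0 with hcdef
      have hc0 : c ≠ 0 := sub_ne_zero.mpr fun e => hy0 e.symm
      have hφc : φ c = -c := by rw [hcdef, map_sub, hφ2]; ring
      have h2K : (2 : K) ≠ 0 := Ring.two_ne_zero hchar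
      let L := {y : K // φ y = y}
      have hbij : Function.Bijective fun x : L × L => (x.1 : K) + c * x.2 := by
        refine ⟨fun x y e => ?_, fun y => ?_⟩
        · have e' := congrArg φ e
          simp only [map_add, map_mul, hφc, x.1.2, x.2.2, y.1.2, y.2.2] at e'
          simp only at e
          have e2 : (2 : K) * c * ((x.2 : K) - y.2) = 0 := by linear_combination e - e'
          have e3 : (x.2 : K) = y.2 :=
            sub_eq_zero.mp ((mul_eq_zero.mp e2).resolve_left (mul_ne_zero h2K hc0))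
          have e4 : (x.1 : K) = y.1 := by linear_combination e - c * e3
          exact Prod.ext (Subtype.ext e4) (Subtype.ext e3)
        · have hφ2' : φ 2 = 2 := map_ofNat φ 2
          refine ⟨(⟨(y + φ y) / 2, ?_⟩, ⟨(y - φ y) / (2 * c), ?_⟩), ?_⟩
          · rw [map_div₀, map_add, hφ2, hφ2', add_comm]
          · rw [map_div₀, map_sub, map_mul, hφ2, hφ2', hφc]
            field_simp
            ring
          · simp only
            field_simp
            ring
      have hsquare : IsSquare (p ^ f) := ⟨Nat.card L, by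
        rw [← hV, ← hKV, ← Nat.card_congr (Equiv.ofBijective _ hbij), Nat.card_prod]⟩
      obtain ⟨m, hm⟩ := hsquare
      have hmdvd : m ∣ p ^ f := Dvd.intro _ hm.symm
      obtain ⟨i, -, rfl⟩ := (Nat.dvd_prime_pow hp).mp hmdvd
      rw [← pow_add] at hm
      have := Nat.pow_right_injective hp.two_le hm
      obtain ⟨t, ht⟩ := hf
      omega
    exact ⟨Units.mk0 (S 1) hS1, Equiv.ext fun y => (hSφ y).trans (by rw [hid y]; rfl)⟩
  obtain ⟨iso⟩ := iso_pgl (le_range hG' hlin (hle' hw) w0 w1 hwr)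
    (by rw [hG'.card_eq, card_scalars_map, hKV, hd])
  exact ⟨K, hK, hKfin, by rw [← Nat.card_eq_fintype_card, hKV, hV],
    ⟨(Subgroup.equivMapOfInjective G (mapPerm Φ).toMonoidHom (mapPerm Φ).injective).trans iso⟩⟩

end CfsgLib.Zas
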